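import Cfsg.Agent.PLocalBasics.FactorStructure
import Cfsg.Agent.PLocalBasics.Thompson
import Cfsg.Agent.Offender.MaxElem

/-!
The image of the Thompson subgroup in the automorphism group of a normal elementary abelian subgroup.
-/

set_option autoImplicit false
set_option linter.style.haveILetI false

namespace CfsgLib.PLocalBasics

open scoped commutatorElement

section Model

variable {G : Type*} [Group G] (V : Subgroup G) [V.Normal]

/-- `V` extended by its automorphism group. -/
abbrev ActL : Type _ := SemidirectProduct V (MulAut V) (MonoidHom.id (MulAut V))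

/-- The action of `G` on `V`. -/
def actι : G →* ActL V := SemidirectProduct.inr.comp MulAut.conjNormal

/-- The copy of `V`. -/
def actV : V →* ActL V := SemidirectProduct.inl

theorem actV_injective : Function.Injective (actV V) := SemidirectProduct.inl_injective

theorem actι_conj (g : G) (v : V) :
    actι V g * actV V v * (actι V g)⁻¹ = actV V (MulAut.conjNormal g v) := by
  show SemidirectProduct.inr (MulAut.conjNormal g) * SemidirectProduct.inl v *
    (SemidirectProduct.inr (MulAut.conjNormal g))⁻¹ = SemidirectProduct.inl (MulAut.conjNormal g v)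
  rw [← map_inv]
  exact (SemidirectProduct.inl_aut (φ := MonoidHom.id (MulAut V)) (MulAut.conjNormal g) v).symm

theorem actι_faith (g : G) (h : ∀ v : V, actι V g * actV V v = actV V v * actι V g) : actι V g = 1 := by
  have : (MulAut.conjNormal g : MulAut V) = 1 := MulEquiv.ext fun v => actV_injective V (by
    rw [← actι_conj]; exact mul_inv_eq_iff_eq_mul.2 (h v))
  show SemidirectProduct.inr (MulAut.conjNormal g) = _
  rw [this, map_one]

instance [Finite G] : Finite (ActL V) :=
  haveI : Finite (MulAut V) := DFunLike.finite _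
  Finite.of_equiv _ (SemidirectProduct.equivProd).symm

end Model

variable {K L : Type*} [Group K] [Finite K] [Group L] [Finite L] {p : ℕ} [hp : Fact p.Prime]
  (V : Subgroup K) [V.Normal] (f : K →* L) (j : V →* L)

omit [Finite K] [Finite L] hp in
theorem ker_eq_centralizer (hj : Function.Injective j)
    (hconj : ∀ (k : K) (v : V), f k * j v * (f k)⁻¹ = j (MulAut.conjNormal k v))
    (hfaith : ∀ k : K, (∀ v : V, f k * j v = j v * f k) → f k = 1) :
    f.ker = Subgroup.centralizer (V : Set K) := by
  ext k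
  rw [MonoidHom.mem_ker, Subgroup.mem_centralizer_iff]
  refine ⟨fun h v hv => ?_, fun h => hfaith k fun v => ?_⟩
  · have h1 := hconj k ⟨v, hv⟩
    rw [h, one_mul, inv_one, mul_one] at h1
    have h2 := congrArg Subtype.val (hj h1)
    simp only [MulAut.conjNormal_apply] at h2
    exact (eq_mul_inv_iff_mul_eq.1 h2)
  · have h1 := hconj k v
    have h2 : MulAut.conjNormal k v = v := Subtype.ext (by
      simp only [MulAut.conjNormal_apply]; exact mul_inv_eq_iff_eq_mul.2 (h v v.2).symm)
    rw [h2] at h1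
    exact mul_inv_eq_iff_eq_mul.1 h1

/-- The hypotheses of the structure theorem hold for the image of `J(K)`. -/
theorem model_faithCtx (hsep : Cfsg.IsPSolvable p K) (hV : Cfsg.IsElementaryAbelian p V)
    (hO : Cfsg.pCore p (K ⧸ Subgroup.centralizer (V : Set K)) = ⊥) (hj : Function.Injective j)
    (hconj : ∀ (k : K) (v : V), f k * j v * (f k)⁻¹ = j (MulAut.conjNormal k v))
    (hfaith : ∀ k : K, (∀ v : V, f k * j v = j v * f k) → f k = 1) :
    FaithCtx p j.range ((Cfsg.thompsonSubgroup p K).map f) ∧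
      OffGen p j.range ((Cfsg.thompsonSubgroup p K).map f) := by
  haveI := hV.1
  set C := Subgroup.centralizer (V : Set K) with hC
  set J := Cfsg.thompsonSubgroup p K with hJ
  haveI : J.Characteristic := thompson_characteristic
  set H := J.map f with hH
  have hker := ker_eq_centralizer V f j hj hconj hfaith
  have hel : Cfsg.IsElementaryAbelian p j.range := by
    refine ⟨⟨⟨fun x y => ?_⟩⟩, ?_⟩
    · obtain ⟨⟨_, u, rfl⟩, ⟨_, w, rfl⟩⟩ := x, y
      exact Subtype.ext (show j u * j w = j w * j u by rw [← map_mul, ← map_mul, mul_comm'])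
    · rintro _ ⟨u, rfl⟩
      rw [← map_pow, show u ^ p = 1 from Subtype.ext (by simpa using hV.2 u u.2), map_one]
  have hnorm : H ≤ Subgroup.normalizer (j.range : Set L) := by
    rintro _ ⟨g, -, rfl⟩
    refine Subgroup.mem_normalizer_fintype ?_
    rintro _ ⟨v, rfl⟩
    exact ⟨MulAut.conjNormal g v, (hconj g v).symm⟩
  have hf : H ⊓ Subgroup.centralizer (j.range : Set L) = ⊥ := by
    rw [Subgroup.eq_bot_iff_forall]
    rintro _ ⟨⟨g, -, rfl⟩, hg⟩
    exact hfaith g fun v => (Subgroup.mem_centralizer_iff.1 hg (j v) ⟨v, rfl⟩).symm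
  -- `O_p` of the image is trivial
  let e : K ⧸ C ≃* f.range :=
    (QuotientGroup.quotientMulEquivOfEq hker.symm).trans (QuotientGroup.quotientKerEquivRange f)
  have hR : Cfsg.pCore p f.range = ⊥ := by rw [← CfsgLib.PCore.map_pCore_equiv e, hO, Subgroup.map_bot]
  have hRs : Cfsg.IsPSolvable p f.range :=
    CfsgLib.PCore.isPSolvable_of_equiv e (CfsgLib.PCore.isPSolvable_quotient hsep C)
  set N := J.map f.rangeRestrict with hN
  haveI : N.Normal := Subgroup.Normal.map inferInstance _ f.rangeRestrict_surjective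
  have hNH : N.map f.range.subtype = H := by
    rw [hN, Subgroup.map_map]; rfl
  let eN : N ≃* H := (Subgroup.equivMapOfInjective N f.range.subtype f.range.subtype_injective).trans
    (MulEquiv.subgroupCongr hNH)
  have hHO : Cfsg.pCore p H = ⊥ := by
    have h := CfsgLib.PCore.map_pCore_normal (p := p) N
    rw [hR, bot_inf_eq, Subgroup.map_eq_bot_iff, Subgroup.ker_subtype] at h
    rw [← CfsgLib.PCore.map_pCore_equiv eN, le_bot_iff.1 h, Subgroup.map_bot]
  have hHs : Cfsg.IsPSolvable p H :=
    CfsgLib.PCore.isPSolvable_of_equiv eN (CfsgLib.PCore.isPSolvable_subgroup hRs N)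
  -- best offenders
  have hcent : ∀ B : Subgroup K, j.range ⊓ Subgroup.centralizer ((B.map f : Subgroup L) : Set L) =
      ((V ⊓ Subgroup.centralizer (B : Set K)).subgroupOf V).map j := by
    intro B
    refine le_antisymm ?_ ?_
    · rintro _ ⟨⟨v, rfl⟩, hv⟩
      refine ⟨v, ⟨v.2, Subgroup.mem_centralizer_iff.2 fun a ha => ?_⟩, rfl⟩
      have h1 := Subgroup.mem_centralizer_iff.1 hv (f a) ⟨a, ha, rfl⟩
      have h2 : MulAut.conjNormal a v = v := hj (by rw [← hconj]; exact mul_inv_eq_iff_eq_mul.2 h1)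
      have h3 := congrArg Subtype.val h2
      simp only [MulAut.conjNormal_apply] at h3
      exact mul_inv_eq_iff_eq_mul.1 h3
    · rintro _ ⟨v, hv, rfl⟩
      refine ⟨⟨v, rfl⟩, Subgroup.mem_centralizer_iff.2 ?_⟩
      rintro _ ⟨a, ha, rfl⟩
      refine mul_inv_eq_iff_eq_mul.1 ((hconj a v).trans (congrArg j (Subtype.ext ?_)))
      simp only [MulAut.conjNormal_apply]
      exact mul_inv_eq_iff_eq_mul.2 (Subgroup.mem_centralizer_iff.1 hv.2 a ha)
  have hcardC : ∀ B : Subgroup K, Nat.card ↥(j.range ⊓ Subgroup.centralizer ((B.map f : Subgroup L) : Set L)) =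
      Nat.card ↥(V ⊓ Subgroup.centralizer (B : Set K)) := fun B => by
    rw [hcent, Subgroup.card_map_of_injective hj, Nat.card_congr (Subgroup.subgroupOfEquivOfLe inf_le_left).toEquiv]
  have hcardM : ∀ B : Subgroup K, Nat.card ↥(B ⊓ f.ker) * Nat.card (B.map f) = Nat.card B := fun B => by
    have hk : (f.subgroupMap B).ker = (B ⊓ f.ker).subgroupOf B := by
      ext x
      rw [MonoidHom.mem_ker, Subtype.ext_iff, Subgroup.mem_subgroupOf, Subgroup.mem_inf, MonoidHom.mem_ker]
      exact ⟨fun h => ⟨x.2, h⟩, fun h => h.2⟩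
    rw [← Nat.card_congr (Subgroup.subgroupOfEquivOfLe (inf_le_left : B ⊓ f.ker ≤ B)).toEquiv, ← hk,
      ← Subgroup.card_mul_index (f.subgroupMap B).ker, Subgroup.index_ker,
      MonoidHom.range_eq_top.2 (MonoidHom.subgroupMap_surjective _ _), Subgroup.card_top]
  have hbest : ∀ A ∈ Cfsg.maxElementaryAbelianSubgroups p K, Cfsg.IsBestOffenderOn p j.range (A.map f) := by
    intro A hA
    have hAb := CfsgLib.Offender.isBestOffenderOn_of_max hV hA
    refine ⟨fun B' hB' => ?_, Subgroup.commutator_le.2 ?_, ?_⟩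
    · set B := A ⊓ B'.comap f
      have hB : B.map f = B' := by
        refine le_antisymm ((Subgroup.map_mono inf_le_right).trans (Subgroup.map_comap_le _ _)) fun b hb => ?_
        obtain ⟨a, ha, rfl⟩ := hB' hb
        exact ⟨a, ⟨ha, hb⟩, rfl⟩
      have hBk : B ⊓ f.ker = A ⊓ f.ker := le_antisymm (inf_le_inf_right _ inf_le_left)
        (le_inf (le_inf inf_le_left fun x hx => by
          show f x ∈ B'
          rw [MonoidHom.mem_ker.1 hx.2]; exact one_mem _) inf_le_right)
      have h1 := hAb.1 B inf_le_left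
      rw [← hcardC, ← hcardC, hB, ← hcardM B, ← hcardM A, hB, hBk, mul_assoc, mul_assoc] at h1
      exact Nat.le_of_mul_le_mul_left h1 Nat.card_pos
    · rintro _ ⟨a, ha, rfl⟩ _ ⟨b, hb, rfl⟩
      haveI := hA.1.1
      rw [← map_commutatorElement, commutatorElement_eq_one_iff_mul_comm.2 (setLike_mul_comm ha hb), map_one]
      exact one_mem _
    · rintro _ ⟨a, ha, rfl⟩
      rw [← map_pow, hA.1.2 a ha, map_one]
      exact one_mem _
  refine ⟨⟨hel, hnorm, hf, centralizer_pPrimeCore_le p hHs hHO⟩, le_antisymm ?_ (iSup_le fun A => A.2.1)⟩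
  rw [hH, hJ, Cfsg.thompsonSubgroup, sSup_eq_iSup', Subgroup.map_iSup]
  exact iSup_le fun A => le_iSup_of_le ⟨(A : Subgroup K).map f,
    le_iSup (fun A : Cfsg.maxElementaryAbelianSubgroups p K => (A : Subgroup K).map f) A, hbest A A.2⟩ le_rfl

/-- `Ω₁(Z(S))` joins in a `p`-solvable group with trivial `p'`-core. -/
theorem omegaJoin_data (hsep : Cfsg.IsPSolvable p K) (hO : Cfsg.pPrimeCore p K = ⊥) :
    (omegaJoin p K).Normal ∧ Cfsg.IsElementaryAbelian p (omegaJoin p K) ∧
      ∀ [(omegaJoin p K).Normal], Cfsg.pCore p (K ⧸ Subgroup.centralizer (omegaJoin p K : Set K)) = ⊥ := by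
  obtain ⟨h1, h2, -⟩ := omegaJoin_props (CfsgLib.PCore.hall_higman hsep hO)
  refine ⟨h1, h2, @fun hn => pCore_quotient_eq_bot (omegaJoin p K) (iSup_le fun S => ?_)⟩
  exact le_iSup_of_le S (le_inf (le_iSup (fun S : Sylow p K => Cfsg.omegaOne p
    ((S : Subgroup K) ⊓ Subgroup.centralizer ((S : Subgroup K) : Set K))) S) ((omegaOne_le _).trans inf_le_right))

omit [Finite K] [Finite L] in
theorem exists_minOff {G : Type*} [Group G] [Finite G] {W H : Subgroup G} (c : FaithCtx p W H)
    (hgen : OffGen p W H) (hH : H ≠ ⊥) : ∃ A, MinOff p W H A := by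
  by_contra hne
  push Not at hne
  refine hH (le_bot_iff.1 ((le_iSup_factE c hgen).trans ?_))
  exact iSup_le fun B => absurd B.2 (hne B)

end CfsgLib.PLocalBasics
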