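import Cfsg.Agent.PLocalBasics.ActModel
import Mathlib.LinearAlgebra.Matrix.GeneralLinearGroup.Card

/-!
A group of order prime to `|H|` permuting the factors of the structure theorem.
-/

set_option autoImplicit false
set_option linter.style.haveILetI false

namespace CfsgLib.PLocalBasics

open scoped commutatorElement

variable {G : Type*} [Group G]

/-- Conjugate of a subgroup. -/
abbrev cj (σ : G) (A : Subgroup G) : Subgroup G := A.map (MulAut.conj σ).toMonoidHom

theorem mem_cj {σ : G} {A : Subgroup G} {g : G} (h : g ∈ A) : σ * g * σ⁻¹ ∈ cj σ A := ⟨g, h, rfl⟩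

theorem cj_cj (σ τ : G) (A : Subgroup G) : cj σ (cj τ A) = cj (σ * τ) A := by
  rw [cj, cj, Subgroup.map_map]
  exact congrArg (A.map ·) (MonoidHom.ext fun g => by simp [mul_assoc])

theorem cj_one (A : Subgroup G) : cj 1 A = A := by
  rw [cj]; ext g; simp

variable [Finite G] {p : ℕ} [hp : Fact p.Prime] {V H A : Subgroup G}

omit hp in
theorem coreOf_cj {σ : G} (hH : σ ∈ Subgroup.normalizer (H : Set G)) : cj σ (coreOf p H) = coreOf p H := by
  haveI := CfsgLib.PCore.pPrimeCore_characteristic p ↥H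
  have hm : cj σ H = H := Subgroup.mem_normalizer_iff_map_conj_eq.1 hH
  let θ : H ≃* H := ((MulAut.conj σ).subgroupMap H).trans (MulEquiv.subgroupCongr hm)
  have h1 : (Cfsg.pPrimeCore p ↥H).map θ.toMonoidHom = Cfsg.pPrimeCore p ↥H :=
    Subgroup.characteristic_iff_map_eq.1 inferInstance θ
  conv_rhs => rw [coreOf, ← h1, Subgroup.map_map]
  rw [cj, coreOf, Subgroup.map_map]
  rfl

omit [Finite G] hp in
theorem commutator_cj {σ : G} (hV : σ ∈ Subgroup.normalizer (V : Set G)) (B : Subgroup G) :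
    ⁅V, cj σ B⁆ = cj σ ⁅V, B⁆ := by
  refine Eq.symm ((Subgroup.map_commutator _ _ _).trans ?_)
  exact congrArg (fun Z => ⁅Z, cj σ B⁆) (Subgroup.mem_normalizer_iff_map_conj_eq.1 hV)

theorem card_centralizer_cj {σ : G} (hV : σ ∈ Subgroup.normalizer (V : Set G)) (B : Subgroup G) :
    Nat.card ↥(V ⊓ Subgroup.centralizer ((cj σ B : Subgroup G) : Set G)) =
      Nat.card ↥(V ⊓ Subgroup.centralizer (B : Set G)) := by
  have e : V ⊓ Subgroup.centralizer ((cj σ B : Subgroup G) : Set G) =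
      cj σ (V ⊓ Subgroup.centralizer (B : Set G)) := by
    ext y
    constructor
    · rintro ⟨hy, hyC⟩
      refine ⟨σ⁻¹ * y * σ, ⟨by simpa using (Subgroup.mem_normalizer_iff.1 (inv_mem hV) y).1 hy,
        Subgroup.mem_centralizer_iff.2 fun b hb => ?_⟩, by simp [mul_assoc]⟩
      have := Subgroup.mem_centralizer_iff.1 hyC _ (mem_cj hb)
      calc b * (σ⁻¹ * y * σ) = σ⁻¹ * (σ * b * σ⁻¹ * y) * σ := by group
        _ = σ⁻¹ * (y * (σ * b * σ⁻¹)) * σ := by rw [this]
        _ = _ := by group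
    · rintro ⟨v, hv, rfl⟩
      refine ⟨(Subgroup.mem_normalizer_iff.1 hV v).1 hv.1, Subgroup.mem_centralizer_iff.2 ?_⟩
      rintro _ ⟨b, hb, rfl⟩
      show σ * b * σ⁻¹ * (σ * v * σ⁻¹) = σ * v * σ⁻¹ * (σ * b * σ⁻¹)
      calc σ * b * σ⁻¹ * (σ * v * σ⁻¹) = σ * (b * v) * σ⁻¹ := by group
        _ = σ * (v * b) * σ⁻¹ := by rw [Subgroup.mem_centralizer_iff.1 hv.2 b hb]
        _ = _ := by group
  rw [e, Subgroup.card_map_of_injective (MulAut.conj σ).injective]

theorem best_cj {σ : G} (hV : σ ∈ Subgroup.normalizer (V : Set G)) {B : Subgroup G}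
    (hB : Cfsg.IsBestOffenderOn p V B) : Cfsg.IsBestOffenderOn p V (cj σ B) := by
  have hVm : cj σ V = V := Subgroup.mem_normalizer_iff_map_conj_eq.1 hV
  have hCm : cj σ (Subgroup.centralizer (V : Set G)) ≤ Subgroup.centralizer (V : Set G) := by
    rintro _ ⟨c, hc, rfl⟩
    refine Subgroup.mem_centralizer_iff.2 fun v hv => ?_
    rw [← hVm] at hv
    obtain ⟨w, hw, rfl⟩ := hv
    rw [← map_mul, ← map_mul, Subgroup.mem_centralizer_iff.1 hc w hw]
  refine ⟨fun X' hX' => ?_, ?_, ?_⟩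
  · have hX : cj σ⁻¹ X' ≤ B := by
      have h1 : cj σ⁻¹ X' ≤ cj σ⁻¹ (cj σ B) := Subgroup.map_mono hX'
      rwa [cj_cj, inv_mul_cancel, cj_one] at h1
    have h := hB.1 _ hX
    rw [card_centralizer_cj (inv_mem hV), Subgroup.card_map_of_injective (MulAut.conj σ⁻¹).injective] at h
    rwa [card_centralizer_cj hV, Subgroup.card_map_of_injective (MulAut.conj σ).injective]
  · rw [cj, ← Subgroup.map_commutator]
    exact (Subgroup.map_mono hB.2.1).trans hCm
  · rintro _ ⟨b, hb, rfl⟩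
    rw [← map_pow]
    exact hCm (Subgroup.mem_map_of_mem _ (hB.2.2 b hb))

theorem ne_cj {σ : G} (hV : σ ∈ Subgroup.normalizer (V : Set G)) {B : Subgroup G} (hB : ⁅V, B⁆ ≠ ⊥) :
    ⁅V, cj σ B⁆ ≠ ⊥ := by
  rw [commutator_cj hV]
  intro h
  exact hB ((Subgroup.map_eq_bot_iff_of_injective _ (MulAut.conj σ).injective).1 h)

theorem MinOff.conj {σ : G} (hV : σ ∈ Subgroup.normalizer (V : Set G)) (hH : σ ∈ Subgroup.normalizer (H : Set G))
    (hA : MinOff p V H A) :
    MinOff p V H (cj σ A) ∧ factE p H (cj σ A) = cj σ (factE p H A) ∧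
      factW p V H (cj σ A) = cj σ (factW p V H A) := by
  have hHm : cj σ H = H := Subgroup.mem_normalizer_iff_map_conj_eq.1 hH
  have hE : factE p H (cj σ A) = cj σ (factE p H A) := by
    rw [cj, cj, factE, factE, Subgroup.map_sup, factR, factR, Subgroup.map_commutator]
    congr 2
    exact (coreOf_cj hH).symm
  refine ⟨⟨(Subgroup.map_mono hA.le).trans hHm.le, best_cj hV hA.best, ne_cj hV hA.ne, fun B hB hBb hBne => ?_⟩,
    hE, by rw [factW, factW, hE, commutator_cj hV]⟩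
  have hB' : cj σ⁻¹ B ≤ A := by
    have h1 : cj σ⁻¹ B ≤ cj σ⁻¹ (cj σ A) := Subgroup.map_mono hB
    rwa [cj_cj, inv_mul_cancel, cj_one] at h1
  rw [← hA.min _ hB' (best_cj (inv_mem hV) hBb) (ne_cj (inv_mem hV) hBne), cj_cj, mul_inv_cancel, cj_one]

/-- Equal factors have equal planes; other planes are fixed. -/
theorem centralizes_other_plane (c : FaithCtx p V H) {A B : Subgroup G} (hA : MinOff p V H A) (hB : MinOff p V H B)
    (hne : factW p V H B ≠ factW p V H A) {y w : G} (hy : y ∈ factE p H A) (hw : w ∈ factW p V H B) :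
    y * w = w * y := by
  have h := (pair_cases c hA hB).resolve_left fun h => hne (by rw [factW, factW, h])
  exact Subgroup.mem_centralizer_iff.1 (h.2 hw).2 y hy

/-- A group acting on the structure, of order prime to that of `H`. -/
structure ActCtx (q : ℕ) (V H X : Subgroup G) : Prop where
  normV : X ≤ Subgroup.normalizer (V : Set G)
  normH : X ≤ Subgroup.normalizer (H : Set G)
  isQ : IsPGroup q X
  prime : q.Prime
  cop : ¬ q ∣ Nat.card H

variable {q : ℕ} {X : Subgroup G}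

theorem ActCtx.five_le (a : ActCtx q V H X) (d : FactData p V H A) : 5 ≤ q := by
  obtain ⟨e⟩ := d.data.iso
  have h1 := Subgroup.card_dvd_of_le d.leH
  rw [Nat.card_congr e.toEquiv, card_sl2_small d.small] at h1
  have h6 : 6 ∣ Nat.card H := by
    refine Nat.dvd_trans ?_ h1
    rcases d.small with rfl | rfl <;> norm_num
  have h2 : q ≠ 2 := fun e => a.cop (e ▸ (by norm_num : 2 ∣ 6).trans h6)
  have h3 : q ≠ 3 := fun e => a.cop (e ▸ (by norm_num : 3 ∣ 6).trans h6)
  by_contra hlt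
  exact h3 (eq_three_of_lt a.prime h2 hlt)

/-- An element of `X` stabilising a plane fixes it pointwise. -/
theorem ActCtx.stab_fix (a : ActCtx q V H X) (c : FaithCtx p V H) (d : FactData p V H A) {σ : G} (hσ : σ ∈ X)
    (hW : cj σ (factW p V H A) = factW p V H A) {w : G} (hw : w ∈ factW p V H A) : σ * w = w * σ := by
  set W := factW p V H A
  have h5 := a.five_le d
  haveI : Fact q.Prime := ⟨a.prime⟩
  have hWV : W ≤ V := d.memW c
  haveI : Nontrivial W := Finite.one_lt_card_iff_nontrivial.1 (d.data.cardW.symm ▸ Nat.one_lt_pow two_ne_zero hp.out.one_lt)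
  obtain ⟨⟨s, hs⟩, hs1⟩ := exists_ne (1 : W)
  obtain ⟨t, ht, hWst, hind⟩ := exists_basis c.el hWV d.data.cardW hs (fun e => hs1 (Subtype.ext e))
  have hσW : Subgroup.zpowers σ ≤ Subgroup.normalizer (W : Set G) :=
    Subgroup.zpowers_le.2 (Subgroup.mem_normalizer_iff_map_conj_eq.2 hW)
  obtain ⟨f, -, -, hf⟩ := plane_rep (isMulCommutative_le c.el.1 hWV hs ht) (c.el.2 s (hWV hs))
    (c.el.2 t (hWV ht)) hind (Subgroup.zpowers σ) (hWst ▸ hσW)
  set g : Subgroup.zpowers σ := ⟨σ, Subgroup.mem_zpowers σ⟩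
  obtain ⟨k, hk⟩ := a.isQ ⟨σ, hσ⟩
  have hk' : σ ^ q ^ k = 1 := congrArg Subtype.val hk
  have h1 : f g = 1 := by
    let F := f.toHomUnits
    suffices hF : F g = 1 from congrArg Units.val hF
    have hd1 : orderOf (F g) ∣ q ^ k := orderOf_dvd_of_pow_eq_one (by
      rw [← map_pow, show g ^ q ^ k = 1 from Subtype.ext hk', map_one])
    have hd2 : orderOf (F g) ∣ 48 := by
      refine (orderOf_dvd_natCard _).trans ?_
      have e : Nat.card (Matrix (Fin 2) (Fin 2) (ZMod p))ˣ = ∏ i : Fin 2, (p ^ 2 - p ^ (i : ℕ)) := by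
        have := Matrix.card_GL_field (𝔽 := ZMod p) (n := 2)
        rwa [ZMod.card] at this
      rw [e, Fin.prod_univ_two]
      rcases d.small with rfl | rfl <;> norm_num
    refine orderOf_eq_one_iff.1 (Nat.eq_one_of_dvd_coprimes ?_ hd1 hd2)
    refine Nat.Coprime.pow_left _ ((Nat.Prime.coprime_iff_not_dvd a.prime).2 fun h48 => ?_)
    have hle : q ≤ 48 := Nat.le_of_dvd (by norm_num) h48
    have hqp := a.prime
    interval_cases q <;> first | omega | norm_num at hqp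
  obtain ⟨e1, e2⟩ := hf g h1
  have hle : W ≤ Subgroup.centralizer ({σ} : Set G) := hWst ▸
    sup_le (Subgroup.zpowers_le.2 (Subgroup.mem_centralizer_singleton_iff.2 e1.symm))
      (Subgroup.zpowers_le.2 (Subgroup.mem_centralizer_singleton_iff.2 e2.symm))
  exact (Subgroup.mem_centralizer_singleton_iff.1 (hle hw)).symm

/-- Every element of a factor is matched by an element of `C_H(X)`. -/
theorem ActCtx.exists_diag (a : ActCtx q V H X) (c : FaithCtx p V H) (hgen : OffGen p V H) (hA : MinOff p V H A)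
    {x : G} (hx : x ∈ factE p H A) :
    ∃ h ∈ H, (∀ σ ∈ X, σ * h = h * σ) ∧ (∀ w ∈ factW p V H A, h * w * h⁻¹ = x * w * x⁻¹) ∧
      ∀ e ∈ factE p H A, h * e * h⁻¹ = x * e * x⁻¹ := by
  classical
  haveI := Fintype.ofFinite G
  set W := factW p V H A with hW
  have d := hA.factData c
  let Off : Subgroup G → Prop := fun B => ∀ σ ∈ X, factW p V H B ≠ cj σ W
  have key : ∀ s : Finset (Subgroup G), ∃ h ∈ H,
      (∀ σ ∈ X, ∀ w ∈ W, (cj σ W ∈ s → h * (σ * w * σ⁻¹) * h⁻¹ = σ * (x * w * x⁻¹) * σ⁻¹) ∧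
        (cj σ W ∉ s → h * (σ * w * σ⁻¹) * h⁻¹ = σ * w * σ⁻¹)) ∧
      ∀ B, MinOff p V H B → Off B → ∀ w ∈ factW p V H B, h * w = w * h := by
    intro s
    induction s using Finset.induction with
    | empty => exact ⟨1, one_mem _, fun σ _ w _ => ⟨fun h => absurd h (Finset.notMem_empty _), fun _ => by simp⟩,
        fun B _ _ w _ => by simp⟩
    | insert P s hP ih =>
      obtain ⟨h, hh, h1, h2⟩ := ih
      by_cases hex : ∃ σ ∈ X, cj σ W = P
      · obtain ⟨σ₀, hσ₀, rfl⟩ := hex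
        obtain ⟨hA₀, hE₀, hW₀⟩ := hA.conj (a.normV hσ₀) (a.normH hσ₀)
        set y := σ₀ * x * σ₀⁻¹ with hy
        have hyE : y ∈ factE p H (cj σ₀ A) := hE₀.symm ▸ mem_cj hx
        have hyH : y ∈ H := (hA₀.factData c).leH hyE
        refine ⟨y * h, mul_mem hyH hh, fun σ hσ w hw => ?_, fun B hB hoff w hw => ?_⟩
        · obtain ⟨hAσ, -, hWσ⟩ := hA.conj (a.normV hσ) (a.normH hσ)
          obtain ⟨i1, i2⟩ := h1 σ hσ w hw
          have hmove : y * h * (σ * w * σ⁻¹) * (y * h)⁻¹ = y * (h * (σ * w * σ⁻¹) * h⁻¹) * y⁻¹ := by group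
          by_cases heq : cj σ W = cj σ₀ W
          · refine ⟨fun _ => ?_, fun hn => absurd (by rw [heq]; exact Finset.mem_insert_self _ _) hn⟩
            have hτ : σ₀⁻¹ * σ ∈ X := mul_mem (inv_mem hσ₀) hσ
            have hτW : cj (σ₀⁻¹ * σ) W = W := by rw [← cj_cj, heq, cj_cj, inv_mul_cancel, cj_one]
            have hxw : x * w * x⁻¹ ∈ W := (Subgroup.mem_normalizer_iff.1 (d.data.normW hx) w).1 hw
            have e1 : σ * w * σ⁻¹ = σ₀ * w * σ₀⁻¹ := by
              have := a.stab_fix c d hτ hτW hw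
              calc σ * w * σ⁻¹ = σ₀ * (σ₀⁻¹ * σ * w) * σ⁻¹ := by group
                _ = σ₀ * (w * (σ₀⁻¹ * σ)) * σ⁻¹ := by rw [this]
                _ = _ := by group
            have e2 : σ * (x * w * x⁻¹) * σ⁻¹ = σ₀ * (x * w * x⁻¹) * σ₀⁻¹ := by
              have := a.stab_fix c d hτ hτW hxw
              calc σ * (x * w * x⁻¹) * σ⁻¹ = σ₀ * (σ₀⁻¹ * σ * (x * w * x⁻¹)) * σ⁻¹ := by group
                _ = σ₀ * (x * w * x⁻¹ * (σ₀⁻¹ * σ)) * σ⁻¹ := by rw [this]
                _ = _ := by group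
            rw [hmove, i2 (heq ▸ hP), e1, e2, hy]
            group
          · have hfix : ∀ z ∈ cj σ W, y * z * y⁻¹ = z := fun z hz =>
              mul_inv_eq_iff_eq_mul.2 (centralizes_other_plane c hA₀ hAσ (by rw [hWσ, hW₀]; exact heq) hyE (hWσ ▸ hz))
            constructor
            · intro hm
              rw [hmove, i1 ((Finset.mem_insert.1 hm).resolve_left heq)]
              exact hfix _ (mem_cj ((Subgroup.mem_normalizer_iff.1 (d.data.normW hx) w).1 hw))
            · intro hn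
              rw [hmove, i2 fun hm => hn (Finset.mem_insert_of_mem hm)]
              exact hfix _ (mem_cj hw)
        · have e := centralizes_other_plane c hA₀ hB (by rw [hW₀]; exact hoff σ₀ hσ₀) hyE hw
          rw [mul_assoc, h2 B hB hoff w hw, ← mul_assoc, e, mul_assoc]
      · push Not at hex
        refine ⟨h, hh, fun σ hσ w hw => ?_, h2⟩
        obtain ⟨i1, i2⟩ := h1 σ hσ w hw
        exact ⟨fun hm => i1 ((Finset.mem_insert.1 hm).resolve_left (hex σ hσ)),
          fun hn => i2 fun hm => hn (Finset.mem_insert_of_mem hm)⟩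
  obtain ⟨h, hh, h1, h2⟩ := key Finset.univ
  have h1' : ∀ σ ∈ X, ∀ w ∈ W, h * (σ * w * σ⁻¹) * h⁻¹ = σ * (x * w * x⁻¹) * σ⁻¹ := fun σ hσ w hw =>
    (h1 σ hσ w hw).1 (Finset.mem_univ _)
  have hfix : ∀ τ ∈ X, τ * h = h * τ := by
    intro τ hτ
    have hh' : τ * h * τ⁻¹ ∈ H := (Subgroup.mem_normalizer_iff.1 (a.normH hτ) h).1 hh
    suffices hg : h⁻¹ * (τ * h * τ⁻¹) = 1 by
      exact mul_inv_eq_iff_eq_mul.1 (inv_mul_eq_one.1 hg).symm
    refine FactData.faith c (mul_mem (inv_mem hh) hh') (plane_decomposition c hgen).2.ge (fun v hv => ?_) ?_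
    · exact (Subgroup.mem_centralizer_iff.1 hv.2 _ (mul_mem (inv_mem hh) hh'))
    suffices hle : (⨆ B : {B : Subgroup G // MinOff p V H B}, factW p V H (B : Subgroup G)) ≤
        Subgroup.centralizer ({h⁻¹ * (τ * h * τ⁻¹)} : Set G) from fun v hv =>
      (Subgroup.mem_centralizer_singleton_iff.1 (hle hv)).symm
    refine iSup_le fun B v hv => Subgroup.mem_centralizer_singleton_iff.2 ?_
    obtain ⟨B, hB⟩ := B
    suffices he : h * v * h⁻¹ = τ * (h * (τ⁻¹ * v * τ) * h⁻¹) * τ⁻¹ by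
      symm
      refine mul_inv_eq_iff_eq_mul.1 ?_
      calc h⁻¹ * (τ * h * τ⁻¹) * v * (h⁻¹ * (τ * h * τ⁻¹))⁻¹ =
            h⁻¹ * (τ * (h * (τ⁻¹ * v * τ) * h⁻¹) * τ⁻¹) * h := by group
        _ = h⁻¹ * (h * v * h⁻¹) * h := by rw [he]
        _ = v := by group
    have hτi := inv_mem hτ
    by_cases hoff : Off B
    · obtain ⟨hB', -, hWB'⟩ := hB.conj (a.normV hτi) (a.normH hτi)
      have hv' : τ⁻¹ * v * τ ∈ factW p V H (cj τ⁻¹ B) := by
        rw [hWB']; simpa using mem_cj (σ := τ⁻¹) hv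
      have hoff' : Off (cj τ⁻¹ B) := fun σ hσ e => hoff (τ * σ) (mul_mem hτ hσ) (by
        rw [← cj_cj, ← e, hWB', cj_cj, mul_inv_cancel, cj_one])
      rw [mul_inv_eq_iff_eq_mul.2 (h2 B hB hoff v hv),
        mul_inv_eq_iff_eq_mul.2 (h2 _ hB' hoff' _ hv')]
      group
    · obtain ⟨σ, hσ, hWσ⟩ : ∃ σ ∈ X, factW p V H B = cj σ W := by
        simpa [Off] using hoff
      rw [hWσ] at hv
      obtain ⟨w, hw, rfl⟩ := hv
      show h * (σ * w * σ⁻¹) * h⁻¹ = τ * (h * (τ⁻¹ * (σ * w * σ⁻¹) * τ) * h⁻¹) * τ⁻¹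
      rw [show τ⁻¹ * (σ * w * σ⁻¹) * τ = τ⁻¹ * σ * w * (τ⁻¹ * σ)⁻¹ by group,
        h1' _ (mul_mem hτi hσ) w hw, h1' σ hσ w hw]
      group
  have hW1 : ∀ w ∈ W, h * w * h⁻¹ = x * w * x⁻¹ := fun w hw => by
    simpa using h1' 1 (one_mem _) w hw
  refine ⟨h, hh, hfix, hW1, fun e he => ?_⟩
  have hxH : x ∈ H := d.leH hx
  have hm : x⁻¹ * h ∈ othersE p V H A := by
    rw [← centralizer_plane_eq c hgen hA]
    refine ⟨H.mul_mem (H.inv_mem hxH) hh, Subgroup.mem_centralizer_iff.2 fun w hw => ?_⟩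
    have := hW1 w hw
    calc w * (x⁻¹ * h) = x⁻¹ * (x * w * x⁻¹) * h := by group
      _ = x⁻¹ * (h * w * h⁻¹) * h := by rw [this]
      _ = _ := by group
  have := Subgroup.mem_centralizer_iff.1 (orth_le_centralizer c d (othersE_le_orth c hA hm)) e he
  calc h * e * h⁻¹ = x * (x⁻¹ * h * e) * h⁻¹ := by group
    _ = x * (e * (x⁻¹ * h)) * h⁻¹ := by rw [← this]
    _ = _ := by group

end CfsgLib.PLocalBasics
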