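import Cfsg.Agent.PLocalBasics.TransvectionCore
import Cfsg.Agent.CoprimeAction.Hyperplane

/-!
The factors `[K, A] A` belonging to minimal best offenders: irreducibility and pairwise behaviour.
-/

set_option autoImplicit false

namespace CfsgLib.PLocalBasics

open scoped commutatorElement
open Matrix (SpecialLinearGroup)

variable {G : Type*} [Group G]

/-- A minimal nontrivially acting best offender inside `H`. -/
structure MinOff (p : ℕ) (V H A : Subgroup G) : Prop where
  le : A ≤ H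
  best : Cfsg.IsBestOffenderOn p V A
  ne : ⁅V, A⁆ ≠ ⊥
  min : ∀ B : Subgroup G, B ≤ A → Cfsg.IsBestOffenderOn p V B → ⁅V, B⁆ ≠ ⊥ → B = A

/-- `[K, A]`. -/
abbrev factR (p : ℕ) (H A : Subgroup G) : Subgroup G := ⁅coreOf p H, A⁆
/-- `E = [K, A] A`. -/
abbrev factE (p : ℕ) (H A : Subgroup G) : Subgroup G := factR p H A ⊔ A
/-- `[V, E]`. -/
abbrev factW (p : ℕ) (V H A : Subgroup G) : Subgroup G := ⁅V, factE p H A⁆
/-- `C_V(E)`. -/
abbrev factC (p : ℕ) (V H A : Subgroup G) : Subgroup G :=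
  V ⊓ Subgroup.centralizer ((factE p H A : Subgroup G) : Set G)

/-- What is known on the factor of a single minimal offender. -/
structure FactData (p : ℕ) (V H A : Subgroup G) : Prop where
  data : PairData p V (factE p H A) (factW p V H A)
  commR : ⁅V, factR p H A⁆ = factW p V H A
  centR : V ⊓ Subgroup.centralizer ((factR p H A : Subgroup G) : Set G) = factC p V H A
  qGroup : IsPGroup (otherPrime p) ↥(factR p H A)
  nonComm : p = 3 → ¬ IsMulCommutative ↥(factR p H A)
  small : p = 2 ∨ p = 3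
  gen : ∃ a y : G, a ^ p = 1 ∧ a ≠ 1 ∧ y ∈ factE p H A ∧ factE p H A = Subgroup.closure {a, y * a * y⁻¹}
  leH : factE p H A ≤ H

variable [Finite G] {p : ℕ} [hp : Fact p.Prime] {V H A B : Subgroup G}

theorem MinOff.transv (c : FaithCtx p V H) (hA : MinOff p V H A) :
    ∃ a u, A = Subgroup.zpowers a ∧ ⁅V, A⁆ = Subgroup.zpowers u ∧ Transv p V a u := by
  obtain ⟨h1, h2, h3⟩ := minimal_offender c.el c.norm c.faith c.core hA.le hA.best hA.ne hA.min
  exact exists_transv c.el (hA.le.trans c.norm) h1 h2 h3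

theorem MinOff.factData (c : FaithCtx p V H) (hA : MinOff p V H A) : FactData p V H A := by
  obtain ⟨a, u, rfl, -, ht⟩ := hA.transv c
  have haH : a ∈ H := hA.le (Subgroup.mem_zpowers a)
  obtain ⟨hd, h1, h2, h3, h4, y, hyR, hy⟩ := c.core_data haH ht
  refine ⟨hd, h1, h2, h3, h4, c.prime_le_three haH ht,
    ⟨a, y, ht.powA, ht.neA, Subgroup.mem_sup_left hyR, hy⟩, sup_le ?_ hA.le⟩
  exact (CfsgLib.CoprimeAction.commutator_le_of_normalizer
    (Subgroup.zpowers_le.2 (le_normalizer_coreOf haH))).trans coreOf_le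

omit [Finite G] hp in
theorem isMulCommutative_le {X : Subgroup G} (hV : IsMulCommutative V) (hX : X ≤ V) {x y : G}
    (hx : x ∈ X) (hy : y ∈ X) : x * y = y * x :=
  congrArg Subtype.val (hV.is_comm.comm ⟨x, hX hx⟩ ⟨y, hX hy⟩)

theorem FactData.faith (c : FaithCtx p V H) {g : G} (hgH : g ∈ H) {X Y : Subgroup G} (hXY : V ≤ X ⊔ Y)
    (hX : ∀ x ∈ X, g * x = x * g) (hY : ∀ x ∈ Y, g * x = x * g) : g = 1 := by
  have hle : V ≤ Subgroup.centralizer ({g} : Set G) := hXY.trans
    (sup_le (fun x hx => Subgroup.mem_centralizer_singleton_iff.2 (hX x hx).symm)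
      (fun x hx => Subgroup.mem_centralizer_singleton_iff.2 (hY x hx).symm))
  exact Subgroup.mem_bot.1 (c.faith.le ⟨hgH, Subgroup.mem_centralizer_iff.2 fun v hv =>
    Subgroup.mem_centralizer_singleton_iff.1 (hle hv)⟩)

omit [Finite G] hp in
theorem FactData.memW (d : FactData p V H A) (c : FaithCtx p V H) : factW p V H A ≤ V :=
  CfsgLib.CoprimeAction.commutator_le_of_normalizer (d.leH.trans c.norm)

/-- A basis of a plane of `V`. -/
theorem exists_basis (hV : Cfsg.IsElementaryAbelian p V) {W : Subgroup G} (hW : W ≤ V) (hc : Nat.card W = p ^ 2)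
    {s : G} (hs : s ∈ W) (hs1 : s ≠ 1) :
    ∃ w ∈ W, W = Subgroup.zpowers s ⊔ Subgroup.zpowers w ∧
      ∀ i j : ℕ, s ^ i * w ^ j = 1 → p ∣ i ∧ p ∣ j := by
  haveI := hV.1
  have hsp : s ^ p = 1 := hV.2 s (hW hs)
  have hne : ¬ W ≤ Subgroup.zpowers s := fun h => by
    have h1 := Subgroup.card_le_of_le h
    rw [hc, Nat.card_zpowers, orderOf_eq_prime hsp hs1] at h1
    have := hp.out.two_le
    nlinarith
  obtain ⟨w, hw, hws⟩ := SetLike.not_le_iff_exists.1 hne
  have hwp : w ^ p = 1 := hV.2 w (hW hw)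
  refine ⟨w, hw, (Subgroup.eq_of_le_of_card_ge (sup_le (Subgroup.zpowers_le.2 hs) (Subgroup.zpowers_le.2 hw)) ?_).symm, ?_⟩
  · rw [hc, ← CfsgLib.Offender.card_mul_relIndex_of_le (le_sup_left : Subgroup.zpowers s ≤ _ ⊔ Subgroup.zpowers w),
      CfsgLib.CoprimeAction.relIndex_sup_zpowers (A := V) (Subgroup.zpowers_le.2 (hW hs)) (hW hw) hwp hws,
      Nat.card_zpowers, orderOf_eq_prime hsp hs1, pow_two]
  · intro i j h
    have hj : p ∣ j := by
      by_contra hj
      obtain ⟨k, hk⟩ := exists_pow_eq_self_of_coprime (x := w) (n := j)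
        ((hp.out.coprime_iff_not_dvd.2 hj).symm.coprime_dvd_right (orderOf_dvd_of_pow_eq_one hwp))
      refine hws ?_
      have h1 : w ^ j ∈ Subgroup.zpowers s := by
        rw [eq_inv_of_mul_eq_one_right h]; exact inv_mem (pow_mem (Subgroup.mem_zpowers s) i)
      have h2 := pow_mem h1 k
      rwa [hk] at h2
    refine ⟨?_, hj⟩
    obtain ⟨j', rfl⟩ := hj
    rw [pow_mul, hwp, one_pow, mul_one] at h
    rw [← orderOf_eq_prime hsp hs1]
    exact orderOf_dvd_of_pow_eq_one h

omit [Finite G] in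
theorem aut_pow_coe {s g : G} (hsp : s ^ p = 1) (hs1 : s ≠ 1) (hg : g * s * g⁻¹ ∈ Subgroup.zpowers s)
    (hp2 : p = 2) : g * s = s * g := by
  obtain ⟨i, hi⟩ := (isOfFinOrder_iff_pow_eq_one.2 ⟨p, hp.out.pos, hsp⟩).mem_powers_iff_mem_zpowers.2 hg
  change s ^ i = _ at hi
  rw [hp2] at hsp
  rw [← Nat.mod_add_div i 2, pow_add, pow_mul, hsp, one_pow, mul_one] at hi
  rcases Nat.mod_two_eq_zero_or_one i with h | h <;> rw [h] at hi
  · rw [pow_zero] at hi; exact absurd (conj_eq_one_iff.1 hi.symm) hs1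
  · rw [pow_one] at hi; exact mul_inv_eq_iff_eq_mul.1 hi.symm

theorem FactData.coprime (d : FactData p V H A) (c : FaithCtx p V H) {g : G} (hg : g ∈ factR p H A) :
    g ^ p = 1 → g = 1 := by
  intro h
  obtain ⟨k, hk⟩ := d.qGroup ⟨g, hg⟩
  have hk' : g ^ otherPrime p ^ k = 1 := congrArg Subtype.val hk
  have hcop : Nat.Coprime p (otherPrime p ^ k) := by
    refine Nat.Coprime.pow_right _ ?_
    rcases d.small with rfl | rfl <;> norm_num [otherPrime]
  exact orderOf_eq_one_iff.1 (Nat.eq_one_of_dvd_coprimes hcop (orderOf_dvd_of_pow_eq_one h)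
    (orderOf_dvd_of_pow_eq_one hk'))

/-- `[K, A]` is irreducible on its plane. -/
theorem FactData.irreducible (d : FactData p V H A) (c : FaithCtx p V H) {S : Subgroup G}
    (hS : S ≤ factW p V H A) (hRS : factR p H A ≤ Subgroup.normalizer (S : Set G)) :
    S = ⊥ ∨ S = factW p V H A := by
  set W := factW p V H A
  set R := factR p H A
  have hWV : W ≤ V := d.memW c
  have hRH : R ≤ H := le_sup_left.trans d.leH
  by_contra hcon
  push Not at hcon
  obtain ⟨s, hs, hs1⟩ := (Subgroup.bot_or_exists_ne_one S).resolve_left hcon.1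
  obtain ⟨w, hw, hWsw, -⟩ := exists_basis c.el hWV d.data.cardW (hS hs) hs1
  have hsp : s ^ p = 1 := c.el.2 s (hWV (hS hs))
  have hScard : Nat.card S = p := by
    obtain ⟨k, hk2, hk⟩ := (Nat.dvd_prime_pow hp.out).1 (d.data.cardW ▸ Subgroup.card_dvd_of_le hS)
    interval_cases k
    · rw [pow_zero] at hk; exact absurd (Subgroup.card_eq_one.1 hk) hcon.1
    · rw [pow_one] at hk; exact hk
    · exact absurd (Subgroup.eq_of_le_of_card_ge hS (by rw [d.data.cardW, hk])) hcon.2
  have hSz : Subgroup.zpowers s = S := Subgroup.eq_of_le_of_card_ge (Subgroup.zpowers_le.2 hs)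
    (by rw [hScard, Nat.card_zpowers, orderOf_eq_prime hsp hs1])
  rcases d.small with h2 | h3
  · -- `s` would be fixed by `R`
    have hsC : s ∈ factC p V H A := d.centR ▸ ⟨hWV (hS hs), Subgroup.mem_centralizer_iff.2 fun r hr =>
      aut_pow_coe hsp hs1 (hSz.symm ▸ (Subgroup.mem_normalizer_iff.1 (hRS hr) s).1 hs) h2⟩
    exact hs1 (Subgroup.mem_bot.1 (d.data.inf.le ⟨hS hs, hsC⟩))
  · refine d.nonComm h3 ⟨⟨fun x y => ?_⟩⟩
    obtain ⟨x, hx⟩ := x
    obtain ⟨y, hy⟩ := y
    refine Subtype.ext (?_ : x * y = y * x)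
    haveI := c.el.1
    have hRW : R ≤ Subgroup.normalizer (W : Set G) := le_sup_left.trans d.data.normW
    -- the action on `S` and on `W / S`
    have hact : ∀ g ∈ R, ∃ i j : ℕ, g * s * g⁻¹ = s ^ i ∧ (g * w * g⁻¹) * (w ^ j)⁻¹ ∈ S := by
      intro g hg
      have h1 : g * s * g⁻¹ ∈ Subgroup.zpowers s := hSz.symm ▸ (Subgroup.mem_normalizer_iff.1 (hRS hg) s).1 hs
      obtain ⟨i, hi⟩ := (isOfFinOrder_of_finite s).mem_powers_iff_mem_zpowers.2 h1
      have h2 : g * w * g⁻¹ ∈ Subgroup.zpowers s ⊔ Subgroup.zpowers w :=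
        hWsw ▸ (Subgroup.mem_normalizer_iff.1 (hRW hg) w).1 hw
      have hN : Subgroup.zpowers w ≤ Subgroup.normalizer (Subgroup.zpowers s : Set G) :=
        Subgroup.zpowers_le.2 (Subgroup.centralizer_le_normalizer _ (Subgroup.mem_centralizer_iff.2 fun z hz =>
          isMulCommutative_le c.el.1 le_rfl (hWV (hS (hSz ▸ hz))) (hWV hw)))
      rw [← SetLike.mem_coe, Subgroup.coe_mul_of_right_le_normalizer_left _ _ hN] at h2
      obtain ⟨a, ha, b, hb, hab⟩ := h2
      obtain ⟨j, rfl⟩ := (isOfFinOrder_of_finite w).mem_powers_iff_mem_zpowers.2 hb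
      refine ⟨i, j, hi.symm, ?_⟩
      rw [← hab]
      simpa using hSz ▸ ha
    obtain ⟨i, j, hi, hj⟩ := hact x hx
    obtain ⟨i', j', hi', hj'⟩ := hact y hy
    have hconjPow : ∀ g t : G, ∀ n : ℕ, g * t ^ n * g⁻¹ = (g * t * g⁻¹) ^ n := fun g t n => (conj_pow).symm
    have hxy_s : x * y * s * (x * y)⁻¹ = s ^ (i * i') := by
      calc x * y * s * (x * y)⁻¹ = x * (y * s * y⁻¹) * x⁻¹ := by group
        _ = _ := by rw [hi', hconjPow, hi, ← pow_mul]
    have hyx_s : y * x * s * (y * x)⁻¹ = s ^ (i * i') := by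
      calc y * x * s * (y * x)⁻¹ = y * (x * s * x⁻¹) * y⁻¹ := by group
        _ = _ := by rw [hi, hconjPow, hi', ← pow_mul, mul_comm i' i]
    -- the same modulo `S`
    set π : G → G → Prop := fun a b => a * b⁻¹ ∈ S
    have hmodW : ∀ g ∈ R, ∀ a b : G, π a b → π (g * a * g⁻¹) (g * b * g⁻¹) := fun g hg a b hab => by
      show g * a * g⁻¹ * (g * b * g⁻¹)⁻¹ ∈ S
      rw [show g * a * g⁻¹ * (g * b * g⁻¹)⁻¹ = g * (a * b⁻¹) * g⁻¹ by group]
      exact (Subgroup.mem_normalizer_iff.1 (hRS hg) _).1 hab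
    have hmodPow : ∀ a b : G, a ∈ W → b ∈ W → π a b → ∀ n : ℕ, π (a ^ n) (b ^ n) := fun a b ha hb hab n => by
      show a ^ n * (b ^ n)⁻¹ ∈ S
      rw [← inv_pow, ← (show Commute a b⁻¹ from isMulCommutative_le c.el.1 hWV ha (inv_mem hb)).mul_pow]
      exact pow_mem hab n
    have htrans : ∀ a b d : G, π a b → π b d → π a d := fun a b d h1 h2 => by
      show a * d⁻¹ ∈ S
      rw [show a * d⁻¹ = (a * b⁻¹) * (b * d⁻¹) by group]
      exact mul_mem h1 h2
    have hxy_w : π (x * y * w * (x * y)⁻¹) (w ^ (j * j')) := by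
      have h1 := hmodW x hx _ _ hj'
      rw [hconjPow] at h1
      have h2 := hmodPow _ _ ((Subgroup.mem_normalizer_iff.1 (hRW hx) w).1 hw) (pow_mem hw j) hj j'
      rw [← pow_mul] at h2
      rw [show x * y * w * (x * y)⁻¹ = x * (y * w * y⁻¹) * x⁻¹ by group]
      exact htrans _ _ _ h1 h2
    have hyx_w : π (y * x * w * (y * x)⁻¹) (w ^ (j * j')) := by
      have h1 := hmodW y hy _ _ hj
      rw [hconjPow] at h1
      have h2 := hmodPow _ _ ((Subgroup.mem_normalizer_iff.1 (hRW hy) w).1 hw) (pow_mem hw j') hj' j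
      rw [← pow_mul, mul_comm j' j] at h2
      rw [show y * x * w * (y * x)⁻¹ = y * (x * w * x⁻¹) * y⁻¹ by group]
      exact htrans _ _ _ h1 h2
    set g := (y * x)⁻¹ * (x * y) with hgdef
    have hgR : g ∈ R := mul_mem (inv_mem (mul_mem hy hx)) (mul_mem hx hy)
    have hgs : Commute g s := by
      show g * s = s * g
      refine mul_inv_eq_iff_eq_mul.1 ?_
      rw [hgdef, show (y * x)⁻¹ * (x * y) * s * ((y * x)⁻¹ * (x * y))⁻¹ =
        (y * x)⁻¹ * (x * y * s * (x * y)⁻¹) * (y * x) by group, hxy_s, ← hyx_s]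
      group
    have hgw : g * w * g⁻¹ * w⁻¹ ∈ S := by
      have h1 : π (x * y * w * (x * y)⁻¹) (y * x * w * (y * x)⁻¹) := by
        refine htrans _ _ _ hxy_w ?_
        show w ^ (j * j') * (y * x * w * (y * x)⁻¹)⁻¹ ∈ S
        rw [show w ^ (j * j') * (y * x * w * (y * x)⁻¹)⁻¹ =
          (y * x * w * (y * x)⁻¹ * (w ^ (j * j'))⁻¹)⁻¹ by group]
        exact inv_mem hyx_w
      have h2 := hmodW _ (inv_mem (mul_mem hy hx)) _ _ h1
      show g * w * g⁻¹ * w⁻¹ ∈ S
      rw [hgdef]
      convert h2 using 1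
      group
    set σ := g * w * g⁻¹ * w⁻¹ with hσ
    have hgσ : Commute g σ := by
      obtain ⟨k, hk⟩ := Subgroup.mem_zpowers_iff.1 (hSz.symm ▸ hgw : σ ∈ Subgroup.zpowers s)
      rw [← hk]; exact hgs.zpow_right k
    have hpow : ∀ n : ℕ, g ^ n * w * (g ^ n)⁻¹ = σ ^ n * w := by
      intro n
      induction n with
      | zero => simp
      | succ n ih =>
        calc g ^ (n + 1) * w * (g ^ (n + 1))⁻¹ = g * (g ^ n * w * (g ^ n)⁻¹) * g⁻¹ := by rw [pow_succ']; group
          _ = g * σ ^ n * g⁻¹ * (g * w * g⁻¹) := by rw [ih]; group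
          _ = σ ^ n * (g * w * g⁻¹) := by rw [(hgσ.pow_right n).eq, mul_inv_cancel_right]
          _ = _ := by rw [pow_succ, hσ]; group
    have hgp : g ^ p = 1 := by
      refine Subgroup.mem_bot.1 (d.data.faithW.le ⟨pow_mem (Subgroup.mem_sup_left hgR) p, ?_⟩)
      have h1 : g ^ p * w = w * g ^ p := mul_inv_eq_iff_eq_mul.1 (by
        rw [hpow p, c.el.2 σ (hWV (hS hgw)), one_mul])
      have hle : W ≤ Subgroup.centralizer ({g ^ p} : Set G) := by
        rw [hWsw]
        exact sup_le (Subgroup.zpowers_le.2 (Subgroup.mem_centralizer_singleton_iff.2 (hgs.pow_left p).eq.symm))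
          (Subgroup.zpowers_le.2 (Subgroup.mem_centralizer_singleton_iff.2 h1.symm))
      exact Subgroup.mem_centralizer_iff.2 fun z hz => Subgroup.mem_centralizer_singleton_iff.1 (hle hz)
    exact inv_mul_eq_one.1 (d.coprime c hgR hgp) |>.symm

/-- Two subgroups inducing special linear actions on the same plane. -/
theorem factE_eq (c : FaithCtx p V H) (dA : FactData p V H A) (dB : FactData p V H B)
    (hW : factW p V H A = factW p V H B) (hC : factC p V H A = factC p V H B) :
    factE p H A = factE p H B := by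
  haveI := c.el.1
  set W := factW p V H A with hWdef
  set C := factC p V H A with hCdef
  set M := factE p H A ⊔ factE p H B with hM
  have hMW : M ≤ Subgroup.normalizer (W : Set G) := sup_le dA.data.normW (hW ▸ dB.data.normW)
  have hMC : M ≤ Subgroup.centralizer (C : Set G) := sup_le
    (Subgroup.le_centralizer_iff.1 inf_le_right) (Subgroup.le_centralizer_iff.1 (hC.le.trans inf_le_right))
  have hWV : W ≤ V := dA.memW c
  haveI : Nontrivial W := Finite.one_lt_card_iff_nontrivial.1 (dA.data.cardW.symm ▸ Nat.one_lt_pow two_ne_zero hp.out.one_lt)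
  obtain ⟨⟨s, hs⟩, hs1⟩ := exists_ne (1 : W)
  obtain ⟨w, hw, hWsw, hind⟩ := exists_basis c.el hWV dA.data.cardW hs (fun e => hs1 (Subtype.ext e))
  obtain ⟨f, -, -, hf⟩ := plane_rep (isMulCommutative_le c.el.1 hWV hs hw) (c.el.2 s (hWV hs))
    (c.el.2 w (hWV hw)) hind M (hWsw ▸ hMW)
  have hinj : ∀ g : M, f g = 1 → g = 1 := fun g hg => by
    refine Subtype.ext (FactData.faith c ((sup_le dA.leH dB.leH) g.2) dA.data.sup.ge (fun x hx => ?_) fun x hx => ?_)
    · have hle : W ≤ Subgroup.centralizer ({(g : G)} : Set G) := hWsw ▸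
        sup_le (Subgroup.zpowers_le.2 (Subgroup.mem_centralizer_singleton_iff.2 (hf g hg).1.symm))
          (Subgroup.zpowers_le.2 (Subgroup.mem_centralizer_singleton_iff.2 (hf g hg).2.symm))
      exact (Subgroup.mem_centralizer_singleton_iff.1 (hle hx)).symm
    · exact (Subgroup.mem_centralizer_iff.1 (hMC g.2) x hx).symm
  let χ : M →* ZMod p := (Matrix.detMonoidHom).comp f
  have h1 : ∀ g : M, (g : G) ^ p = 1 → χ g = 1 := fun g hg => by
    have := congrArg χ (show g ^ p = 1 from Subtype.ext hg)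
    rwa [map_pow, map_one, ZMod.pow_card] at this
  obtain ⟨a, y, ha, -, -, hEa⟩ := dA.gen
  obtain ⟨b, z, hb, -, -, hEb⟩ := dB.gen
  set a' := y * a * y⁻¹
  set b' := z * b * z⁻¹
  have ha' : a' ^ p = 1 := by rw [conj_pow, ha, mul_one, mul_inv_cancel]
  have hb' : b' ^ p = 1 := by rw [conj_pow, hb, mul_one, mul_inv_cancel]
  have hdet : ∀ g : M, χ g = 1 := by
    have hle : M ≤ χ.ker.map M.subtype := by
      have hgenmem : ∀ z ∈ ({a, a', b, b'} : Set G), z ∈ χ.ker.map M.subtype := by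
        intro z hz
        have hzM : z ∈ M := by
          rcases hz with rfl | rfl | rfl | rfl
          · exact Subgroup.mem_sup_left (hEa.ge (Subgroup.subset_closure (Set.mem_insert _ _)))
          · exact Subgroup.mem_sup_left (hEa.ge (Subgroup.subset_closure (Set.mem_insert_of_mem _ rfl)))
          · exact Subgroup.mem_sup_right (hEb.ge (Subgroup.subset_closure (Set.mem_insert _ _)))
          · exact Subgroup.mem_sup_right (hEb.ge (Subgroup.subset_closure (Set.mem_insert_of_mem _ rfl)))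
        refine ⟨⟨z, hzM⟩, h1 _ ?_, rfl⟩
        rcases hz with rfl | rfl | rfl | rfl <;> assumption
      refine sup_le (hEa.le.trans ((Subgroup.closure_le _).2 ?_)) (hEb.le.trans ((Subgroup.closure_le _).2 ?_))
      · rintro z (rfl | rfl) <;> exact hgenmem _ (by simp)
      · rintro z (rfl | rfl) <;> exact hgenmem _ (by simp)
    intro g
    obtain ⟨y, hy, hyg⟩ := hle g.2
    obtain rfl : y = g := Subtype.ext hyg
    exact hy
  let F : M →* SpecialLinearGroup (Fin 2) (ZMod p) :=
    { toFun := fun g => ⟨f g, hdet g⟩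
      map_one' := Subtype.ext (map_one f)
      map_mul' := fun g h => Subtype.ext (map_mul f g h) }
  have hcard := Nat.card_le_card_of_injective F
    ((injective_iff_map_eq_one _).2 fun g hg => hinj g (congrArg Subtype.val hg))
  obtain ⟨eA⟩ := dA.data.iso
  obtain ⟨eB⟩ := dB.data.iso
  exact (Subgroup.eq_of_le_of_card_ge (le_sup_left : _ ≤ M) (by rwa [Nat.card_congr eA.toEquiv])).trans
    (Subgroup.eq_of_le_of_card_ge (le_sup_right : _ ≤ M) (by rwa [Nat.card_congr eB.toEquiv])).symm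

theorem core_le_normalizer_plane (c : FaithCtx p V H) (d : FactData p V H A) :
    coreOf p H ≤ Subgroup.normalizer ((factW p V H A : Subgroup G) : Set G) ∧
    coreOf p H ≤ Subgroup.normalizer ((factC p V H A : Subgroup G) : Set G) := by
  have hV : coreOf p H ≤ Subgroup.normalizer (V : Set G) := coreOf_le.trans c.norm
  have hR : coreOf p H ≤ Subgroup.normalizer ((factR p H A : Subgroup G) : Set G) :=
    CfsgLib.CoprimeAction.self_le_normalizer_commutator
  constructor
  · intro k hk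
    rw [← d.commR, Subgroup.mem_normalizer_iff_map_conj_eq]
    refine (Subgroup.map_commutator _ _ _).trans ?_
    rw [Subgroup.mem_normalizer_iff_map_conj_eq.1 (hV hk), Subgroup.mem_normalizer_iff_map_conj_eq.1 (hR hk)]
  · intro k hk
    refine Subgroup.mem_normalizer_fintype fun v hv => ?_
    have hv' := d.centR.ge hv
    refine d.centR.le ⟨(Subgroup.mem_normalizer_iff.1 (hV hk) v).1 hv'.1, Subgroup.mem_centralizer_iff.2 fun r hr => ?_⟩
    have hr' : k⁻¹ * r * k ∈ factR p H A := by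
      simpa using (Subgroup.mem_normalizer_iff.1 (inv_mem (hR hk)) r).1 hr
    calc r * (k * v * k⁻¹) = k * ((k⁻¹ * r * k) * v) * k⁻¹ := by group
      _ = k * (v * (k⁻¹ * r * k)) * k⁻¹ := by rw [Subgroup.mem_centralizer_iff.1 hv'.2 _ hr']
      _ = _ := by group

/-- Two factors are equal or live on orthogonal planes. -/
theorem pair_cases (c : FaithCtx p V H) (hA : MinOff p V H A) (hB : MinOff p V H B) :
    factE p H A = factE p H B ∨
      (factW p V H A ≤ factC p V H B ∧ factW p V H B ≤ factC p V H A) := by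
  haveI := c.el.1
  have dA := hA.factData c
  have dB := hB.factData c
  set Rb := factR p H B
  have hRbK : Rb ≤ coreOf p H := CfsgLib.CoprimeAction.commutator_le_of_normalizer (hB.le.trans le_normalizer_coreOf)
  have hRbV : Rb ≤ Subgroup.normalizer (V : Set G) := hRbK.trans (coreOf_le.trans c.norm)
  -- `R_b`-invariant pieces
  have hpiece : ∀ X : Subgroup G, X ≤ V → coreOf p H ≤ Subgroup.normalizer (X : Set G) →
      factW p V H B ≤ X ∨ X ≤ factC p V H B := by
    intro X hXV hX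
    have hS1 : ⁅X, Rb⁆ ≤ factW p V H B := dB.commR ▸ Subgroup.commutator_mono hXV le_rfl
    have hS2 : ⁅X, Rb⁆ ≤ X := CfsgLib.CoprimeAction.commutator_le_of_normalizer (hRbK.trans hX)
    rcases dB.irreducible c hS1 (CfsgLib.CoprimeAction.le_normalizer_commutator (hRbK.trans hX)) with h | h
    · right
      refine fun x hx => dB.centR.le ⟨hXV hx, Subgroup.mem_centralizer_iff.2 fun r hr => ?_⟩
      exact (commutatorElement_eq_one_iff_mul_comm.1 (Subgroup.mem_bot.1
        (h ▸ Subgroup.commutator_mem_commutator hx hr))).symm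
    · exact Or.inl (h ▸ hS2)
  obtain ⟨hKW, hKC⟩ := core_le_normalizer_plane c dA
  rcases hpiece _ (dA.memW c) hKW with h | hWC
  · left
    have hWeq : factW p V H B = factW p V H A :=
      Subgroup.eq_of_le_of_card_ge h (by rw [dA.data.cardW, dB.data.cardW])
    refine factE_eq c dA dB hWeq.symm (Subgroup.eq_of_le_of_card_ge ?_ ?_)
    · rcases hpiece _ inf_le_left hKC with h' | h'
      · exfalso
        have h0 : factW p V H A ≤ ⊥ := dA.data.inf ▸ le_inf le_rfl (hWeq ▸ h')
        have := dA.data.cardW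
        rw [le_bot_iff.1 h0, Subgroup.card_bot] at this
        exact (Nat.one_lt_pow two_ne_zero hp.out.one_lt).ne this
      · exact h'
    · have hn : ∀ {X Y : Subgroup G}, X ≤ V → Y ≤ V → X ≤ Subgroup.normalizer (Y : Set G) := fun hX hY x hx =>
        Subgroup.centralizer_le_normalizer _ (Subgroup.mem_centralizer_iff.2 fun z hz =>
          setLike_mul_comm (hY hz) (hX hx))
      have e1 := CfsgLib.ZJ.card_sup_mul_card_inf_of_le_normalizer (hn (dA.memW c) (inf_le_left : factC p V H A ≤ V))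
      have e2 := CfsgLib.ZJ.card_sup_mul_card_inf_of_le_normalizer (hn (dB.memW c) (inf_le_left : factC p V H B ≤ V))
      rw [dA.data.inf, dA.data.sup, Subgroup.card_bot, mul_one, dA.data.cardW] at e1
      rw [dB.data.inf, dB.data.sup, Subgroup.card_bot, mul_one, dB.data.cardW] at e2
      exact (Nat.eq_of_mul_eq_mul_left (pow_pos hp.out.pos 2) (e2.symm.trans e1)).le
  · right
    refine ⟨hWC, (hpiece _ inf_le_left hKC).resolve_right fun h => ?_⟩
    have hVC : V ≤ factC p V H B := dA.data.sup.ge.trans (sup_le hWC h)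
    have h0 : factW p V H B ≤ ⊥ := dB.data.inf ▸ le_inf le_rfl ((dB.memW c).trans hVC)
    have := dB.data.cardW
    rw [le_bot_iff.1 h0, Subgroup.card_bot] at this
    exact (Nat.one_lt_pow two_ne_zero hp.out.one_lt).ne this

end CfsgLib.PLocalBasics
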