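import Cfsg.Agent.PLocalBasics.FactorData

/-!
The structure theorem for failure of factorization.
-/

set_option autoImplicit false

namespace CfsgLib.PLocalBasics

open scoped commutatorElement

variable {G : Type*} [Group G]

/-- `H` is generated by its best offenders. -/
abbrev OffGen (p : ℕ) (V H : Subgroup G) : Prop :=
  H = ⨆ A : {A : Subgroup G // A ≤ H ∧ Cfsg.IsBestOffenderOn p V A}, (A : Subgroup G)

/-- The product of the factors orthogonal to that of `A`. -/
def othersE (p : ℕ) (V H A : Subgroup G) : Subgroup G :=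
  ⨆ B : {B : Subgroup G // MinOff p V H B ∧ factE p H B ≠ factE p H A}, factE p H (B : Subgroup G)

variable [Finite G] {p : ℕ} [hp : Fact p.Prime] {V H A B : Subgroup G}

theorem le_iSup_factE (c : FaithCtx p V H) (hgen : OffGen p V H) :
    H ≤ ⨆ B : {B : Subgroup G // MinOff p V H B}, factE p H (B : Subgroup G) := by
  conv_lhs => rw [show H = _ from hgen]
  refine iSup_le fun A => ?_
  obtain ⟨k, B, hB, -, hsup⟩ := offender_decomposition c.el c.norm c.faith c.core A.2.1 A.2.2
  rw [← hsup]
  refine iSup_le fun i => ?_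
  obtain ⟨h1, h2, h3, h4⟩ := hB i
  exact le_sup_right.trans (le_iSup (fun B : {B : Subgroup G // MinOff p V H B} => factE p H (B : Subgroup G))
    ⟨B i, h1.trans A.2.1, h2, h3, h4⟩)

/-- The group of elements of `H` fixing the plane pointwise and moving `V` into the complement. -/
def orth (p : ℕ) (V H A : Subgroup G) : Subgroup G :=
  H ⊓ Subgroup.centralizer ((factW p V H A : Subgroup G) : Set G) ⊓ trivialMod V (factC p V H A)

theorem factE_le_orth (c : FaithCtx p V H) (hA : MinOff p V H A) (hB : MinOff p V H B)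
    (hne : factE p H B ≠ factE p H A) : factE p H B ≤ orth p V H A := by
  obtain ⟨hWC, hWC'⟩ := (pair_cases c hA hB).resolve_left fun h => hne h.symm
  have dB := hB.factData c
  intro g hg
  refine ⟨⟨dB.leH hg, Subgroup.mem_centralizer_iff.2 fun w hw =>
    (Subgroup.mem_centralizer_iff.1 (hWC hw).2 g hg).symm⟩,
    c.norm (dB.leH hg), Subgroup.mem_normalizer_fintype fun v hv => ?_,
    fun v hv => hWC' (Subgroup.commutator_mem_commutator hv hg)⟩
  have h1 : ⁅v, g⁆ ∈ factC p V H A := hWC' (Subgroup.commutator_mem_commutator hv.1 hg)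
  rw [show g * v * g⁻¹ = ⁅v, g⁆⁻¹ * v by rw [commutatorElement_def]; group]
  exact mul_mem (inv_mem h1) hv

theorem orth_le_centralizer (c : FaithCtx p V H) (d : FactData p V H A) :
    orth p V H A ≤ Subgroup.centralizer ((factE p H A : Subgroup G) : Set G) := by
  intro g hg
  refine Subgroup.mem_centralizer_iff.2 fun e he => commutatorElement_eq_one_iff_mul_comm.1 ?_
  obtain ⟨⟨hgH, hgW⟩, -, hgC, -⟩ := hg
  refine FactData.faith c (Subgroup.commutator_le_self H (Subgroup.commutator_mem_commutator (d.leH he) hgH))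
    d.data.sup.ge (fun w hw => ?_) fun v hv => ?_
  · have hw1 : e⁻¹ * w * e ∈ factW p V H A := by
      simpa using (Subgroup.mem_normalizer_iff.1 (Subgroup.inv_mem _ (d.data.normW he)) w).1 hw
    have e1 : g⁻¹ * w * g = w := by rw [mul_assoc, Subgroup.mem_centralizer_iff.1 hgW w hw, inv_mul_cancel_left]
    have e2 : g * (e⁻¹ * w * e) * g⁻¹ = e⁻¹ * w * e := by
      rw [← Subgroup.mem_centralizer_iff.1 hgW _ hw1, mul_inv_cancel_right]
    refine mul_inv_eq_iff_eq_mul.1 ?_
    calc ⁅e, g⁆ * w * ⁅e, g⁆⁻¹ = e * (g * (e⁻¹ * (g⁻¹ * w * g) * e) * g⁻¹) * e⁻¹ := by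
          simp only [commutatorElement_def]; group
      _ = w := by rw [e1, e2]; group
  · have hv1 : g⁻¹ * v * g ∈ factC p V H A := by
      simpa using (Subgroup.mem_normalizer_iff.1 (Subgroup.inv_mem _ hgC) v).1 hv
    have e1 : e⁻¹ * (g⁻¹ * v * g) * e = g⁻¹ * v * g := by
      rw [mul_assoc e⁻¹, ← Subgroup.mem_centralizer_iff.1 hv1.2 e he, inv_mul_cancel_left]
    have e2 : e * v * e⁻¹ = v := by rw [Subgroup.mem_centralizer_iff.1 hv.2 e he, mul_inv_cancel_right]
    refine mul_inv_eq_iff_eq_mul.1 ?_
    calc ⁅e, g⁆ * v * ⁅e, g⁆⁻¹ = e * (g * (e⁻¹ * (g⁻¹ * v * g) * e) * g⁻¹) * e⁻¹ := by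
          simp only [commutatorElement_def]; group
      _ = e * v * e⁻¹ := by rw [e1]; group
      _ = v := e2

theorem othersE_le_orth (c : FaithCtx p V H) (hA : MinOff p V H A) : othersE p V H A ≤ orth p V H A :=
  iSup_le fun B => factE_le_orth c hA B.2.1 B.2.2

theorem factE_sup_others (c : FaithCtx p V H) (hgen : OffGen p V H) (hA : MinOff p V H A) :
    factE p H A ⊔ othersE p V H A = H := by
  refine le_antisymm (sup_le (hA.factData c).leH ((othersE_le_orth c hA).trans (inf_le_left.trans inf_le_left))) ?_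
  refine (le_iSup_factE c hgen).trans (iSup_le fun B => ?_)
  by_cases h : factE p H (B : Subgroup G) = factE p H A
  · exact h.le.trans le_sup_left
  · exact le_sup_of_le_right (le_iSup (fun B : {B : Subgroup G // MinOff p V H B ∧ factE p H B ≠ factE p H A} =>
      factE p H (B : Subgroup G)) ⟨B, B.2, h⟩)

theorem centralizer_plane_eq (c : FaithCtx p V H) (hgen : OffGen p V H) (hA : MinOff p V H A) :
    H ⊓ Subgroup.centralizer ((factW p V H A : Subgroup G) : Set G) = othersE p V H A := by
  have hM := othersE_le_orth c hA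
  refine le_antisymm (fun g hg => ?_) (hM.trans inf_le_left)
  have hN : othersE p V H A ≤ Subgroup.normalizer ((factE p H A : Subgroup G) : Set G) :=
    (hM.trans (orth_le_centralizer c (hA.factData c))).trans (Subgroup.centralizer_le_normalizer _)
  have h1 : g ∈ factE p H A ⊔ othersE p V H A := (factE_sup_others c hgen hA).ge hg.1
  rw [← SetLike.mem_coe, Subgroup.coe_mul_of_right_le_normalizer_left _ _ hN] at h1
  obtain ⟨e, he, m, hm, rfl⟩ := h1
  have : e ∈ Subgroup.centralizer ((factW p V H A : Subgroup G) : Set G) := by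
    have h2 : e * m ∈ Subgroup.centralizer ((factW p V H A : Subgroup G) : Set G) := hg.2
    have h3 : m⁻¹ ∈ Subgroup.centralizer ((factW p V H A : Subgroup G) : Set G) :=
      Subgroup.inv_mem _ (hM hm).1.2
    simpa using mul_mem h2 h3
  show e * m ∈ _
  rw [Subgroup.mem_bot.1 ((hA.factData c).data.faithW.le ⟨he, this⟩), one_mul]
  exact hm

theorem le_normalizer_factE (c : FaithCtx p V H) (hgen : OffGen p V H) (hA : MinOff p V H A) :
    H ≤ Subgroup.normalizer ((factE p H A : Subgroup G) : Set G) := by
  conv_lhs => rw [← factE_sup_others c hgen hA]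
  exact sup_le Subgroup.le_normalizer
    (((othersE_le_orth c hA).trans (orth_le_centralizer c (hA.factData c))).trans (Subgroup.centralizer_le_normalizer _))

/-- The planes together with the fixed points fill up `V`, without overlap. -/
theorem plane_decomposition (c : FaithCtx p V H) (hgen : OffGen p V H) :
    (V ⊓ Subgroup.centralizer (H : Set G)) ⊓
        (⨆ B : {B : Subgroup G // MinOff p V H B}, factW p V H (B : Subgroup G)) = ⊥ ∧
    (V ⊓ Subgroup.centralizer (H : Set G)) ⊔
        (⨆ B : {B : Subgroup G // MinOff p V H B}, factW p V H (B : Subgroup G)) = V := by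
  haveI := c.el.1
  set K := coreOf p H
  set S := ⨆ B : {B : Subgroup G // MinOff p V H B}, factW p V H (B : Subgroup G)
  have hRK : ∀ B, MinOff p V H B → factR p H B ≤ K := fun B hB =>
    CfsgLib.CoprimeAction.commutator_le_of_normalizer (hB.le.trans le_normalizer_coreOf)
  have hKV : K ≤ Subgroup.normalizer (V : Set G) := coreOf_le.trans c.norm
  have hcop : (Nat.card V).Coprime (Nat.card K) := by
    obtain ⟨j, hj⟩ := IsPGroup.iff_card.1 (show IsPGroup p V from fun v => ⟨1, Subtype.ext (by simpa using c.el.2 v v.2)⟩)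
    rw [hj]
    exact (coreOf_cop (p := p) (H := H)).symm.pow_left j
  have hS : S ≤ ⁅V, K⁆ := iSup_le fun B => (B.2.factData c).commR ▸ Subgroup.commutator_mono le_rfl (hRK _ B.2)
  have hSV : S ≤ V := hS.trans (CfsgLib.CoprimeAction.commutator_le_of_normalizer hKV)
  refine ⟨eq_bot_iff.2 fun x hx => ?_, le_antisymm (sup_le inf_le_left hSV) ?_⟩
  · refine (centralizer_inf_commutator_eq_bot c.el.1 hKV hcop).le ⟨⟨hx.1.1, ?_⟩, hS hx.2⟩
    exact Subgroup.centralizer_le (show (K : Set G) ⊆ H from fun k hk => coreOf_le hk) hx.1.2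
  · have hVK : ⁅V, K⁆ ≤ S := by
      have hHS : H ≤ trivialMod V S := (le_iSup_factE c hgen).trans (iSup_le fun B g hg => by
        have hWS : factW p V H (B : Subgroup G) ≤ S :=
          le_iSup (fun B : {B : Subgroup G // MinOff p V H B} => factW p V H (B : Subgroup G)) B
        refine ⟨c.norm ((B.2.factData c).leH hg), Subgroup.mem_normalizer_fintype fun v hv => ?_,
          fun v hv => hWS (Subgroup.commutator_mem_commutator hv hg)⟩
        rw [show g * v * g⁻¹ = ⁅v, g⁆⁻¹ * v by rw [commutatorElement_def]; group]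
        exact mul_mem (inv_mem (hWS (Subgroup.commutator_mem_commutator (hSV hv) hg))) hv)
      exact Subgroup.commutator_le.2 fun v hv k hk => (hHS (coreOf_le hk)).2.2 v hv
    have hC : V ⊓ Subgroup.centralizer (K : Set G) ≤ V ⊓ Subgroup.centralizer (H : Set G) := by
      intro v hv
      refine ⟨hv.1, Subgroup.mem_centralizer_iff.2 fun g hg => ?_⟩
      have hle : H ≤ Subgroup.centralizer ({v} : Set G) := (le_iSup_factE c hgen).trans (iSup_le fun B e he => by
        have h1 : v ∈ factC p V H (B : Subgroup G) := (B.2.factData c).centR.le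
          ⟨hv.1, Subgroup.centralizer_le (show (factR p H (B : Subgroup G) : Set G) ⊆ K from fun r hr => hRK _ B.2 hr) hv.2⟩
        exact Subgroup.mem_centralizer_singleton_iff.2 (Subgroup.mem_centralizer_iff.1 h1.2 e he))
      exact Subgroup.mem_centralizer_singleton_iff.1 (hle hg)
    conv_lhs => rw [← CfsgLib.CoprimeAction.commutator_sup_centralizer hKV hcop.symm
      (Or.inr (by letI : CommGroup V := { (inferInstance : Group V) with mul_comm := c.el.1.is_comm.comm }; infer_instance))]
    exact sup_le (hVK.trans le_sup_right) (hC.trans le_sup_left)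

end CfsgLib.PLocalBasics
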