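import Mathlib

/-!
Two quadratically acting generators: a representation in `SL(2, q)`.
-/

set_option autoImplicit false

namespace CfsgLib.PLocalBasics

universe uK uW uH

open Module Polynomial

variable {K : Type uK} [Field K] [Fintype K] {p : ℕ} [hp : Fact p.Prime] [CharP K p]
variable {H : Type uH} [Group H] [Finite H] {a b : H}

/-- An eigenvector in `K` for an operator of order dividing `p^e (q-1)`. -/
theorem exists_eigen {U : Type uW} [AddCommGroup U] [Module K U] [FiniteDimensional K U] [Nontrivial U]
    (f : Module.End K U) (e : ℕ) (hf : f ^ (p ^ e * (Fintype.card K - 1)) = 1) :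
    ∃ (μ : K) (v : U), v ≠ 0 ∧ f v = μ • v := by
  haveI : CharP (Module.End K U) p := charP_of_injective_algebraMap (algebraMap K (Module.End K U)).injective p
  set q := Fintype.card K
  have hq : 1 < q := Fintype.one_lt_card
  set P : K[X] := (X ^ (q - 1) - 1) ^ p ^ e
  have hP0 : P ≠ 0 := pow_ne_zero _ (by
    simpa using X_pow_sub_C_ne_zero (R := K) (show 0 < q - 1 by omega) 1)
  have hPs : P.Splits := by
    refine Splits.pow ?_ _
    have hs : (X ^ q - X : K[X]).Splits := by
      rw [splits_iff_card_roots, FiniteField.roots_X_pow_card_sub_X, FiniteField.X_pow_card_sub_X_natDegree_eq _ hq]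
      rfl
    refine hs.of_dvd (FiniteField.X_pow_card_sub_X_ne_zero _ hq) ⟨X, ?_⟩
    rw [sub_mul, one_mul, ← pow_succ, Nat.sub_add_cancel hq.le]
  have hae : aeval f P = 0 := by
    simp only [P, map_pow, map_sub, aeval_X, map_one]
    rw [sub_pow_char_pow_of_commute _ _ (Commute.one_right _), one_pow, ← pow_mul, mul_comm, hf, sub_self]
  have hint : IsIntegral K f := Algebra.IsIntegral.isIntegral f
  obtain ⟨μ, hμ⟩ := (hPs.of_dvd hP0 (minpoly.dvd K f hae)).exists_eval_eq_zero (minpoly.degree_pos hint).ne'
  obtain ⟨v, hv⟩ := (Module.End.hasEigenvalue_of_isRoot hμ).exists_hasEigenvector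
  exact ⟨μ, v, hv.2, hv.apply_eq_smul⟩

omit [Fintype K] hp in
theorem invariant_of_generators {U : Type uW} [AddCommGroup U] [Module K U] (ρ : H →* Module.End K U)
    (hgen : Subgroup.closure ({a, b} : Set H) = ⊤) (S : Submodule K U)
    (ha : ∀ v ∈ S, ρ a v ∈ S) (hb : ∀ v ∈ S, ρ b v ∈ S) : ∀ (x : H), ∀ v ∈ S, ρ x v ∈ S := by
  intro x
  have hx : x ∈ Subgroup.closure ({a, b} : Set H) := hgen ▸ Subgroup.mem_top x
  induction hx using Subgroup.closure_induction with
  | mem y hy => rcases hy with rfl | rfl <;> assumption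
  | one => intro v hv; simpa using hv
  | mul y z _ _ ihy ihz => intro v hv; rw [map_mul]; exact ihy _ (ihz v hv)
  | inv y _ ih =>
    obtain ⟨k, hk⟩ : ∃ k : ℕ, y ^ k = y⁻¹ :=
      (isOfFinOrder_of_finite y).mem_powers_iff_mem_zpowers.2 ((Subgroup.zpowers y).inv_mem (Subgroup.mem_zpowers y))
    intro v hv
    rw [← hk, map_pow]
    clear hk
    induction k with
    | zero => simpa using hv
    | succ k ihk => rw [pow_succ']; exact ih _ ihk

theorem quadratic_pair_rep (hgen : Subgroup.closure ({a, b} : Set H) = ⊤) :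
    ∀ (n : ℕ) (W : Type uW) [AddCommGroup W] [Module K W] [FiniteDimensional K W],
      finrank K W = n → ∀ (ρ : H →* Module.End K W), (ρ a - 1) * (ρ a - 1) = 0 → (ρ b - 1) * (ρ b - 1) = 0 →
      ∀ e : ℕ, (ρ (a * b)) ^ (p ^ e * (Fintype.card K - 1)) = 1 →
      ∀ x₀ : H, (orderOf x₀).Coprime p → ρ x₀ ≠ 1 →
      ∃ φ : H →* Matrix.SpecialLinearGroup (Fin 2) K, φ x₀ ≠ 1 := by
  intro n
  induction n using Nat.strong_induction_on with
  | _ n ih =>
  intro W _ _ _ hn ρ hA hB e he x₀ hx₀ hne
  haveI : Nontrivial W := by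
    by_contra h
    rw [not_nontrivial_iff_subsingleton] at h
    exact hne (LinearMap.ext fun v => Subsingleton.elim _ _)
  by_cases hirr : ∀ U : Submodule K W, (∀ x : H, ∀ v ∈ U, ρ x v ∈ U) → U = ⊥ ∨ U = ⊤
  swap
  · push Not at hirr
    obtain ⟨U, hU, hU0, hU1⟩ := hirr
    let ρ₁ : H →* Module.End K U :=
      { toFun := fun x => (ρ x).restrict (hU x)
        map_one' := LinearMap.ext fun v => Subtype.ext (by simp)
        map_mul' := fun x y => LinearMap.ext fun v => Subtype.ext (by simp) }
    let ρ₂ : H →* Module.End K (W ⧸ U) :=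
      { toFun := fun x => U.mapQ U (ρ x) (hU x)
        map_one' := Submodule.linearMap_qext _ (LinearMap.ext fun v => by simp)
        map_mul' := fun x y => Submodule.linearMap_qext _ (LinearMap.ext fun v => by simp) }
    by_cases h1 : ρ₁ x₀ = 1
    · by_cases h2 : ρ₂ x₀ = 1
      · exfalso
        apply hne
        haveI : CharP (Module.End K W) p := charP_of_injective_algebraMap (algebraMap K (Module.End K W)).injective p
        have hN : ∀ v, (ρ x₀ - 1) v ∈ U := fun v => by
          have := LinearMap.congr_fun h2 (Submodule.Quotient.mk v)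
          exact (Submodule.Quotient.eq U).1 this
        have hN2 : (ρ x₀ - 1) ^ 2 = 0 := by
          ext v
          rw [pow_two]
          show (ρ x₀ - 1) ((ρ x₀ - 1) v) = 0
          have h3 := congrArg Subtype.val (LinearMap.congr_fun h1 ⟨_, hN v⟩)
          exact sub_eq_zero.2 h3
        have hp' : ρ x₀ ^ p = 1 := by
          have h4 : (ρ x₀ - 1) ^ p = 0 := pow_eq_zero_of_le hp.out.two_le hN2
          rwa [sub_pow_char_of_commute p (Commute.one_right _), one_pow, sub_eq_zero] at h4
        rw [← orderOf_eq_one_iff]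
        exact Nat.eq_one_of_dvd_coprimes hx₀ (orderOf_map_dvd ρ x₀) (orderOf_dvd_of_pow_eq_one hp')
      · have hlt : finrank K (W ⧸ U) < n := by
          have := U.finrank_quotient_add_finrank
          have := Submodule.one_le_finrank_iff.2 hU0
          omega
        refine ih _ hlt (W ⧸ U) rfl ρ₂ ?_ ?_ e ?_ x₀ hx₀ h2
        · exact Submodule.linearMap_qext _ (LinearMap.ext fun v => congrArg (Submodule.Quotient.mk (p := U)) (LinearMap.congr_fun hA v))
        · exact Submodule.linearMap_qext _ (LinearMap.ext fun v => congrArg (Submodule.Quotient.mk (p := U)) (LinearMap.congr_fun hB v))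
        · rw [← map_pow]
          refine Submodule.linearMap_qext _ (LinearMap.ext fun v => congrArg (Submodule.Quotient.mk (p := U)) ?_)
          rw [map_pow, he]
          rfl
    · have hlt : finrank K U < n := hn ▸ Submodule.finrank_lt hU1
      refine ih _ hlt U rfl ρ₁ ?_ ?_ e ?_ x₀ hx₀ h1
      · exact LinearMap.ext fun v => Subtype.ext (LinearMap.congr_fun hA (v : W))
      · exact LinearMap.ext fun v => Subtype.ext (LinearMap.congr_fun hB (v : W))
      · rw [← map_pow]
        refine LinearMap.ext fun v => Subtype.ext ?_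
        show ρ _ (v : W) = (v : W)
        rw [map_pow, he]
        rfl
  -- the irreducible case
  set A := ρ a - 1 with hAdef
  set B := ρ b - 1 with hBdef
  have hra : ρ a = 1 + A := by rw [hAdef]; abel
  have hrb : ρ b = 1 + B := by rw [hBdef]; abel
  have hAA : ∀ v, A (A v) = 0 := fun v => LinearMap.congr_fun hA v
  have hBB : ∀ v, B (B v) = 0 := fun v => LinearMap.congr_fun hB v
  have hinv : ∀ S : Submodule K W, (∀ v ∈ S, A v ∈ S) → (∀ v ∈ S, B v ∈ S) → S = ⊥ ∨ S = ⊤ := by
    intro S hSA hSB
    refine hirr S (invariant_of_generators ρ hgen S (fun v hv => ?_) fun v hv => ?_)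
    · rw [hra]; exact S.add_mem hv (hSA v hv)
    · rw [hrb]; exact S.add_mem hv (hSB v hv)
  -- no common fixed vector
  have hfix : ∀ u, A u = 0 → B u = 0 → u = 0 := by
    intro u hu1 hu2
    by_contra hu0
    have htop := (hinv (LinearMap.ker A ⊓ LinearMap.ker B)
      (fun v hv => by rw [show A v = 0 from hv.1]; exact Submodule.zero_mem _)
      (fun v hv => by rw [show B v = 0 from hv.2]; exact Submodule.zero_mem _)).resolve_left
      (fun h => hu0 (Submodule.eq_bot_iff _ |>.1 h u ⟨hu1, hu2⟩))
    apply hne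
    have h0 : A = 0 ∧ B = 0 := ⟨LinearMap.ext fun v => (htop ▸ Submodule.mem_top (x := v) :
      v ∈ LinearMap.ker A ⊓ LinearMap.ker B).1, LinearMap.ext fun v => (htop ▸ Submodule.mem_top (x := v) :
      v ∈ LinearMap.ker A ⊓ LinearMap.ker B).2⟩
    have hx : x₀ ∈ Subgroup.closure ({a, b} : Set H) := hgen ▸ Subgroup.mem_top x₀
    clear hx₀ hne
    induction hx using Subgroup.closure_induction with
    | mem y hy =>
      rcases hy with rfl | rfl
      · rw [hra, h0.1, add_zero]
      · rw [hrb, h0.2, add_zero]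
    | one => exact map_one ρ
    | mul y z _ _ ihy ihz => rw [map_mul, ihy, ihz, one_mul]
    | inv y _ ih =>
      have := map_mul ρ y⁻¹ y
      rw [inv_mul_cancel, map_one, ih, mul_one] at this
      exact this.symm
  -- `T = AB + BA` is a scalar
  set T := A * B + B * A with hT
  obtain ⟨μ, v, hv0, hv⟩ := exists_eigen (ρ (a * b)) e he
  have hinvab : (1 - B) * (1 - A) * ρ (a * b) = 1 := by
    rw [map_mul, hra, hrb]
    calc (1 - B) * (1 - A) * ((1 + A) * (1 + B)) = (1 - B) * (1 - A * A) * (1 + B) := by noncomm_ring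
      _ = 1 - B * B := by rw [hA, sub_zero]; noncomm_ring
      _ = 1 := by rw [hB, sub_zero]
  have hμ : μ ≠ 0 := by
    rintro rfl
    have := LinearMap.congr_fun hinvab v
    rw [Module.End.mul_apply, hv, zero_smul, map_zero] at this
    exact hv0 this.symm
  have hTv : T v = (μ + μ⁻¹ - 2) • v := by
    have h1 : ((1 - B) * (1 - A)) v = μ⁻¹ • v := by
      have := LinearMap.congr_fun hinvab v
      rw [Module.End.mul_apply, hv, map_smul] at this
      calc ((1 - B) * (1 - A)) v = μ⁻¹ • (μ • ((1 - B) * (1 - A)) v) := by rw [inv_smul_smul₀ hμ]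
        _ = _ := by rw [this]; rfl
    have h2 : T = ρ (a * b) + (1 - B) * (1 - A) - 1 - 1 := by rw [map_mul, hra, hrb, hT]; noncomm_ring
    rw [h2]
    simp only [LinearMap.sub_apply, LinearMap.add_apply, Module.End.one_apply, hv, h1]
    module
  set lam := μ + μ⁻¹ - 2
  have hTA : ∀ w, T (A w) = A (T w) := fun w => by
    simp only [hT, LinearMap.add_apply, Module.End.mul_apply, map_add, hAA, map_zero, add_zero, zero_add]
  have hTB : ∀ w, T (B w) = B (T w) := fun w => by
    simp only [hT, LinearMap.add_apply, Module.End.mul_apply, map_add, hBB, map_zero, add_zero, zero_add]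
  have hTtop := (hinv (LinearMap.ker (T - lam • 1))
      (fun w hw => by
        simp only [LinearMap.mem_ker, LinearMap.sub_apply, LinearMap.smul_apply, Module.End.one_apply, sub_eq_zero] at hw ⊢
        rw [hTA, hw, map_smul])
      (fun w hw => by
        simp only [LinearMap.mem_ker, LinearMap.sub_apply, LinearMap.smul_apply, Module.End.one_apply, sub_eq_zero] at hw ⊢
        rw [hTB, hw, map_smul])).resolve_left (fun h => hv0 ((Submodule.eq_bot_iff _).1 h v (by
          simp [hTv])))
  have hTs : ∀ w, T w = lam • w := fun w => by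
    have htmem : w ∈ LinearMap.ker (T - lam • (1 : Module.End K W)) := hTtop ▸ Submodule.mem_top
    simpa [sub_eq_zero] using htmem
  -- the plane
  obtain ⟨u, hu, hu0⟩ : ∃ u, A u = 0 ∧ u ≠ 0 := by
    by_cases h : A v = 0
    · exact ⟨v, h, hv0⟩
    · exact ⟨A v, hAA v, h⟩
  have hBu : B u ≠ 0 := fun h => hu0 (hfix u hu h)
  have hABu : A (B u) = lam • u := by
    have := hTs u
    simpa [hT, hu] using this
  have hli : LinearIndependent K ![u, B u] := by
    rw [LinearIndependent.pair_iff]
    intro s t hst
    have h1 := congrArg B hst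
    rw [map_add, map_smul, map_smul, hBB, smul_zero, add_zero, map_zero] at h1
    have hs : s = 0 := (smul_eq_zero.1 h1).resolve_right hBu
    rw [hs, zero_smul, zero_add] at hst
    exact ⟨hs, (smul_eq_zero.1 hst).resolve_right hBu⟩
  have hspan : Submodule.span K (Set.range ![u, B u]) = ⊤ := by
    refine (hinv _ ?_ ?_).resolve_left fun h => hu0 ((Submodule.eq_bot_iff _).1 h u (Submodule.subset_span ⟨0, rfl⟩))
    · intro w hw
      induction hw using Submodule.span_induction with
      | mem w hw =>
        obtain ⟨i, rfl⟩ := hw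
        fin_cases i
        · simp [hu]
        · show A (B u) ∈ _
          rw [hABu]
          exact Submodule.smul_mem _ _ (Submodule.subset_span ⟨0, rfl⟩)
      | zero => simp
      | add x y _ _ hx hy => rw [map_add]; exact Submodule.add_mem _ hx hy
      | smul c x _ hx => rw [map_smul]; exact Submodule.smul_mem _ _ hx
    · intro w hw
      induction hw using Submodule.span_induction with
      | mem w hw =>
        obtain ⟨i, rfl⟩ := hw
        fin_cases i
        · exact Submodule.subset_span ⟨1, rfl⟩
        · show B (B u) ∈ _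
          rw [hBB]; exact Submodule.zero_mem _
      | zero => simp
      | add x y _ _ hx hy => rw [map_add]; exact Submodule.add_mem _ hx hy
      | smul c x _ hx => rw [map_smul]; exact Submodule.smul_mem _ _ hx
  let bas : Basis (Fin 2) K W := Basis.mk hli hspan.ge
  let μm := LinearMap.toMatrixAlgEquiv bas
  have hb0 : bas 0 = u := by simp [bas]
  have hb1 : bas 1 = B u := by simp [bas]
  have hra0 : ρ a (bas 0) = bas 0 := by rw [hb0, hra]; simp [hu]
  have hra1 : ρ a (bas 1) = bas 1 + lam • bas 0 := by rw [hb1, hb0, hra]; simp [hABu]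
  have hrb0 : ρ b (bas 0) = bas 0 + bas 1 := by rw [hb0, hb1, hrb]; simp
  have hrb1 : ρ b (bas 1) = bas 1 := by rw [hb1, hrb]; simp [hBB]
  have hma : μm (ρ a) = !![1, lam; 0, 1] := by
    ext i j
    rw [LinearMap.toMatrixAlgEquiv_apply]
    fin_cases j <;> fin_cases i <;> simp [hra0, hra1]
  have hmb : μm (ρ b) = !![1, 0; 1, 1] := by
    ext i j
    rw [LinearMap.toMatrixAlgEquiv_apply]
    fin_cases j <;> fin_cases i <;> simp [hrb0, hrb1]
  have hdet : ∀ x : H, (μm (ρ x)).det = 1 := by
    intro x
    have hx : x ∈ Subgroup.closure ({a, b} : Set H) := hgen ▸ Subgroup.mem_top x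
    induction hx using Subgroup.closure_induction with
    | mem y hy => rcases hy with rfl | rfl <;> simp [hma, hmb, Matrix.det_fin_two_of]
    | one => simp
    | mul y z _ _ ihy ihz => rw [map_mul, map_mul, Matrix.det_mul, ihy, ihz, one_mul]
    | inv y _ ih =>
      have := congrArg (fun f => (μm f).det) (map_mul ρ y⁻¹ y)
      simp only [inv_mul_cancel, map_one, map_mul, Matrix.det_mul, Matrix.det_one, ih, mul_one] at this
      exact this.symm
  refine ⟨{ toFun := fun x => ⟨μm (ρ x), hdet x⟩
            map_one' := Subtype.ext (by simp)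
            map_mul' := fun x y => Subtype.ext (by show μm (ρ (x * y)) = μm (ρ x) * μm (ρ y); rw [map_mul, map_mul]) }, fun h => hne ?_⟩
  have h' : μm (ρ x₀) = 1 := congrArg Subtype.val h
  exact μm.injective (h'.trans (map_one μm).symm)

end CfsgLib.PLocalBasics
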