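import Cfsg.Agent.StableClosure.Basic
import Cfsg.Agent.PLocalBasics.ActionStable
import Cfsg.Agent.S0623
import Cfsg.Agent.Transfer.Frobenius
import Cfsg.Agent.ZJ.Replacement
import Cfsg.Agent.ZJ.J
import Cfsg.Agent.PCore.Lift
import Cfsg.Agent.PCore.PConstrained
import Cfsg.Agent.PCore.Descent
import Cfsg.Agent.CoprimeAction.Basic
import Cfsg.Agent.CoprimeAction.Frattini

/-!
`W(S)` is normal in action-stable groups with `C(O_p) ≤ O_p`.
-/

set_option autoImplicit false

namespace CfsgLib.PLocalBasics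

open scoped commutatorElement
open CfsgLib.ZJ (Good maxGood J)

universe u

variable {p : ℕ} [hp : Fact p.Prime]

theorem stableW_elementary {S : Type u} [Group S] [Finite S] :
    (∀ w ∈ Cfsg.stableNormalClosure p S, w ∈ Cfsg.thompsonSubgroup p S ⊓
      Subgroup.centralizer (Cfsg.thompsonSubgroup p S : Set S) ∧ w ^ p = 1) := by
  intro w hw
  have h := CfsgLib.StableClosure.le_omegaCenterThompson p hw
  clear hw
  induction h using Subgroup.closure_induction with
  | mem z hz => exact hz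
  | one => exact ⟨one_mem _, one_pow p⟩
  | mul a b _ _ iha ihb =>
    refine ⟨mul_mem iha.1 ihb.1, ?_⟩
    rw [(show Commute a b from Subgroup.mem_centralizer_iff.1 ihb.1.2 a iha.1.1).mul_pow, iha.2, ihb.2, one_mul]
  | inv a _ iha => exact ⟨inv_mem iha.1, by rw [inv_pow, iha.2, inv_one]⟩

theorem sectionKernel_frattini_isPGroup {G : Type u} [Group G] [Finite G]
    (hc : Subgroup.centralizer (Cfsg.pCore p G : Set G) ≤ Cfsg.pCore p G) :
    IsPGroup p ↥(Cfsg.sectionKernel (Cfsg.pCore p G) ((frattini ↥(Cfsg.pCore p G)).map (Cfsg.pCore p G).subtype)) := by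
  set K := Cfsg.pCore p G
  refine CfsgLib.PCore.isPGroup_of_forall_coprime _ fun x hx hxo => ?_
  have hmem : x ∈ Subgroup.centralizer (K : Set G) := by
    refine CfsgLib.CoprimeAction.le_centralizer_of_frattini (A := Subgroup.zpowers x) ?_ ?_
      (Subgroup.mem_zpowers x)
    · obtain ⟨j, hj⟩ := IsPGroup.iff_card.1 ((CfsgLib.PCore.isPGroup_pCore p G).to_subgroup (frattini ↥K))
      rw [Nat.card_zpowers, hj]
      exact hxo.pow_right j
    · intro a ha k hk
      obtain ⟨i, rfl⟩ := Subgroup.mem_zpowers_iff.1 ha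
      rw [← QuotientGroup.eq_one_iff (N := (frattini ↥K).map K.subtype)]
      show QuotientGroup.mk' _ _ = 1
      have hcm := Subgroup.mem_centralizer_iff.1 (Subgroup.mem_comap.1 (zpow_mem hx i)) _ ⟨k, hk, rfl⟩
      rw [map_mul, map_mul, map_mul, map_inv, map_inv, ← hcm, mul_inv_cancel_right, mul_inv_cancel]
  obtain ⟨j, hj⟩ := IsPGroup.iff_card.1 (CfsgLib.PCore.isPGroup_pCore p G)
  exact orderOf_eq_one_iff.1 (Nat.eq_one_of_dvd_coprimes (hxo.pow_right j) dvd_rfl
    (hj ▸ Subgroup.orderOf_dvd_natCard K (hc hmem)))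

/-- An abelian subgroup normalized by `O_p(G)` lies in `O_p(G)` when `G` is stable on `O_p(G)/Φ`. -/
theorem le_pCore_of_stable_section {G : Type u} [Group G] [Finite G]
    (hc : Subgroup.centralizer (Cfsg.pCore p G : Set G) ≤ Cfsg.pCore p G)
    (hst : Cfsg.IsPStableOnSection p (Cfsg.pCore p G) ((frattini ↥(Cfsg.pCore p G)).map (Cfsg.pCore p G).subtype))
    (W : Subgroup G) (hab : ∀ x ∈ W, ∀ y ∈ W, x * y = y * x)
    (hn : ∀ k ∈ Cfsg.pCore p G, ∀ x ∈ W, k * x * k⁻¹ ∈ W) : W ≤ Cfsg.pCore p G := by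
  intro z hz
  set K := Cfsg.pCore p G
  have h1 : ⁅K, Subgroup.zpowers z⁆ ≤ W := Subgroup.commutator_le.2 fun k hk a ha => by
    have ha' : a ∈ W := Subgroup.zpowers_le.2 hz ha
    rw [commutatorElement_def]
    exact mul_mem (hn k hk a ha') (inv_mem ha')
  have h2 : ⁅⁅K, Subgroup.zpowers z⁆, Subgroup.zpowers z⁆ = ⊥ := by
    rw [eq_bot_iff]
    refine Subgroup.commutator_le.2 fun x hx a ha => Subgroup.mem_bot.2 ?_
    exact commutatorElement_eq_one_iff_mul_comm.2 (hab x (h1 hx) a (Subgroup.zpowers_le.2 hz ha))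
  obtain ⟨D, hDn, hCD, ⟨k, hk⟩, hzD⟩ := hst z (h2.trans_le bot_le)
  obtain ⟨j, hj⟩ := IsPGroup.iff_card.1 (sectionKernel_frattini_isPGroup hc)
  refine CfsgLib.PCore.le_pCore hDn (IsPGroup.of_card (n := j + k) ?_) hzD
  rw [← Subgroup.relIndex_bot_left, ← Subgroup.relIndex_mul_relIndex _ _ _ bot_le hCD, hk,
    Subgroup.relIndex_bot_left, hj, pow_add]

/-- `W(S)` is normal. -/
theorem stableW_normal {G : Type u} [Group G] [Finite G] (hst : Cfsg.IsActionPStable p G)
    (hc : Subgroup.centralizer (Cfsg.pCore p G : Set G) ≤ Cfsg.pCore p G) (S : Sylow p G) :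
    ((Cfsg.stableNormalClosure p ↥(S : Subgroup G)).map (S : Subgroup G).subtype).Normal := by
  obtain ⟨hst1, hst2, hst3⟩ := hst
  set K := Cfsg.pCore p G with hK
  set W₀ := Cfsg.stableNormalClosure p ↥(S : Subgroup G) with hW₀
  set W := W₀.map (S : Subgroup G).subtype with hWdef
  set Jt := Cfsg.thompsonSubgroupOf p (S : Subgroup G) with hJt
  have hJJ : Jt = J p true (S : Subgroup G) := CfsgLib.ZJ.thompsonSubgroupOf_eq _
  have hWS : W ≤ (S : Subgroup G) := Subgroup.map_subtype_le _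
  have hWJ : ∀ w ∈ W, ∀ y ∈ Jt, y * w = w * y := by
    rintro _ ⟨w, hw, rfl⟩ _ ⟨y, hy, rfl⟩
    exact congrArg Subtype.val (Subgroup.mem_centralizer_iff.1 (stableW_elementary w hw).1.2 y hy)
  have hWab : ∀ x ∈ W, ∀ y ∈ W, x * y = y * x := by
    rintro _ ⟨x, hx, rfl⟩ y hy
    exact (hWJ y hy _ ⟨x, (stableW_elementary x hx).1.1, rfl⟩)
  have hWe : ∀ x ∈ W, x ^ p = 1 := by
    rintro _ ⟨x, hx, rfl⟩
    rw [← map_pow, (stableW_elementary x hx).2, map_one]
  have hW₀n : W₀.Normal := by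
    haveI : W₀.Characteristic := by
      rw [Subgroup.characteristic_iff_map_eq]
      exact fun φ => CfsgLib.StableClosure.map_equiv p φ
    infer_instance
  have hWn : ∀ k ∈ (S : Subgroup G), ∀ x ∈ W, k * x * k⁻¹ ∈ W := by
    rintro k hk _ ⟨x, hx, rfl⟩
    exact ⟨⟨k, hk⟩ * x * ⟨k, hk⟩⁻¹, hW₀n.conj_mem x hx _, rfl⟩
  have hKS : K ≤ (S : Subgroup G) := CfsgLib.PCore.pCore_le_sylow S
  have hWK : W ≤ K := le_pCore_of_stable_section hc hst2 W hWab fun k hk => hWn k (hKS hk)
  -- conjugates of `W` centralize `W`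
  have hconj : ∀ g : G, ∀ w ∈ W, ∀ v ∈ W, g * w * g⁻¹ * v = v * (g * w * g⁻¹) := by
    intro g w hw v hv
    have hgw : g * w * g⁻¹ ∈ (S : Subgroup G) :=
      hKS ((Cfsg.pCore_normal p G).conj_mem w (hWK hw) g)
    set x : ↥(S : Subgroup G) := ⟨g * w * g⁻¹, hgw⟩ with hx
    have hq : ⁅⁅W₀, Subgroup.zpowers x⁆, Subgroup.zpowers x⁆ = ⊥ := by
      rw [← Subgroup.map_eq_bot_iff_of_injective _ (S : Subgroup G).subtype_injective, Subgroup.map_commutator,
        Subgroup.map_commutator, MonoidHom.map_zpowers, ← hWdef]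
      set W' := W.map (MulAut.conj g).toMonoidHom with hW'
      have hxW' : Subgroup.zpowers ((S : Subgroup G).subtype x) ≤ W' :=
        Subgroup.zpowers_le.2 ⟨w, hw, rfl⟩
      have h1 : ⁅W, W'⁆ ≤ W' := Subgroup.commutator_le.2 fun a ha b hb => by
        obtain ⟨b₀, hb₀, rfl⟩ := hb
        have hk : g⁻¹ * a * g ∈ (S : Subgroup G) := by
          have := hKS ((Cfsg.pCore_normal p G).conj_mem a (hWK ha) g⁻¹)
          rwa [inv_inv] at this
        have hm : a * (MulAut.conj g).toMonoidHom b₀ * a⁻¹ ∈ W' := by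
          refine ⟨_, hWn _ hk b₀ hb₀, ?_⟩
          simp [mul_assoc]
        rw [commutatorElement_def]
        exact mul_mem hm (inv_mem ⟨b₀, hb₀, rfl⟩)
      have h2 : ⁅W', W'⁆ = ⊥ := by
        rw [hW', ← Subgroup.map_commutator, Subgroup.map_eq_bot_iff_of_injective _ (MulAut.conj g).injective,
          eq_bot_iff]
        exact Subgroup.commutator_le.2 fun a ha b hb =>
          Subgroup.mem_bot.2 (commutatorElement_eq_one_iff_mul_comm.2 (hWab a ha b hb))
      rw [eq_bot_iff, ← h2]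
      exact Subgroup.commutator_mono ((Subgroup.commutator_mono le_rfl hxW').trans h1) hxW'
    have h0 : ⁅W₀, Subgroup.zpowers x⁆ = ⊥ := by
      exact Cfsg.Agent.S0623.result S.isPGroup' x hq
    obtain ⟨v₀, hv₀, rfl⟩ := hv
    have := commutatorElement_eq_one_iff_mul_comm.1 (Subgroup.mem_bot.1
      (h0 ▸ Subgroup.commutator_mem_commutator hv₀ (Subgroup.mem_zpowers x)))
    exact congrArg Subtype.val this.symm
  -- the normal closure `V`
  set X : Set G := {y | ∃ g : G, ∃ w ∈ W, y = g * w * g⁻¹} with hXdef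
  have hXc : ∀ y ∈ X, ∀ z ∈ X, y * z = z * y := by
    rintro _ ⟨g, w, hw, rfl⟩ _ ⟨h, v, hv, rfl⟩
    have := hconj (h⁻¹ * g) w hw v hv
    calc g * w * g⁻¹ * (h * v * h⁻¹) = h * ((h⁻¹ * g) * w * (h⁻¹ * g)⁻¹ * v) * h⁻¹ := by group
      _ = h * (v * ((h⁻¹ * g) * w * (h⁻¹ * g)⁻¹)) * h⁻¹ := by rw [this]
      _ = _ := by group
  have hVgood : Good p true (Subgroup.closure X) := CfsgLib.ZJ.good_closure hXc fun _ y ⟨g, w, hw, e⟩ => by
    rw [e, conj_pow, hWe w hw, mul_one, mul_inv_cancel]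
  set V := Subgroup.closure X with hVdef
  haveI hVn : V.Normal := CfsgLib.StableClosure.normal_closure_of_conj X fun h y ⟨g, w, hw, e⟩ =>
    ⟨h * g, w, hw, by rw [e]; group⟩
  have hV : Cfsg.IsElementaryAbelian p V := ⟨hVgood.1, hVgood.2 rfl⟩
  have hVK : V ≤ K := (Subgroup.closure_le _).2 fun y ⟨g, w, hw, e⟩ =>
    e ▸ (Cfsg.pCore_normal p G).conj_mem w (hWK hw) g
  set C := Subgroup.centralizer (V : Set G) with hC
  -- a quadratic member of `maxGood` centralizes `V`
  have hquad : ∀ A ∈ maxGood p true (S : Subgroup G), V ≤ Subgroup.normalizer (A : Set G) → A ≤ C := by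
    intro A hA hVA
    have hAn : A ≤ Subgroup.normalizer (V : Set G) := le_top.trans_eq (Subgroup.normalizer_eq_top V).symm
    have hVA1 : ⁅V, A⁆ ≤ A := Subgroup.commutator_le.2 fun v hv a ha => by
      rw [commutatorElement_def]
      exact mul_mem ((Subgroup.mem_normalizer_iff.1 (hVA hv) a).1 ha) (inv_mem ha)
    have hAq : ∀ a ∈ A, ⁅⁅V, Subgroup.zpowers a⁆, Subgroup.zpowers a⁆ = ⊥ := fun a ha => by
      have hz : Subgroup.zpowers a ≤ A := Subgroup.zpowers_le.2 ha
      rw [eq_bot_iff]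
      refine Subgroup.commutator_le.2 fun x hx b hb => Subgroup.mem_bot.2 ?_
      exact commutatorElement_eq_one_iff_mul_comm.2 (CfsgLib.ZJ.good_commute hA.2.1
        (hVA1 (Subgroup.commutator_mono le_rfl hz hx)) (hz hb))
    set R := (Cfsg.pCore p (G ⧸ C)).comap (QuotientGroup.mk' C) with hR
    have hAR : A ≤ R := fun a ha => hst1 V hV a (hAq a ha)
    obtain ⟨T, hT⟩ := CfsgLib.Transfer.exists_sylow_map_eq_inf S R
    set P₀ := (S : Subgroup G) ⊓ R with hP₀
    -- `R = C P₀`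
    have hRC : R ≤ C ⊔ P₀ := by
      intro r hr
      have hle : Cfsg.pCore p (G ⧸ C) ≤ P₀.map (QuotientGroup.mk' C) := by
        intro q hq
        obtain ⟨s, hs, hsq⟩ : q ∈ (S : Subgroup G).map (QuotientGroup.mk' C) := by
          have := CfsgLib.PCore.pCore_le_sylow (S.mapSurjective (QuotientGroup.mk'_surjective C)) hq
          rwa [Sylow.coe_mapSurjective] at this
        exact ⟨s, ⟨hs, show QuotientGroup.mk' C s ∈ _ by rw [hsq]; exact hq⟩, hsq⟩
      obtain ⟨s, hs, hsr⟩ := hle hr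
      have : r = r * s⁻¹ * s := by group
      rw [this]
      refine mul_mem (Subgroup.mem_sup_left ?_) (Subgroup.mem_sup_right hs)
      rw [← QuotientGroup.eq_one_iff (N := C)]
      show QuotientGroup.mk' C (r * s⁻¹) = 1
      rw [map_mul, map_inv, hsr, mul_inv_cancel]
    have htop : C ⊔ Subgroup.normalizer (P₀ : Set G) = ⊤ := by
      rw [eq_top_iff, ← Sylow.normalizer_sup_eq_top T, hT]
      exact sup_le le_sup_right (hRC.trans (sup_le_sup le_rfl Subgroup.le_normalizer))
    refine fun a ha => Subgroup.mem_centralizer_iff.2 fun v hv => ?_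
    induction hv using Subgroup.closure_induction with
    | mem y hy =>
      obtain ⟨g, w, hw, rfl⟩ := hy
      obtain ⟨c, hc', n, hn, rfl⟩ := Subgroup.mem_sup_of_normal_left.1 (htop.ge (Subgroup.mem_top g))
      have hnw : n * w * n⁻¹ ∈ V := Subgroup.subset_closure ⟨n, w, hw, rfl⟩
      have e : c * n * w * (c * n)⁻¹ = n * w * n⁻¹ := by
        calc c * n * w * (c * n)⁻¹ = (c * (n * w * n⁻¹)) * c⁻¹ := by group
          _ = _ := by rw [← Subgroup.mem_centralizer_iff.1 hc' _ hnw]; group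
      rw [e]
      -- `n⁻¹ A n` is in `maxGood S`
      set A' := A.map (MulAut.conj n⁻¹).toMonoidHom with hA'
      have hA'm : A' ∈ maxGood p true (S : Subgroup G) := by
        refine ⟨?_, CfsgLib.ZJ.good_map _ hA.2.1, fun B h1 h2 => ?_⟩
        · rintro _ ⟨b, hb, rfl⟩
          have := (Subgroup.mem_normalizer_iff.1 (inv_mem hn) b).1 ⟨hA.1 hb, hAR hb⟩
          show (MulAut.conj n⁻¹).toMonoidHom b ∈ (S : Subgroup G)
          have h2 : n⁻¹ * b * n⁻¹⁻¹ ∈ (S : Subgroup G) := this.1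
          exact h2
        · rw [hA', Subgroup.card_map_of_injective (MulAut.conj n⁻¹).injective]
          exact hA.2.2 B h1 h2
      have hJ : n⁻¹ * a * n ∈ Jt := hJJ ▸ CfsgLib.ZJ.maxGood_le_J hA'm ⟨a, ha, by simp⟩
      have := hWJ w hw _ hJ
      calc n * w * n⁻¹ * a = n * (w * (n⁻¹ * a * n)) * n⁻¹ := by group
        _ = n * ((n⁻¹ * a * n) * w) * n⁻¹ := by rw [this]
        _ = _ := by group
    | one => simp
    | mul x y _ _ ihx ihy => exact ((show Commute x a from ihx).mul_left ihy).eq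
    | inv x _ ihx => exact (show Commute x a from ihx).inv_left.eq
  -- every member of `maxGood` centralizes `V`
  have hall : ∀ A ∈ maxGood p true (S : Subgroup G), V ≤ A := by
    by_contra hcon
    push Not at hcon
    obtain ⟨A, ⟨hA, hAV⟩, hmax⟩ := Set.exists_max_image
      {A | A ∈ maxGood p true (S : Subgroup G) ∧ ¬ V ≤ A} (fun A => Nat.card ↥(A ⊓ V)) (Set.toFinite _)
      (by obtain ⟨A, hA, hAV⟩ := hcon; exact ⟨A, hA, hAV⟩)
    have hVA : V ≤ Subgroup.normalizer (A : Set G) := by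
      by_contra hn
      have hVV : ⁅V, V⁆ = ⊥ := by
        rw [eq_bot_iff]
        exact Subgroup.commutator_le.2 fun a ha b hb =>
          Subgroup.mem_bot.2 (commutatorElement_eq_one_iff_mul_comm.2 (CfsgLib.ZJ.good_commute hVgood ha hb))
      obtain ⟨A', hA', hlt, hA'N⟩ := CfsgLib.ZJ.exists_maxGood_gt hA
        (S.isPGroup'.to_le (sup_le hA.1 (hVK.trans hKS)))
        (le_top.trans_eq (Subgroup.normalizer_eq_top V).symm)
        ((hVK.trans hKS).trans Subgroup.le_normalizer) (hVV.trans_le bot_le)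
        (by rw [hVV, Subgroup.commutator_bot_left]) (Or.inr hVgood) hn
      have hA'V : ¬ V ≤ A' := fun h => hn (h.trans hA'N)
      exact absurd (hmax A' ⟨hA', hA'V⟩) (not_le.2 (lt_of_le_of_ne (Subgroup.card_le_of_le hlt.le)
        fun e => hlt.ne (Subgroup.eq_of_le_of_card_ge hlt.le e.ge)))
    refine hAV fun v hv => CfsgLib.ZJ.mem_of_maxGood hA ((hVK.trans hKS) hv) (fun a ha => ?_)
      fun _ => hV.2 v hv
    exact (Subgroup.mem_centralizer_iff.1 (hquad A hA hVA ha) v hv).symm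
  have hJC : Jt ≤ C := hJJ.trans_le (sSup_le fun A hA => fun a ha =>
    Subgroup.mem_centralizer_iff.2 fun v hv => CfsgLib.ZJ.good_commute hA.2.1 (hall A hA hv) ha)
  -- `N(J(S))` normalizes `W`
  have hNJ : Subgroup.normalizer (Jt : Set G) ≤ Subgroup.normalizer (W : Set G) := by
    set N := Subgroup.normalizer (Jt : Set G) with hN
    have hSN : (S : Subgroup G) ≤ N := by
      intro s hs
      refine Subgroup.mem_normalizer_fintype fun y hy => ?_
      obtain ⟨y₀, hy₀, rfl⟩ := hy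
      have hn : (Cfsg.thompsonSubgroup p ↥(S : Subgroup G)).Normal := by
        haveI : (Cfsg.thompsonSubgroup p ↥(S : Subgroup G)).Characteristic := by
          rw [Subgroup.characteristic_iff_map_eq]
          exact fun φ => CfsgLib.StableClosure.thompson_map p φ
        infer_instance
      exact ⟨⟨s, hs⟩ * y₀ * ⟨s, hs⟩⁻¹, hn.conj_mem _ hy₀ _, rfl⟩
    let τ : ↥(S : Subgroup G) →* N := Subgroup.inclusion hSN
    have hτ : Cfsg.IsStableEmbedding p τ := by
      have hrange : ((S.subtype hSN : Sylow p N) : Subgroup N) = τ.range := by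
        rw [Sylow.coe_subtype]
        ext x
        exact ⟨fun hx => ⟨⟨x, hx⟩, rfl⟩, fun ⟨y, hy⟩ => hy ▸ y.2⟩
      refine ⟨Subgroup.inclusion_injective hSN, inferInstance, ⟨_, hrange⟩, ?_, ?_, ?_⟩
      · intro x hx
        have hKN : K ≤ N := hKS.trans hSN
        haveI : (Cfsg.pCore p G).Normal := Cfsg.pCore_normal p G
        have hle := CfsgLib.PCore.le_pCore (N := K.subgroupOf N) inferInstance
          (CfsgLib.PCore.isPGroup_pCore p G).comap_subtype
        refine hle (Subgroup.mem_subgroupOf.2 (hc (Subgroup.mem_centralizer_iff.2 fun k hk => ?_)))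
        exact congrArg Subtype.val (Subgroup.mem_centralizer_iff.1 hx ⟨k, hKN hk⟩
          (hle (Subgroup.mem_subgroupOf.2 hk)))
      · have e : (Cfsg.thompsonSubgroup p ↥(S : Subgroup G)).map τ = Jt.subgroupOf N := by
          apply Subgroup.map_injective N.subtype_injective
          rw [Subgroup.map_map, Subgroup.subgroupOf_map_subtype, inf_eq_left.2 Subgroup.le_normalizer]
          rfl
        rw [e]
        exact Subgroup.normal_in_normalizer
      · intro V' _ hV'
        refine hst3 S V' ((Subgroup.map_mono hV').trans ?_)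
        rw [Subgroup.map_map]
        exact le_rfl
    have hn : (W₀.map τ).Normal := by
      refine ⟨fun v hv g => ?_⟩
      obtain ⟨w, hw, rfl⟩ := hv
      obtain ⟨y, -, hy⟩ := (CfsgLib.StableClosure.omegaCenterThompson_map_normal τ hτ.1 hτ.2.2.2.2.1).conj_mem _
        ⟨w, CfsgLib.StableClosure.le_omegaCenterThompson p hw, rfl⟩ g
      refine ⟨y, Subgroup.mem_sInf.2 fun W' hW' => ?_, hy⟩
      obtain ⟨y', hy', hyy⟩ := (hW'.2 N τ hτ).conj_mem _ ⟨w, Subgroup.mem_sInf.1 hw W' hW', rfl⟩ g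
      rwa [hτ.1 (hy.trans hyy.symm)]
    intro g hg
    refine Subgroup.mem_normalizer_fintype fun y hy => ?_
    obtain ⟨w, hw, rfl⟩ := hy
    obtain ⟨y, hy, hye⟩ := hn.conj_mem _ ⟨w, hw, rfl⟩ ⟨g, hg⟩
    exact ⟨y, hy, congrArg Subtype.val hye⟩
  -- conclusion
  obtain ⟨T, hT⟩ := CfsgLib.Transfer.exists_sylow_map_eq_inf S C
  have htop := Sylow.normalizer_sup_eq_top T
  rw [hT] at htop
  have hWV : W ≤ V := fun w hw => Subgroup.subset_closure ⟨1, w, hw, by simp⟩
  have hCW : C ≤ Subgroup.normalizer (W : Set G) :=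
    (Subgroup.centralizer_le hWV).trans (Subgroup.centralizer_le_normalizer _)
  have hJeq : J p true ((S : Subgroup G) ⊓ C) = J p true (S : Subgroup G) :=
    CfsgLib.ZJ.J_eq_of_le (le_inf (CfsgLib.ZJ.J_le _) (hJJ ▸ hJC)) inf_le_left
  have hNP : Subgroup.normalizer (((S : Subgroup G) ⊓ C : Subgroup G) : Set G) ≤ Subgroup.normalizer (W : Set G) := by
    refine le_trans (fun g hg => ?_) hNJ
    rw [Subgroup.mem_normalizer_iff_map_conj_eq] at hg ⊢
    rw [hJJ, ← hJeq, ← CfsgLib.ZJ.J_map (p := p) (el := true) _ (fun x _ hx =>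
      (MulAut.conj g).injective (hx.trans (map_one _).symm)), hg]
  exact Subgroup.normalizer_eq_top_iff.1 (eq_top_iff.2 (htop.ge.trans (sup_le hNP hCW)))

/-- `N(W(S))` covers `G` modulo `O_{p'}(G)` for `p`-solvable groups without `SL(2,p)`. -/
theorem sup_normalizer_stableW {G : Type u} [Group G] [Finite G] (h5 : 5 ≤ p) (hsep : Cfsg.IsPSolvable p G)
    (S : Sylow p G) :
    Cfsg.pPrimeCore p G ⊔ Subgroup.normalizer
      (((Cfsg.stableNormalClosure p ↥(S : Subgroup G)).map (S : Subgroup G).subtype) : Set G) = ⊤ := by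
  set O := Cfsg.pPrimeCore p G
  set π := QuotientGroup.mk' O
  have hsep' := CfsgLib.PCore.isPSolvable_quotient hsep O
  let T := S.mapSurjective (QuotientGroup.mk'_surjective O)
  have hT : (T : Subgroup (G ⧸ O)) = (S : Subgroup G).map π := Sylow.coe_mapSurjective _ _
  let f : ↥(S : Subgroup G) →* ↥(T : Subgroup (G ⧸ O)) :=
    (π.comp (S : Subgroup G).subtype).codRestrict _ fun s => hT.ge (Subgroup.mem_map_of_mem π s.2)
  have hfi : Function.Injective f := by
    rw [injective_iff_map_eq_one]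
    intro s hs
    refine Subtype.ext (Subgroup.mem_bot.1 ((CfsgLib.PCore.inf_eq_bot_of_isPGroup_of_coprime S.isPGroup'
      (CfsgLib.PCore.pPrimeCore_coprime p G)).le ⟨s.2, ?_⟩))
    exact (QuotientGroup.eq_one_iff _).1 (congrArg Subtype.val hs)
  have hfs : Function.Surjective f := by
    rintro ⟨q, hq⟩
    rw [hT] at hq
    obtain ⟨s, hs, rfl⟩ := hq
    exact ⟨⟨s, hs⟩, rfl⟩
  let η := MulEquiv.ofBijective f ⟨hfi, hfs⟩
  have hn := stableW_normal (isActionPStable_of_not_involves (by omega) (not_involves_of_isPSolvable h5 hsep'))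
    (CfsgLib.PCore.hall_higman hsep' CfsgLib.PCore.pPrimeCore_quotient) T
  set W := (Cfsg.stableNormalClosure p ↥(S : Subgroup G)).map (S : Subgroup G).subtype
  have hW : (Cfsg.stableNormalClosure p ↥(T : Subgroup (G ⧸ O))).map (T : Subgroup (G ⧸ O)).subtype = W.map π := by
    rw [← CfsgLib.StableClosure.map_equiv p η, Subgroup.map_map, Subgroup.map_map]
    rfl
  rw [hW] at hn
  have h := CfsgLib.PCore.normalizer_map_eq O (CfsgLib.PCore.pPrimeCore_coprime p G) W
    (S.isPGroup'.to_le (Subgroup.map_subtype_le _))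
  rw [Subgroup.normalizer_eq_top] at h
  have h2 := congrArg (Subgroup.comap π) h.symm
  rw [Subgroup.comap_top, Subgroup.comap_map_eq, QuotientGroup.ker_mk'] at h2
  rwa [sup_comm]

end CfsgLib.PLocalBasics
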