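import Cfsg.Agent.PLocalBasics.CoprimeFactors
import Cfsg.Agent.Subnormal.BaerSuzuki

/-!
Two subnormal subgroups irreducible on incomparable commutator modules.
-/

set_option autoImplicit false
set_option linter.style.haveILetI false

namespace CfsgLib.PLocalBasics

open scoped commutatorElement

variable {G : Type*} [Group G]

/-- The hypotheses on one member of the pair. -/
structure IrrSN (p : ℕ) (V E A : Subgroup G) : Prop where
  le : A ≤ E
  sn : (A.subgroupOf E).IsSubnormal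
  big : 2 < Nat.card A
  irr : ∀ U : Subgroup G, U ≤ ⁅V, A⁆ → A ≤ Subgroup.normalizer (U : Set G) → U = ⊥ ∨ U = ⁅V, A⁆

/-- The ambient hypotheses. -/
structure FaithSN (p : ℕ) (V E : Subgroup G) : Prop where
  el : Cfsg.IsElementaryAbelian p V
  norm : E ≤ Subgroup.normalizer (V : Set G)
  faith : E ⊓ Subgroup.centralizer (V : Set G) = ⊥
  core : Cfsg.pCore p ↥E = ⊥

variable [Finite G] {p : ℕ} [hp : Fact p.Prime] {V E A B : Subgroup G}

omit [Finite G] hp in
theorem IrrSN.normW (a : IrrSN p V E A) (c : FaithSN p V E) : A ≤ Subgroup.normalizer ((⁅V, A⁆ : Subgroup G) : Set G) :=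
  CfsgLib.CoprimeAction.le_normalizer_commutator (a.le.trans c.norm)

omit [Finite G] hp in
theorem IrrSN.wV (a : IrrSN p V E A) (c : FaithSN p V E) : ⁅V, A⁆ ≤ V :=
  CfsgLib.CoprimeAction.commutator_le_of_normalizer (a.le.trans c.norm)

/-- A subnormal subgroup stabilising a series of length two is trivial. -/
theorem FaithSN.series_trivial (c : FaithSN p V E) {D W : Subgroup G} (hD : D ≤ E)
    (hsn : (D.subgroupOf E).IsSubnormal) (hW : W ≤ V) (h1 : ⁅V, D⁆ ≤ W)
    (h2 : ∀ d ∈ D, ∀ w ∈ W, d * w = w * d) : D = ⊥ := by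
  have hpow : ∀ d ∈ D, d ^ p = 1 := by
    intro d hd
    refine Subgroup.mem_bot.1 (c.faith.le ⟨pow_mem (hD hd) p, Subgroup.mem_centralizer_iff.2 fun v hv => ?_⟩)
    have hw : ⁅d, v⁆ ∈ W := by
      have := inv_mem (h1 (Subgroup.commutator_mem_commutator hv hd))
      rwa [commutatorElement_inv] at this
    set w := ⁅d, v⁆
    have hdw : Commute d w := h2 d hd w hw
    have hpow : ∀ n : ℕ, d ^ n * v * (d ^ n)⁻¹ = w ^ n * v := by
      intro n
      induction n with
      | zero => simp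
      | succ n ih =>
        calc d ^ (n + 1) * v * (d ^ (n + 1))⁻¹ = d * (d ^ n * v * (d ^ n)⁻¹) * d⁻¹ := by rw [pow_succ']; group
          _ = d * w ^ n * d⁻¹ * (d * v * d⁻¹) := by rw [ih]; group
          _ = w ^ n * (d * v * d⁻¹) := by rw [(hdw.pow_right n).eq, mul_inv_cancel_right]
          _ = _ := by rw [pow_succ, show w = d * v * d⁻¹ * v⁻¹ from commutatorElement_def d v]; group
    have := hpow p
    rw [c.el.2 w (hW hw), one_mul] at this
    exact (mul_inv_eq_iff_eq_mul.1 this).symm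
  have hpg : IsPGroup p (D.subgroupOf E) := fun d => ⟨1, Subtype.ext (Subtype.ext (by
    simpa using hpow _ (Subgroup.mem_subgroupOf.1 d.2)))⟩
  have := CfsgLib.Subnormal.le_pCore_of_isSubnormal hsn hpg
  rw [c.core, le_bot_iff, Subgroup.subgroupOf_eq_bot] at this
  exact disjoint_self.1 (this.mono_right hD)

theorem IrrSN.fixedFree (a : IrrSN p V E A) (c : FaithSN p V E) {w : G} (hw : w ∈ ⁅V, A⁆)
    (h : ∀ x ∈ A, x * w = w * x) : w = 1 := by
  rcases a.irr (⁅V, A⁆ ⊓ Subgroup.centralizer (A : Set G)) inf_le_left (fun x hx =>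
    Subgroup.mem_normalizer_fintype fun u hu => by
      rw [Subgroup.mem_centralizer_iff.1 hu.2 x hx, mul_inv_cancel_right]; exact hu) with h0 | h0
  · exact Subgroup.mem_bot.1 (h0.le ⟨hw, Subgroup.mem_centralizer_iff.2 h⟩)
  · have hA : A = ⊥ := c.series_trivial a.le a.sn (a.wV c) le_rfl fun d hd u hu =>
      Subgroup.mem_centralizer_iff.1 (h0.ge hu).2 d hd
    have := a.big
    rw [hA, Subgroup.card_bot] at this
    omega

theorem IrrSN.inf_eq_bot (a : IrrSN p V E A) (h : ¬ ⁅V, A⁆ ≤ ⁅V, B⁆) {W : Subgroup G}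
    (hW : W = ⁅V, A⁆ ⊓ ⁅V, B⁆) (hn : A ≤ Subgroup.normalizer (W : Set G)) : W = ⊥ := by
  refine (a.irr W (hW ▸ inf_le_left) hn).resolve_right fun e => h ?_
  exact e.ge.trans (hW ▸ inf_le_right)

/-- The conclusion. -/
structure PairSplit (V A B : Subgroup G) : Prop where
  comm : ⁅A, B⁆ = ⊥
  disj : A ⊓ B = ⊥
  disjW : ⁅V, A⁆ ⊓ ⁅V, B⁆ = ⊥
  span : ⁅V, A ⊔ B⁆ = ⁅V, A⁆ ⊔ ⁅V, B⁆

omit hp in
theorem sum_normalized (c : FaithSN p V E) (hA : A ≤ E) :
    A ≤ Subgroup.normalizer ((⁅V, A⁆ ⊔ ⁅V, B⁆ : Subgroup G) : Set G) ∨ ¬ B ≤ E := by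
  by_cases hB : B ≤ E
  · left
    intro x hx
    refine Subgroup.mem_normalizer_fintype fun v hv => ?_
    have hvV : v ∈ V := sup_le (CfsgLib.CoprimeAction.commutator_le_of_normalizer (hA.trans c.norm))
      (CfsgLib.CoprimeAction.commutator_le_of_normalizer (hB.trans c.norm)) hv
    rw [show x * v * x⁻¹ = ⁅v, x⁆⁻¹ * v by rw [commutatorElement_def]; group]
    exact mul_mem (inv_mem (Subgroup.mem_sup_left (Subgroup.commutator_mem_commutator hvV hx))) hv
  · exact Or.inr hB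

theorem split_of_normalized (c : FaithSN p V E) (a : IrrSN p V E A) (b : IrrSN p V E B) (hE : E = A ⊔ B)
    (hab : ¬ ⁅V, A⁆ ≤ ⁅V, B⁆) (hA : A ≤ Subgroup.normalizer ((⁅V, B⁆ : Subgroup G) : Set G))
    (hB : B ≤ Subgroup.normalizer ((⁅V, A⁆ : Subgroup G) : Set G)) : PairSplit V A B := by
  set W₁ := ⁅V, A⁆ with hW₁
  set W₂ := ⁅V, B⁆ with hW₂
  have hdisj : W₁ ⊓ W₂ = ⊥ := a.inf_eq_bot hab rfl fun x hx =>
    Subgroup.mem_normalizer_fintype fun u hu =>
      ⟨(Subgroup.mem_normalizer_iff.1 (a.normW c hx) u).1 hu.1, (Subgroup.mem_normalizer_iff.1 (hA hx) u).1 hu.2⟩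
  have hBW₁ : ∀ y ∈ B, ∀ w ∈ W₁, y * w = w * y := fun y hy w hw => by
    refine (commutatorElement_eq_one_iff_mul_comm.1 (Subgroup.mem_bot.1 (hdisj.le
      ⟨?_, Subgroup.commutator_mem_commutator (a.wV c hw) hy⟩))).symm
    rw [commutatorElement_def, mul_assoc w y, mul_assoc w]
    exact mul_mem hw ((Subgroup.mem_normalizer_iff.1 (hB hy) w⁻¹).1 (inv_mem hw))
  have hAW₂ : ∀ y ∈ A, ∀ w ∈ W₂, y * w = w * y := fun y hy w hw => by
    refine (commutatorElement_eq_one_iff_mul_comm.1 (Subgroup.mem_bot.1 (hdisj.le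
      ⟨Subgroup.commutator_mem_commutator (b.wV c hw) hy, ?_⟩))).symm
    rw [commutatorElement_def, mul_assoc w y, mul_assoc w]
    exact mul_mem hw ((Subgroup.mem_normalizer_iff.1 (hA hy) w⁻¹).1 (inv_mem hw))
  set S := W₁ ⊔ W₂ with hS
  have hspan : ⁅V, A ⊔ B⁆ = S := by
    refine le_antisymm ?_ (sup_le (Subgroup.commutator_mono le_rfl le_sup_left)
      (Subgroup.commutator_mono le_rfl le_sup_right))
    have hle : A ⊔ B ≤ trivialMod V S := by
      refine sup_le (fun x hx => ⟨c.norm (a.le hx), ((sum_normalized c a.le).resolve_right fun h => h b.le) hx,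
        fun v hv => Subgroup.mem_sup_left (Subgroup.commutator_mem_commutator hv hx)⟩)
        (fun x hx => ⟨c.norm (b.le hx), ?_, fun v hv => Subgroup.mem_sup_right (Subgroup.commutator_mem_commutator hv hx)⟩)
      have := ((sum_normalized (A := B) (B := A) c b.le).resolve_right fun h => h a.le) hx
      rwa [sup_comm] at this
    exact Subgroup.commutator_le.2 fun v hv x hx => (hle hx).2.2 v hv
  have hnormD : ∀ {D : Subgroup G}, D ≤ E → A ≤ Subgroup.normalizer (D : Set G) → B ≤ Subgroup.normalizer (D : Set G) →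
      (D.subgroupOf E).IsSubnormal := fun _ h1 h2 =>
    (Subgroup.normal_subgroupOf_of_le_normalizer (hE ▸ sup_le h1 h2)).isSubnormal
  have hcomm : ⁅A, B⁆ = ⊥ := by
    have hAN : A ≤ Subgroup.normalizer ((⁅A, B⁆ : Subgroup G) : Set G) :=
      CfsgLib.CoprimeAction.self_le_normalizer_commutator
    have hBN : B ≤ Subgroup.normalizer ((⁅A, B⁆ : Subgroup G) : Set G) := by
      rw [Subgroup.commutator_comm]; exact CfsgLib.CoprimeAction.self_le_normalizer_commutator
    have hDE : ⁅A, B⁆ ≤ E := (Subgroup.commutator_mono a.le b.le).trans (Subgroup.commutator_le_self E)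
    refine c.series_trivial hDE (hnormD hDE hAN hBN) (sup_le (a.wV c) (b.wV c))
      ((Subgroup.commutator_mono le_rfl (hDE.trans hE.le)).trans hspan.le) fun d hd w hw => ?_
    have hle : S ≤ Subgroup.centralizer ((⁅A, B⁆ : Subgroup G) : Set G) := by
      refine sup_le (Subgroup.le_centralizer_iff.1 (Subgroup.commutator_le.2 fun x hx y hy => ?_))
        (Subgroup.le_centralizer_iff.1 (Subgroup.commutator_le.2 fun x hx y hy => ?_))
      · refine Subgroup.mem_centralizer_iff.2 fun w hw => ?_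
        have h1 : x⁻¹ * w * x ∈ W₁ := by
          simpa using (Subgroup.mem_normalizer_iff.1 (Subgroup.inv_mem _ (a.normW c hx)) w).1 hw
        have c1 : Commute y (x⁻¹ * w * x) := hBW₁ y hy _ h1
        have c2 : Commute y w := hBW₁ y hy w hw
        show w * ⁅x, y⁆ = ⁅x, y⁆ * w
        rw [commutatorElement_def]
        calc w * (x * y * x⁻¹ * y⁻¹) = x * ((x⁻¹ * w * x) * y) * x⁻¹ * y⁻¹ := by group
          _ = x * (y * (x⁻¹ * w * x)) * x⁻¹ * y⁻¹ := by rw [c1.eq]
          _ = x * y * x⁻¹ * (w * y⁻¹) := by group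
          _ = _ := by rw [← c2.inv_left.eq]; group
      · refine Subgroup.mem_centralizer_iff.2 fun w hw => ?_
        have h1 : y⁻¹ * w * y ∈ W₂ := by
          simpa using (Subgroup.mem_normalizer_iff.1 (Subgroup.inv_mem _ (b.normW c hy)) w).1 hw
        have c1 : Commute x (y⁻¹ * w * y) := hAW₂ x hx _ h1
        have c2 : Commute x w := hAW₂ x hx w hw
        show w * ⁅x, y⁆ = ⁅x, y⁆ * w
        rw [commutatorElement_def]
        calc w * (x * y * x⁻¹ * y⁻¹) = (w * x) * y * x⁻¹ * y⁻¹ := by group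
          _ = x * w * y * x⁻¹ * y⁻¹ := by rw [c2.eq]
          _ = x * y * ((y⁻¹ * w * y) * x⁻¹) * y⁻¹ := by group
          _ = x * y * (x⁻¹ * (y⁻¹ * w * y)) * y⁻¹ := by rw [← c1.inv_left.eq]
          _ = _ := by group
    exact Subgroup.mem_centralizer_iff.1 (hle hw) d hd
  refine ⟨hcomm, ?_, hdisj, hspan⟩
  have hz : ∀ d ∈ A ⊓ B, (∀ x ∈ A, x * d = d * x) ∧ ∀ y ∈ B, y * d = d * y := fun d hd =>
    ⟨fun x hx => commutatorElement_eq_one_iff_mul_comm.1 (Subgroup.mem_bot.1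
      (hcomm ▸ Subgroup.commutator_mem_commutator hx hd.2)),
    fun y hy => (commutatorElement_eq_one_iff_mul_comm.1 (Subgroup.mem_bot.1
      (hcomm ▸ Subgroup.commutator_mem_commutator hd.1 hy))).symm⟩
  have hN : ∀ {X : Subgroup G}, (∀ d ∈ A ⊓ B, ∀ x ∈ X, x * d = d * x) →
      X ≤ Subgroup.normalizer ((A ⊓ B : Subgroup G) : Set G) := fun hX x hx =>
    Subgroup.centralizer_le_normalizer _ (Subgroup.mem_centralizer_iff.2 fun d hd => (hX d hd x hx).symm)
  refine c.series_trivial (inf_le_left.trans a.le) (hnormD (inf_le_left.trans a.le) (hN fun d hd => (hz d hd).1)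
    (hN fun d hd => (hz d hd).2)) (bot_le (a := V)) ?_ fun d _ w hw => ?_
  · refine Subgroup.commutator_le.2 fun v hv d hd => ?_
    rw [← hdisj]
    exact ⟨Subgroup.commutator_mem_commutator hv hd.1, Subgroup.commutator_mem_commutator hv hd.2⟩
  · rw [Subgroup.mem_bot.1 hw, mul_one, one_mul]

/-- Conjugation transports the hypotheses. -/
theorem IrrSN.conj (a : IrrSN p V E A) (c : FaithSN p V E) {g : G} (hg : g ∈ E) :
    IrrSN p V E (cj g A) ∧ ⁅V, cj g A⁆ = cj g ⁅V, A⁆ := by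
  have hW := commutator_cj (c.norm hg) A
  have hgE : cj g E = E := Subgroup.mem_normalizer_iff_map_conj_eq.1 (Subgroup.le_normalizer hg)
  refine ⟨⟨(Subgroup.map_mono a.le).trans hgE.le, ?_, ?_, fun U hU hn => ?_⟩, hW⟩
  · have e : (cj g A).subgroupOf E = (A.subgroupOf E).map (MulAut.conj (⟨g, hg⟩ : E)).toMonoidHom := by
      ext x
      rw [Subgroup.mem_subgroupOf]
      constructor
      · rintro ⟨y, hy, hyx⟩
        exact ⟨⟨y, a.le hy⟩, hy, Subtype.ext hyx⟩
      · rintro ⟨y, hy, rfl⟩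
        exact ⟨y, hy, rfl⟩
    rw [e]
    exact a.sn.map (MulAut.conj _).surjective
  · rw [Subgroup.card_map_of_injective (MulAut.conj g).injective]; exact a.big
  · have h1 : cj g⁻¹ U ≤ ⁅V, A⁆ := by
      have h := Subgroup.map_mono (f := (MulAut.conj g⁻¹).toMonoidHom) (hU.trans hW.le)
      rwa [← cj, ← cj, cj_cj, inv_mul_cancel, cj_one] at h
    have h2 : A ≤ Subgroup.normalizer ((cj g⁻¹ U : Subgroup G) : Set G) := by
      have h := Subgroup.map_mono (f := (MulAut.conj g⁻¹).toMonoidHom) hn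
      rw [← cj, ← cj, cj_cj, inv_mul_cancel, cj_one] at h
      exact h.trans (Subgroup.le_normalizer_map _)
    rcases a.irr _ h1 h2 with h | h
    · left
      have := congrArg (cj g) h
      rwa [cj_cj, mul_inv_cancel, cj_one, cj, Subgroup.map_bot] at this
    · right
      have := congrArg (cj g) h
      rwa [cj_cj, mul_inv_cancel, cj_one, ← hW] at this

theorem conj_moves (c : FaithSN p V E) (a : IrrSN p V E A) {g : G} (hg : g ∈ E)
    (hmove : cj g ⁅V, A⁆ ≠ ⁅V, A⁆) :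
    ¬ ⁅V, A⁆ ≤ ⁅V, cj g A⁆ ∧ ¬ ⁅V, cj g A⁆ ≤ ⁅V, A⁆ := by
  have hc : Nat.card ↥(cj g ⁅V, A⁆) = Nat.card ↥(⁅V, A⁆) := Subgroup.card_map_of_injective (MulAut.conj g).injective
  rw [(a.conj c hg).2]
  exact ⟨fun h => hmove (Subgroup.eq_of_le_of_card_ge h hc.le).symm,
    fun h => hmove (Subgroup.eq_of_le_of_card_ge h hc.ge)⟩

theorem exists_moving (hE : E = A ⊔ B) (h : ¬ B ≤ Subgroup.normalizer ((⁅V, A⁆ : Subgroup G) : Set G)) :
    ∃ g ∈ B, g ∈ E ∧ cj g ⁅V, A⁆ ≠ ⁅V, A⁆ := by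
  obtain ⟨g, hg, hgn⟩ := SetLike.not_le_iff_exists.1 h
  exact ⟨g, hg, hE.ge (Subgroup.mem_sup_right hg), fun e => hgn (Subgroup.mem_normalizer_iff_map_conj_eq.2 e)⟩

/-- If one of the modules is invariant, so is the other. -/
theorem normalized_other (c : FaithSN p V E) (a : IrrSN p V E A) (b : IrrSN p V E B) (hE : E = A ⊔ B)
    (hab : ¬ ⁅V, A⁆ ≤ ⁅V, B⁆)
    (hrec : ∀ g ∈ B, cj g ⁅V, A⁆ ≠ ⁅V, A⁆ → PairSplit V A (cj g A))
    (hA : A ≤ Subgroup.normalizer ((⁅V, B⁆ : Subgroup G) : Set G)) :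
    B ≤ Subgroup.normalizer ((⁅V, A⁆ : Subgroup G) : Set G) := by
  by_contra hcon
  obtain ⟨g, hgB, hgE, hmove⟩ := exists_moving hE hcon
  have hs := hrec g hgB hmove
  have hdisj : ⁅V, A⁆ ⊓ ⁅V, B⁆ = ⊥ := a.inf_eq_bot hab rfl fun x hx =>
    Subgroup.mem_normalizer_fintype fun u hu =>
      ⟨(Subgroup.mem_normalizer_iff.1 (a.normW c hx) u).1 hu.1, (Subgroup.mem_normalizer_iff.1 (hA hx) u).1 hu.2⟩
  refine hmove ?_
  have hbot : ⁅V, A⁆ = ⊥ := by
    rw [Subgroup.eq_bot_iff_forall]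
    intro w hw
    refine a.fixedFree c hw fun x hx => ?_
    have hu : g * w * g⁻¹ ∈ ⁅V, cj g A⁆ := (a.conj c hgE).2.ge (mem_cj hw)
    have hk : ⁅w, g⁆ ∈ ⁅V, B⁆ := Subgroup.commutator_mem_commutator (a.wV c hw) hgB
    -- `x` fixes both
    have hxk : Commute x ⁅w, g⁆ := by
      refine (commutatorElement_eq_one_iff_mul_comm.1 (Subgroup.mem_bot.1 (hdisj.le
        ⟨Subgroup.commutator_mem_commutator (b.wV c hk) hx, ?_⟩))).symm
      rw [commutatorElement_def ⁅w, g⁆ x, mul_assoc ⁅w, g⁆ x, mul_assoc ⁅w, g⁆]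
      exact mul_mem hk ((Subgroup.mem_normalizer_iff.1 (hA hx) _).1 (inv_mem hk))
    have hxu : Commute x (g * w * g⁻¹) := by
      refine (commutatorElement_eq_one_iff_mul_comm.1 (Subgroup.mem_bot.1 (hs.disjW.le
        ⟨Subgroup.commutator_mem_commutator ((a.conj c hgE).1.wV c hu) hx, ?_⟩))).symm
      have hxN : x ∈ Subgroup.normalizer ((⁅V, cj g A⁆ : Subgroup G) : Set G) := by
        rw [Subgroup.mem_normalizer_iff_map_conj_eq]
        refine (Subgroup.map_commutator _ _ _).trans ?_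
        rw [Subgroup.mem_normalizer_iff_map_conj_eq.1 (c.norm (a.le hx)), Subgroup.mem_normalizer_iff_map_conj_eq.1
          (Subgroup.centralizer_le_normalizer _ (Subgroup.mem_centralizer_iff.2 fun y hy =>
            (commutatorElement_eq_one_iff_mul_comm.1 (Subgroup.mem_bot.1
              (hs.comm ▸ Subgroup.commutator_mem_commutator hx hy))).symm))]
      rw [commutatorElement_def (g * w * g⁻¹) x, mul_assoc (g * w * g⁻¹) x, mul_assoc (g * w * g⁻¹)]
      exact mul_mem hu ((Subgroup.mem_normalizer_iff.1 hxN _).1 (inv_mem hu))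
    have e : w = ⁅w, g⁆ * (g * w * g⁻¹) := by rw [commutatorElement_def]; group
    rw [e]
    exact (hxk.mul_right hxu).eq
  rw [cj, hbot, Subgroup.map_bot]

/-- Both modules cannot be moved. -/
theorem not_both_moved (c : FaithSN p V E) (a : IrrSN p V E A) (b : IrrSN p V E B) (hE : E = A ⊔ B)
    (hrec : ∀ g ∈ B, cj g ⁅V, A⁆ ≠ ⁅V, A⁆ → PairSplit V A (cj g A))
    (hrec' : ∀ g ∈ A, cj g ⁅V, B⁆ ≠ ⁅V, B⁆ → PairSplit V B (cj g B))
    (hA : ¬ B ≤ Subgroup.normalizer ((⁅V, A⁆ : Subgroup G) : Set G))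
    (hB : ¬ A ≤ Subgroup.normalizer ((⁅V, B⁆ : Subgroup G) : Set G)) : False := by
  haveI := c.el.1
  set W₁ := ⁅V, A⁆ with hW₁
  set W₂ := ⁅V, B⁆ with hW₂
  have hn : ∀ {X Y : Subgroup G}, X ≤ V → Y ≤ V → X ≤ Subgroup.normalizer (Y : Set G) := fun hX hY x hx =>
    Subgroup.centralizer_le_normalizer _ (Subgroup.mem_centralizer_iff.2 fun z hz =>
      setLike_mul_comm (hY hz) (hX hx))
  obtain ⟨g, hgB, hgE, hmove⟩ := exists_moving hE hA
  obtain ⟨g', hgA, hgE', hmove'⟩ := exists_moving (A := B) (B := A) (hE.trans (sup_comm _ _)) hB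
  have hs := hrec g hgB hmove
  have hs' := hrec' g' hgA hmove'
  have hW₁' : ⁅V, cj g A⁆ = cj g W₁ := (a.conj c hgE).2
  have hle : W₁ ⊔ cj g W₁ ≤ W₁ ⊔ W₂ := by
    refine sup_le le_sup_left ?_
    rintro _ ⟨w, hw, rfl⟩
    show g * w * g⁻¹ ∈ _
    rw [show g * w * g⁻¹ = ⁅w, g⁆⁻¹ * w by rw [commutatorElement_def]; group]
    exact mul_mem (inv_mem (Subgroup.mem_sup_right (Subgroup.commutator_mem_commutator (a.wV c hw) hgB)))
      (Subgroup.mem_sup_left hw)
  have hle' : W₂ ⊔ cj g' W₂ ≤ W₁ ⊔ W₂ := by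
    refine sup_le le_sup_right ?_
    rintro _ ⟨w, hw, rfl⟩
    show g' * w * g'⁻¹ ∈ _
    rw [show g' * w * g'⁻¹ = ⁅w, g'⁆⁻¹ * w by rw [commutatorElement_def]; group]
    exact mul_mem (inv_mem (Subgroup.mem_sup_left (Subgroup.commutator_mem_commutator (b.wV c hw) hgA)))
      (Subgroup.mem_sup_right hw)
  have hW₁V : W₁ ≤ V := a.wV c
  have hW₂V : W₂ ≤ V := b.wV c
  have hW₁'V : cj g W₁ ≤ V := hW₁' ▸ (a.conj c hgE).1.wV c
  have hW₂'V : cj g' W₂ ≤ V := (b.conj c hgE').2 ▸ (b.conj c hgE').1.wV c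
  have e1 := CfsgLib.ZJ.card_sup_mul_card_inf_of_le_normalizer (hn hW₁V hW₁'V)
  have e2 := CfsgLib.ZJ.card_sup_mul_card_inf_of_le_normalizer (hn hW₂V hW₂'V)
  have e3 := CfsgLib.ZJ.card_sup_mul_card_inf_of_le_normalizer (hn hW₁V hW₂V)
  have hd1 : W₁ ⊓ cj g W₁ = ⊥ := hW₁' ▸ hs.disjW
  have hd2 : W₂ ⊓ cj g' W₂ = ⊥ := (b.conj c hgE').2 ▸ hs'.disjW
  rw [hd1, Subgroup.card_bot, mul_one, Subgroup.card_map_of_injective (MulAut.conj g).injective] at e1
  rw [hd2, Subgroup.card_bot, mul_one, Subgroup.card_map_of_injective (MulAut.conj g').injective] at e2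
  have hi : 0 < Nat.card ↥(W₁ ⊓ W₂) := Nat.card_pos
  have h1pos : 0 < Nat.card W₁ := Nat.card_pos
  have h2pos : 0 < Nat.card W₂ := Nat.card_pos
  have l1 : Nat.card W₁ * Nat.card ↥(W₁ ⊓ W₂) ≤ Nat.card W₂ := by
    refine Nat.le_of_mul_le_mul_left ?_ h1pos
    rw [← mul_assoc, ← e1, ← e3]
    exact Nat.mul_le_mul_right _ (Subgroup.card_le_of_le hle)
  have l2 : Nat.card W₂ * Nat.card ↥(W₁ ⊓ W₂) ≤ Nat.card W₁ := by
    refine Nat.le_of_mul_le_mul_left ?_ h2pos
    rw [← mul_assoc, ← e2, mul_comm (Nat.card W₂) (Nat.card W₁), ← e3]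
    exact Nat.mul_le_mul_right _ (Subgroup.card_le_of_le hle')
  have hinf : Nat.card ↥(W₁ ⊓ W₂) = 1 := by
    by_contra h
    have : 2 ≤ Nat.card ↥(W₁ ⊓ W₂) := by omega
    nlinarith
  rw [hinf, mul_one] at l1 l2
  have hsum : W₁ ⊔ cj g W₁ = W₁ ⊔ W₂ := by
    refine Subgroup.eq_of_le_of_card_ge hle ?_
    rw [hinf, mul_one] at e3
    rw [e1, e3]
    exact Nat.mul_le_mul_left _ l2
  have hdisj : W₁ ⊓ W₂ = ⊥ := Subgroup.card_eq_one.1 hinf
  have hAN : A ≤ Subgroup.normalizer ((cj g W₁ : Subgroup G) : Set G) := by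
    intro x hx
    rw [← hW₁', Subgroup.mem_normalizer_iff_map_conj_eq]
    refine (Subgroup.map_commutator _ _ _).trans ?_
    rw [Subgroup.mem_normalizer_iff_map_conj_eq.1 (c.norm (a.le hx)), Subgroup.mem_normalizer_iff_map_conj_eq.1
      (Subgroup.centralizer_le_normalizer _ (Subgroup.mem_centralizer_iff.2 fun y hy =>
        (commutatorElement_eq_one_iff_mul_comm.1 (Subgroup.mem_bot.1
          (hs.comm ▸ Subgroup.commutator_mem_commutator hx hy))).symm))]
  -- the orbit of `W₁` has two members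
  have horbit : ∀ h ∈ B, cj h W₁ = W₁ ∨ cj h W₁ = cj g W₁ := by
    intro h hh
    by_cases hm : cj h W₁ = W₁
    · exact Or.inl hm
    right
    have hhE : h ∈ E := hE.ge (Subgroup.mem_sup_right hh)
    have hsh := hrec h hh hm
    have hWh : ⁅V, cj h A⁆ = cj h W₁ := (a.conj c hhE).2
    refine Subgroup.eq_of_le_of_card_ge (fun u hu => ?_)
      (by rw [Subgroup.card_map_of_injective (MulAut.conj g).injective,
        Subgroup.card_map_of_injective (MulAut.conj h).injective])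
    have hus : u ∈ W₁ ⊔ cj g W₁ := by
      rw [hsum]
      obtain ⟨w, hw, rfl⟩ := hu
      show h * w * h⁻¹ ∈ _
      rw [show h * w * h⁻¹ = ⁅w, h⁆⁻¹ * w by rw [commutatorElement_def]; group]
      exact mul_mem (inv_mem (Subgroup.mem_sup_right (Subgroup.commutator_mem_commutator (a.wV c hw) hh)))
        (Subgroup.mem_sup_left hw)
    rw [← SetLike.mem_coe, Subgroup.coe_mul_of_right_le_normalizer_left _ _ (hn hW₁'V hW₁V)] at hus
    obtain ⟨w₁, hw₁, w₂, hw₂, rfl⟩ := hus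
    suffices hw1 : w₁ = 1 by
      show w₁ * w₂ ∈ _
      rw [hw1, one_mul]; exact hw₂
    refine a.fixedFree c hw₁ fun x hx => ?_
    have fixW : ∀ {C : Subgroup G}, ⁅V, A⁆ ⊓ C = ⊥ → C ≤ V → x ∈ Subgroup.normalizer (C : Set G) →
        ∀ z ∈ C, Commute x z := by
      intro C hd hCV hxC z hz
      refine (commutatorElement_eq_one_iff_mul_comm.1 (Subgroup.mem_bot.1 (hd.le
        ⟨Subgroup.commutator_mem_commutator (hCV hz) hx, ?_⟩))).symm
      rw [commutatorElement_def z x, mul_assoc z x, mul_assoc z]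
      exact mul_mem hz ((Subgroup.mem_normalizer_iff.1 hxC _).1 (inv_mem hz))
    have hxh : x ∈ Subgroup.normalizer ((cj h W₁ : Subgroup G) : Set G) := by
      rw [← hWh, Subgroup.mem_normalizer_iff_map_conj_eq]
      refine (Subgroup.map_commutator _ _ _).trans ?_
      rw [Subgroup.mem_normalizer_iff_map_conj_eq.1 (c.norm (a.le hx)), Subgroup.mem_normalizer_iff_map_conj_eq.1
        (Subgroup.centralizer_le_normalizer _ (Subgroup.mem_centralizer_iff.2 fun y hy =>
          (commutatorElement_eq_one_iff_mul_comm.1 (Subgroup.mem_bot.1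
            (hsh.comm ▸ Subgroup.commutator_mem_commutator hx hy))).symm))]
    have c1 : Commute x (w₁ * w₂) := fixW (hWh ▸ hsh.disjW) (hWh ▸ (a.conj c hhE).1.wV c) hxh _ hu
    have c2 : Commute x w₂ := fixW hd1 hW₁'V (hAN hx) _ hw₂
    have := (c1.mul_right c2.inv_right).eq
    rwa [mul_inv_cancel_right] at this
  -- the stabiliser in `B`
  set B₀ := B ⊓ Subgroup.normalizer (W₁ : Set G) with hB₀
  have hfix : ∀ h ∈ B₀, cj h W₁ = W₁ ∧ cj h (cj g W₁) = cj g W₁ := by
    intro h hh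
    have h1 : cj h W₁ = W₁ := Subgroup.mem_normalizer_iff_map_conj_eq.1 hh.2
    refine ⟨h1, ?_⟩
    rw [cj_cj]
    refine (horbit _ (mul_mem hh.1 hgB)).resolve_left fun e => hmove ?_
    have := congrArg (cj h⁻¹) (e.trans h1.symm)
    rwa [cj_cj, cj_cj, inv_mul_cancel_left, inv_mul_cancel, cj_one] at this
  have hcent : ∀ h ∈ B, cj h W₁ = W₁ → ∀ w ∈ W₁, h * w = w * h := by
    intro h hh hm w hw
    refine (commutatorElement_eq_one_iff_mul_comm.1 (Subgroup.mem_bot.1 (hdisj.le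
      ⟨?_, Subgroup.commutator_mem_commutator (a.wV c hw) hh⟩))).symm
    rw [commutatorElement_def, mul_assoc w h, mul_assoc w]
    exact mul_mem hw ((Subgroup.mem_normalizer_iff.1 (Subgroup.mem_normalizer_iff_map_conj_eq.2 hm) w⁻¹).1 (inv_mem hw))
  have hbot : B₀ = ⊥ := by
    have hB₀E : B₀ ≤ E := inf_le_left.trans b.le
    have hnB : B ≤ Subgroup.normalizer (B₀ : Set G) := by
      intro x hx
      refine Subgroup.mem_normalizer_fintype fun h hh => ⟨B.mul_mem (B.mul_mem hx hh.1) (B.inv_mem hx),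
        Subgroup.mem_normalizer_iff_map_conj_eq.2 ?_⟩
      show cj (x * h * x⁻¹) W₁ = W₁
      obtain ⟨f1, f2⟩ := hfix h hh
      rcases horbit x⁻¹ (inv_mem hx) with e | e <;> rw [← cj_cj, e, ← cj_cj]
      · rw [f1]
        have := congrArg (cj x) e
        rwa [cj_cj, mul_inv_cancel, cj_one, eq_comm] at this
      · rw [f2, ← e, cj_cj, mul_inv_cancel, cj_one]
    refine c.series_trivial hB₀E ?_ (sup_le hW₁V hW₁'V : W₁ ⊔ cj g W₁ ≤ V) ?_ fun h hh w hw => ?_
    · have hsub : B₀.subgroupOf E ≤ B.subgroupOf E := fun z hz => (show (z : G) ∈ B₀ from hz).1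
      refine Subgroup.IsSubnormal.trans (K := B.subgroupOf E) hsub ?_ b.sn
      refine Subgroup.Normal.isSubnormal ?_
      rw [Subgroup.normal_subgroupOf_iff_le_normalizer hsub]
      intro z hz
      refine Subgroup.mem_normalizer_fintype fun w hw => ?_
      exact (Subgroup.mem_normalizer_iff.1 (hnB (Subgroup.mem_subgroupOf.1 hz)) (w : G)).1 hw
    · rw [hsum]
      exact (Subgroup.commutator_mono le_rfl inf_le_left).trans le_sup_right
    · have hle : W₁ ⊔ cj g W₁ ≤ Subgroup.centralizer ({h} : Set G) := by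
        refine sup_le (fun z hz => Subgroup.mem_centralizer_singleton_iff.2
          (hcent h hh.1 (hfix h hh).1 z hz).symm) ?_
        rintro _ ⟨z, hz, rfl⟩
        have hh' : cj (g⁻¹ * h * g) W₁ = W₁ := by
          rw [← cj_cj, ← cj_cj, (hfix h hh).2, cj_cj, inv_mul_cancel, cj_one]
        have := hcent _ (mul_mem (mul_mem (inv_mem hgB) hh.1) hgB) hh' z hz
        refine Subgroup.mem_centralizer_singleton_iff.2 ?_
        show g * z * g⁻¹ * h = h * (g * z * g⁻¹)
        calc g * z * g⁻¹ * h = g * (z * (g⁻¹ * h * g)) * g⁻¹ := by group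
          _ = g * (g⁻¹ * h * g * z) * g⁻¹ := by rw [this]
          _ = _ := by group
      exact (Subgroup.mem_centralizer_singleton_iff.1 (hle hw)).symm
  -- so `B` has at most two elements
  have hsmall : ∀ x : B, (x : G) = 1 ∨ (x : G) = g := by
    intro x
    rcases horbit x x.2 with e | e
    · exact Or.inl (Subgroup.mem_bot.1 (hbot.le ⟨x.2, Subgroup.mem_normalizer_iff_map_conj_eq.2 e⟩))
    · refine Or.inr (inv_mul_eq_one.1 (Subgroup.mem_bot.1 (hbot.le
        ⟨B.mul_mem (B.inv_mem hgB) x.2, Subgroup.mem_normalizer_iff_map_conj_eq.2 ?_⟩))).symm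
      show cj (g⁻¹ * x) W₁ = W₁
      rw [← cj_cj, e, cj_cj, inv_mul_cancel, cj_one]
  have := b.big
  have hle2 : Nat.card B ≤ 2 := by
    classical
    refine (Nat.card_le_card_of_injective (fun x : B => decide ((x : G) = 1)) fun x y hxy => Subtype.ext ?_).trans_eq
      (by simp)
    simp only [decide_eq_decide] at hxy
    rcases hsmall x with hx | hx <;> rcases hsmall y with hy | hy <;> simp_all
  omega

theorem exists_proper (a : IrrSN p V E A) (hne : A ≠ E) :
    ∃ N : Subgroup G, N < E ∧ A ≤ N ∧ E ≤ Subgroup.normalizer (N : Set G) := by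
  obtain ⟨K, hK, hAK, hKtop⟩ := a.sn.exists_normal_and_le_and_lt_top_of_ne fun h =>
    hne (le_antisymm a.le (Subgroup.subgroupOf_eq_top.1 h))
  refine ⟨K.map E.subtype, lt_of_le_of_ne (Subgroup.map_subtype_le _) fun h => hKtop.ne ?_, ?_, ?_⟩
  · exact Subgroup.map_injective E.subtype_injective (h.trans (by rw [← MonoidHom.range_eq_map, Subgroup.range_subtype]))
  · exact fun x hx => ⟨⟨x, a.le hx⟩, hAK (Subgroup.mem_subgroupOf.2 hx), rfl⟩
  · intro x hx
    refine Subgroup.mem_normalizer_fintype ?_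
    rintro _ ⟨k, hk, rfl⟩
    exact ⟨⟨x, hx⟩ * k * ⟨x, hx⟩⁻¹, hK.conj_mem k hk ⟨x, hx⟩, rfl⟩

/-- The theorem. -/
theorem pair_split : ∀ (E : Subgroup G) (A B : Subgroup G), FaithSN p V E → IrrSN p V E A → IrrSN p V E B →
    E = A ⊔ B → ¬ ⁅V, A⁆ ≤ ⁅V, B⁆ → ¬ ⁅V, B⁆ ≤ ⁅V, A⁆ → PairSplit V A B := by
  intro E
  induction E using WellFoundedLT.induction with
  | _ E ih =>
    intro A B c a b hE hab hba
    have hrec : ∀ {A B : Subgroup G}, IrrSN p V E A → IrrSN p V E B → E = A ⊔ B → ¬ ⁅V, B⁆ ≤ ⁅V, A⁆ →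
        ∀ g ∈ B, cj g ⁅V, A⁆ ≠ ⁅V, A⁆ → PairSplit V A (cj g A) := by
      intro A B a b hE hba g hg hm
      have hgE : g ∈ E := hE.ge (Subgroup.mem_sup_right hg)
      obtain ⟨N, hN, hAN, hEN⟩ := exists_proper a (fun h => hba (Subgroup.commutator_mono le_rfl (h ▸ b.le)))
      obtain ⟨a', -⟩ := a.conj c hgE
      set X := A ⊔ cj g A with hX
      have hXN : X ≤ N := sup_le hAN ((Subgroup.map_mono hAN).trans
        (Subgroup.mem_normalizer_iff_map_conj_eq.1 (hEN hgE)).le)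
      have hXE : X ≤ E := hXN.trans hN.le
      have hsnX : (X.subgroupOf E).IsSubnormal := by
        rw [hX, Subgroup.subgroupOf_sup a.le a'.le]
        exact CfsgLib.Subnormal.isSubnormal_sup a.sn a'.sn
      have cX : FaithSN p V X := by
        refine ⟨c.el, hXE.trans c.norm, le_bot_iff.1 ((inf_le_inf_right _ hXE).trans c.faith.le), ?_⟩
        rw [eq_bot_iff]
        intro x hx
        have h1 : ((Cfsg.pCore p ↥X).map (Subgroup.inclusion hXE)).IsSubnormal := by
          refine Subgroup.IsSubnormal.trans (K := X.subgroupOf E) ?_ ?_ hsnX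
          · rintro _ ⟨y, -, rfl⟩; exact y.2
          · refine Subgroup.Normal.isSubnormal ⟨fun y hy z => ?_⟩
            obtain ⟨w, hw, hwy⟩ := Subgroup.mem_subgroupOf.1 hy
            refine ⟨⟨((z : E) : G), z.2⟩ * w * ⟨((z : E) : G), z.2⟩⁻¹,
              (CfsgLib.Subnormal.normal_pCore p).conj_mem w hw _, Subtype.ext ?_⟩
            have e : (w : G) = ((y : E) : G) := congrArg Subtype.val hwy
            show ((z : E) : G) * w * ((z : E) : G)⁻¹ = _
            rw [e]; rfl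
        have h2 := CfsgLib.Subnormal.le_pCore_of_isSubnormal h1 ((CfsgLib.Subnormal.isPGroup_pCore p).map _) ⟨x, hx, rfl⟩
        rw [c.core, Subgroup.mem_bot] at h2
        have h3 : (x : G) = 1 := congrArg Subtype.val h2
        exact Subgroup.mem_bot.2 (Subtype.ext h3)
      have mk : ∀ {C : Subgroup G}, IrrSN p V E C → C ≤ X → IrrSN p V X C := fun hC hCX =>
        ⟨hCX, CfsgLib.Subnormal.isSubnormal_subgroupOf_mono hXE hC.sn, hC.big, hC.irr⟩
      obtain ⟨h1, h2⟩ := conj_moves c a hgE hm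
      exact ih X (lt_of_le_of_lt hXN hN) A _ cX (mk a le_sup_left) (mk a' le_sup_right) rfl h1 h2
    by_cases hA : A ≤ Subgroup.normalizer ((⁅V, B⁆ : Subgroup G) : Set G)
    · exact split_of_normalized c a b hE hab hA (normalized_other c a b hE hab (hrec a b hE hba) hA)
    by_cases hB : B ≤ Subgroup.normalizer ((⁅V, A⁆ : Subgroup G) : Set G)
    · exact absurd (normalized_other c b a (hE.trans (sup_comm _ _)) hba (hrec b a (hE.trans (sup_comm _ _)) hab) hB) hA
    exact (not_both_moved c a b hE (hrec a b hE hba) (hrec b a (hE.trans (sup_comm _ _)) hab) hB hA).elim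

end CfsgLib.PLocalBasics
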