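import Cfsg.Agent.CoprimeAction.Invariant
import Cfsg.Agent.CoprimeAction.Basic
import Cfsg.Agent.PCore.PSolvable

/-!
A coprime group acting trivially on invariant Sylow subgroups for the primes other than `q`.
-/

set_option autoImplicit false

namespace CfsgLib.PLocalBasics

open scoped commutatorElement

variable {G : Type*} [Group G] [Finite G]

theorem coprime_commutator_isPGroup {K A : Subgroup G} (q : ℕ) [hq : Fact q.Prime]
    (hAK : A ≤ Subgroup.normalizer (K : Set G)) (hcop : (Nat.card A).Coprime (Nat.card K))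
    (hA : Group.IsSolvable A)
    (h : ∀ r : ℕ, r.Prime → r ≠ q → ∀ S : Subgroup G, S ≤ K → IsPGroup r S →
      A ≤ Subgroup.normalizer (S : Set G) → A ≤ Subgroup.centralizer (S : Set G)) :
    IsPGroup q ↥(⁅K, A⁆) := by
  obtain ⟨Q, hQ⟩ := CfsgLib.CoprimeAction.exists_invariant_sylow hAK hcop (Or.inl hA) q
  set Q' := (Q : Subgroup K).map K.subtype with hQ'
  set C := K ⊓ Subgroup.centralizer (A : Set G) with hC
  have hQK : Q' ≤ K := Subgroup.map_subtype_le _
  have hcQ : Nat.card Q' = Nat.card (Q : Subgroup K) := Subgroup.card_map_of_injective K.subtype_injective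
  have hQp : IsPGroup q Q' := Q.isPGroup'.map _
  set m := (Q : Subgroup K).index
  have hK : Nat.card Q' * m = Nat.card K := by rw [hcQ]; exact Subgroup.card_mul_index _
  have hmC : m * Nat.card ↥(Q' ⊓ C) ∣ Nat.card C := by
    refine Nat.Coprime.mul_dvd_of_dvd_of_dvd ?_ ?_ (Subgroup.card_dvd_of_le inf_le_right)
    · exact (Q.card_coprime_index.coprime_dvd_left (hcQ ▸ Subgroup.card_dvd_of_le inf_le_left)).symm
    · rw [Nat.dvd_iff_prime_pow_dvd_dvd]
      intro r k hr hd
      rcases eq_or_ne k 0 with rfl | hk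
      · simp
      have hrq : r ≠ q := by
        rintro rfl
        exact Q.not_dvd_index ((dvd_pow_self r hk).trans hd)
      haveI : Fact r.Prime := ⟨hr⟩
      obtain ⟨S, hS⟩ := CfsgLib.CoprimeAction.exists_invariant_sylow hAK hcop (Or.inl hA) r
      have hle : (S : Subgroup K).map K.subtype ≤ C := le_inf (Subgroup.map_subtype_le _)
        (Subgroup.le_centralizer_iff.1 (h r hr hrq _ (Subgroup.map_subtype_le _) (S.isPGroup'.map _) hS))
      refine (?_ : r ^ k ∣ Nat.card ↥((S : Subgroup K).map K.subtype)).trans (Subgroup.card_dvd_of_le hle)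
      rw [Subgroup.card_map_of_injective K.subtype_injective]
      refine S.pow_dvd_card_of_pow_dvd_card (hd.trans ?_)
      exact Dvd.intro_left _ (Subgroup.card_mul_index (Q : Subgroup K))
  -- `K = Q C`
  have hrel : Nat.card (K ⧸ C.subgroupOf K) ≤ Nat.card (Q' ⧸ C.subgroupOf Q') := by
    have h1 : Nat.card (C.subgroupOf K) * Nat.card (K ⧸ C.subgroupOf K) = Nat.card K :=
      Subgroup.card_mul_index (C.subgroupOf K)
    have h2 : Nat.card (C.subgroupOf Q') * Nat.card (Q' ⧸ C.subgroupOf Q') = Nat.card Q' :=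
      Subgroup.card_mul_index (C.subgroupOf Q')
    rw [Nat.card_congr (Subgroup.subgroupOfEquivOfLe (inf_le_left : C ≤ K)).toEquiv] at h1
    have e : Nat.card (C.subgroupOf Q') = Nat.card ↥(Q' ⊓ C) := by
      rw [← Subgroup.inf_subgroupOf_left, Nat.card_congr (Subgroup.subgroupOfEquivOfLe inf_le_left).toEquiv]
    rw [e] at h2
    refine Nat.le_of_mul_le_mul_left ?_ (Nat.card_pos (α := C))
    rw [h1, ← hK, ← h2, mul_assoc, mul_comm (Nat.card (Q' ⧸ _)) m, ← mul_assoc, mul_comm (Nat.card ↥(Q' ⊓ C)) m]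
    exact Nat.mul_le_mul_right _ (Nat.le_of_dvd Nat.card_pos hmC)
  let e := Subgroup.quotientSubgroupOfEmbeddingOfLE C hQK
  have hsurj : Function.Surjective e := (e.injective.bijective_of_nat_card_le hrel).2
  refine hQp.to_le (Subgroup.commutator_le.2 fun k hk a ha => ?_)
  obtain ⟨y, hy⟩ := hsurj (QuotientGroup.mk (⟨k, hk⟩ : K))
  obtain ⟨⟨y, hyQ⟩, rfl⟩ := QuotientGroup.mk_surjective y
  rw [Subgroup.quotientSubgroupOfEmbeddingOfLE_apply_mk, QuotientGroup.eq, Subgroup.mem_subgroupOf] at hy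
  simp only [Subgroup.coe_mul, Subgroup.coe_inv, Subgroup.coe_inclusion] at hy
  have hca := Subgroup.mem_centralizer_iff.1 hy.2 a ha
  have e2 : ⁅k, a⁆ = ⁅y, a⁆ := by
    calc ⁅k, a⁆ = y * ((y⁻¹ * k) * a * (y⁻¹ * k)⁻¹) * y⁻¹ * a⁻¹ := by rw [commutatorElement_def]; group
      _ = ⁅y, a⁆ := by rw [← hca, mul_inv_cancel_right, commutatorElement_def]
  rw [e2, commutatorElement_def, mul_assoc y a, mul_assoc y]
  exact mul_mem hyQ ((Subgroup.mem_normalizer_iff.1 (hQ ha) y⁻¹).1 (inv_mem hyQ))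

/-- `K A` is `p`-solvable for a `p`-group `A` normalizing the `p'`-group `K`. -/
theorem isPSolvable_sup {p : ℕ} [Fact p.Prime] {K A : Subgroup G} (hAK : A ≤ Subgroup.normalizer (K : Set G))
    (hK : (Nat.card K).Coprime p) (hA : IsPGroup p A) : Cfsg.IsPSolvable p ↥(A ⊔ K) := by
  haveI : (K.subgroupOf (A ⊔ K)).Normal :=
    Subgroup.normal_subgroupOf_of_le_normalizer (sup_le hAK Subgroup.le_normalizer)
  refine CfsgLib.PCore.isPSolvable_of_normal (K.subgroupOf (A ⊔ K)) ?_ (CfsgLib.PCore.isPSolvable_of_isPGroup ?_)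
  · refine CfsgLib.PCore.isPSolvable_of_coprime (Nat.Coprime.coprime_dvd_left ?_ hK)
    exact CfsgLib.PCore.card_subgroupOf_dvd K _
  · refine hA.of_surjective ((QuotientGroup.mk' (K.subgroupOf (A ⊔ K))).comp (Subgroup.inclusion le_sup_left)) ?_
    intro q
    obtain ⟨⟨g, hg⟩, rfl⟩ := QuotientGroup.mk'_surjective _ q
    have hg' := hg
    rw [← SetLike.mem_coe, Subgroup.coe_mul_of_left_le_normalizer_right A K hAK] at hg'
    obtain ⟨a, ha, k, hk, hak⟩ := hg'
    refine ⟨⟨a, ha⟩, QuotientGroup.eq.2 (Subgroup.mem_subgroupOf.2 ?_)⟩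
    show a⁻¹ * g ∈ K
    rw [← hak, inv_mul_cancel_left]; exact hk

end CfsgLib.PLocalBasics
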