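import Cfsg.Agent.PLocalBasics.CoprimeFactors
import Cfsg.Agent.CoprimeAction.Action

/-!
Thompson factorization in the presence of a coprime group of automorphisms.
-/

set_option autoImplicit false
set_option linter.style.haveILetI false

namespace CfsgLib.PLocalBasics

open scoped commutatorElement

variable {K : Type*} [Group K] {p : ℕ}

/-- The restriction of a group of automorphisms to an invariant subgroup. -/
def restrictAut {X : Type*} [Group X] (φ : X →* MulAut K) (V : Subgroup K)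
    (hV : ∀ x : X, V.map (φ x).toMonoidHom = V) : X →* MulAut V where
  toFun x := ((φ x).subgroupMap V).trans (MulEquiv.subgroupCongr (hV x))
  map_one' := MulEquiv.ext fun v => Subtype.ext (show φ 1 (v : K) = v by rw [map_one]; rfl)
  map_mul' x y := MulEquiv.ext fun v => Subtype.ext (show φ (x * y) (v : K) = φ x (φ y v) by rw [map_mul]; rfl)

theorem restrictAut_coe {X : Type*} [Group X] (φ : X →* MulAut K) (V : Subgroup K)
    (hV : ∀ x : X, V.map (φ x).toMonoidHom = V) (x : X) (v : V) : (restrictAut φ V hV x v : K) = φ x v := rfl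

theorem omegaJoin_map [Finite K] [hp : Fact p.Prime] (θ : K ≃* K) :
    (omegaJoin p K).map θ.toMonoidHom = omegaJoin p K := by
  refine Subgroup.eq_of_le_of_card_ge ?_ (Subgroup.card_map_of_injective θ.injective).ge
  rw [Subgroup.map_iSup]
  refine iSup_le fun S => ?_
  obtain ⟨T, hT⟩ : ∃ T : Sylow p K, (T : Subgroup K) = (S : Subgroup K).map θ.toMonoidHom :=
    ⟨S.mapSurjective θ.surjective, Sylow.coe_mapSurjective _ S⟩
  refine le_iSup_of_le T ?_
  rw [omegaOne_map _ θ.injective, Subgroup.map_inf _ _ _ θ.injective, hT]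
  refine Subgroup.closure_mono fun x hx => ⟨⟨hx.1.1, ?_⟩, hx.2⟩
  obtain ⟨c, hc, rfl⟩ := hx.1.2
  rintro _ ⟨s, hs, rfl⟩
  rw [← map_mul, ← map_mul, Subgroup.mem_centralizer_iff.1 hc s hs]

/-- The data on the action on `V = ⟨Ω₁(Z(S))⟩`. -/
structure ActSetting {X : Type*} [Group X] [Finite X] [Finite K] (p q : ℕ) (φ : X →* MulAut K)
    (V : Subgroup K) [V.Normal] (ξ : X →* ActL V) : Prop where
  faith : FaithCtx p (actV V).range ((Cfsg.thompsonSubgroup p K).map (actι V))
  gen : OffGen p (actV V).range ((Cfsg.thompsonSubgroup p K).map (actι V))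
  act : ActCtx q (actV V).range ((Cfsg.thompsonSubgroup p K).map (actι V)) ξ.range
  ker : (actι V).ker = Subgroup.centralizer (V : Set K)
  moveι : ∀ x k, ξ x * actι V k * (ξ x)⁻¹ = actι V (φ x k)
  moveV : ∀ (x : X) (v : V), ∃ w : V, (w : K) = φ x v ∧ ξ x * actV V v * (ξ x)⁻¹ = actV V w
  lift : ∀ h ∈ (Cfsg.thompsonSubgroup p K).map (actι V), (∀ s ∈ ξ.range, s * h = h * s) →
    ∃ k : K, (∀ x, φ x k = k) ∧ actι V k = h

theorem exists_actSetting [Finite K] [hp : Fact p.Prime] {q : ℕ} [hq : Fact q.Prime] {X : Type*} [Group X] [Finite X]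
    (φ : X →* MulAut K) (hX : IsPGroup q X) (hqK : ¬ q ∣ Nat.card K)
    (hsep : Cfsg.IsPSolvable p K) (hO : Cfsg.pPrimeCore p K = ⊥) [(omegaJoin p K).Normal] :
    ∃ ξ : X →* ActL (omegaJoin p K), ActSetting p q φ (omegaJoin p K) ξ := by
  obtain ⟨-, hV, hOq⟩ := omegaJoin_data hsep hO
  set V := omegaJoin p K with hVdef
  let α := restrictAut φ V fun x => omegaJoin_map (φ x)
  let ξ : X →* ActL V := SemidirectProduct.inr.comp α
  obtain ⟨c, hgen⟩ := model_faithCtx V (actι V) (actV V) hsep hV hOq (actV_injective V) (actι_conj V) (actι_faith V)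
  have hker := ker_eq_centralizer V (actι V) (actV V) (actV_injective V) (actι_conj V) (actι_faith V)
  haveI : (Cfsg.thompsonSubgroup p K).Characteristic := thompson_characteristic
  have hι : ∀ x k, ξ x * actι V k * (ξ x)⁻¹ = actι V (φ x k) := by
    intro x k
    show SemidirectProduct.inr (α x) * SemidirectProduct.inr (MulAut.conjNormal k) *
      (SemidirectProduct.inr (α x))⁻¹ = SemidirectProduct.inr (MulAut.conjNormal (φ x k))
    rw [← map_mul, ← map_inv, ← map_mul]
    refine congrArg _ (MulEquiv.ext fun v => Subtype.ext ?_)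
    have hr : (φ x) (((α x)⁻¹ v : V) : K) = v := by
      rw [← restrictAut_coe φ V (fun x => omegaJoin_map (φ x))]
      exact congrArg Subtype.val (MulAut.apply_inv_self (M := V) (α x) v)
    simp only [MulAut.mul_apply, MulAut.conjNormal_apply]
    show φ x (MulAut.conjNormal k ((α x)⁻¹ v) : V) = _
    simp only [MulAut.conjNormal_apply, map_mul, map_inv, hr]
  have hV' : ∀ (x : X) (v : V), ξ x * actV V v * (ξ x)⁻¹ = actV V (α x v) := by
    intro x v
    show SemidirectProduct.inr (α x) * SemidirectProduct.inl v * (SemidirectProduct.inr (α x))⁻¹ =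
      SemidirectProduct.inl (α x v)
    rw [← map_inv]
    exact (SemidirectProduct.inl_aut (φ := MonoidHom.id (MulAut V)) (α x) v).symm
  have hcard : ∀ {M : Subgroup (ActL V)}, M = (Cfsg.thompsonSubgroup p K).map (actι V) → ¬ q ∣ Nat.card M := by
    rintro M rfl hd
    exact hqK (hd.trans ((Subgroup.card_map_dvd _ _).trans (Subgroup.card_subgroup_dvd_card _)))
  refine ⟨ξ, c, hgen, ⟨?_, ?_, hX.of_surjective ξ.rangeRestrict ξ.rangeRestrict_surjective, hq.out, hcard rfl⟩,
    hker, hι, fun x v => ⟨α x v, rfl, hV' x v⟩, ?_⟩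
  · rintro _ ⟨x, rfl⟩
    refine Subgroup.mem_normalizer_fintype ?_
    rintro _ ⟨v, rfl⟩
    exact ⟨α x v, (hV' x v).symm⟩
  · rintro _ ⟨x, rfl⟩
    refine Subgroup.mem_normalizer_fintype ?_
    rintro _ ⟨k, hk, rfl⟩
    refine ⟨φ x k, ?_, (hι x k).symm⟩
    exact (Subgroup.characteristic_iff_map_eq.1 inferInstance (φ x)).le ⟨k, hk, rfl⟩
  · rintro _ ⟨k, -, rfl⟩ hfix
    haveI : Group.IsSolvable X := by haveI := hX.isNilpotent; infer_instance
    have hcop : (Nat.card X).Coprime (Nat.card (actι V).ker) := by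
      obtain ⟨n, hn⟩ := IsPGroup.iff_card.1 hX
      rw [hn]
      refine Nat.Coprime.pow_left _ ((Nat.Prime.coprime_iff_not_dvd hq.out).2 fun h => hqK (h.trans ?_))
      exact Subgroup.card_subgroup_dvd_card _
    obtain ⟨n, hn, hf⟩ := CfsgLib.CoprimeAction.exists_fixed_of_coset φ (N := (actι V).ker) (fun x n hn => by
      rw [MonoidHom.mem_ker] at hn ⊢
      rw [← hι, hn, mul_one, mul_inv_cancel]) hcop (Or.inl inferInstance) (k := k) (fun x => by
      rw [MonoidHom.mem_ker, map_mul, map_inv, ← hι, hfix _ ⟨x, rfl⟩, mul_inv_cancel_right, mul_inv_cancel])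
    exact ⟨n * k, hf, by rw [map_mul, MonoidHom.mem_ker.1 hn, one_mul]⟩

/-- `K = ⟨N(J(S)), C(Ω₁(Z(S))), C_K(X)⟩`. -/
theorem factorization_with_action [Finite K] [hp : Fact p.Prime] {q : ℕ} [hq : Fact q.Prime] {X : Type*} [Group X]
    [Finite X] (φ : X →* MulAut K) (hX : IsPGroup q X) (hqK : ¬ q ∣ Nat.card K)
    (hsep : Cfsg.IsPSolvable p K) (hO : Cfsg.pPrimeCore p K = ⊥) (S : Sylow p K) (M : Subgroup K)
    (hN : Subgroup.normalizer (Cfsg.thompsonSubgroupOf p (S : Subgroup K) : Set K) ≤ M)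
    (hC : Subgroup.centralizer (Cfsg.omegaOne p ((S : Subgroup K) ⊓
      Subgroup.centralizer ((S : Subgroup K) : Set K)) : Set K) ≤ M)
    (hfix : ∀ k : K, (∀ x, φ x k = k) → k ∈ M) : M = ⊤ := by
  obtain ⟨hn, -, -⟩ := omegaJoin_data hsep hO
  haveI := hn
  obtain ⟨ξ, s⟩ := exists_actSetting φ hX hqK hsep hO
  set V := omegaJoin p K with hV
  set J := Cfsg.thompsonSubgroup p K with hJ
  haveI : J.Characteristic := thompson_characteristic
  haveI : J.Normal := inferInstance
  rw [CfsgLib.ZJ.thompsonSubgroupOf_eq] at hN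
  obtain ⟨T, hT⟩ := CfsgLib.PReduced.exists_sylow_inf S J
  have hTJ : (T : Subgroup J).map J.subtype = (S : Subgroup K) ⊓ J := by
    rw [hT, Subgroup.map_subgroupOf_eq_of_le inf_le_right]
  have hTM : (S : Subgroup K) ⊓ J ≤ M :=
    inf_le_left.trans (le_trans (Subgroup.le_normalizer.trans (CfsgLib.ZJ.normalizer_le_normalizer_J _)) hN)
  -- it is enough to catch `J`
  suffices hJM : J ≤ M by
    have htop := Sylow.normalizer_sup_eq_top T
    rw [hTJ] at htop
    rw [eq_top_iff, ← htop]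
    refine sup_le (le_trans ?_ hN) hJM
    have hJS : CfsgLib.ZJ.J p true (S : Subgroup K) ≤ (S : Subgroup K) ⊓ J := by
      refine le_inf (CfsgLib.ZJ.J_le _) ?_
      rw [← CfsgLib.ZJ.thompsonSubgroupOf_eq, hJ, thompson_eq_iSup_sylow]
      exact le_iSup (fun S : Sylow p K => Cfsg.thompsonSubgroupOf p (S : Subgroup K)) S
    rw [← CfsgLib.ZJ.J_eq_of_le hJS inf_le_left]
    exact CfsgLib.ZJ.normalizer_le_normalizer_J _
  set ι := actι V with hι
  have hkerM : ι.ker ≤ M := by
    rw [s.ker]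
    exact (Subgroup.centralizer_le (SetLike.coe_subset_coe.2 (le_iSup (fun S : Sylow p K => Cfsg.omegaOne p
      ((S : Subgroup K) ⊓ Subgroup.centralizer ((S : Subgroup K) : Set K))) S))).trans hC
  suffices hHM : J.map ι ≤ M.map ι by
    exact ((Subgroup.map_le_iff_le_comap.1 hHM).trans_eq (Subgroup.comap_map_eq ι M)).trans (sup_le le_rfl hkerM)
  refine (le_iSup_factE s.faith s.gen).trans (iSup_le fun B => ?_)
  obtain ⟨A, hA⟩ := B
  have d := hA.factData s.faith
  obtain ⟨a, y, hap, ha1, hyE, hgenE⟩ := d.gen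
  set E := factE p (J.map ι) A with hEdef
  -- a conjugate of `a` inside `M`
  have haE : a ∈ E := hgenE.ge (Subgroup.subset_closure (Set.mem_insert _ _))
  obtain ⟨g₀, hg₀, hg₀a⟩ := d.leH haE
  obtain ⟨g, hg, hga⟩ : ∃ g : K, g ∈ (J : Subgroup K) ∧ IsPGroup p (Subgroup.zpowers g) ∧
      Subgroup.zpowers (ι g) = Subgroup.zpowers a := by
    set m := orderOf g₀ with hm
    set n := p ^ m.factorization p
    set r := m / n
    have hrn : n * r = m := Nat.ordProj_mul_ordCompl_eq_self m p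
    refine ⟨g₀ ^ r, pow_mem hg₀ r, fun z => ⟨m.factorization p, ?_⟩, ?_⟩
    · obtain ⟨z, hz⟩ := z
      obtain ⟨i, rfl⟩ := Subgroup.mem_zpowers_iff.1 hz
      refine Subtype.ext (show ((g₀ ^ r) ^ i) ^ n = 1 from ?_)
      rw [← zpow_natCast, zpow_comm, zpow_natCast, ← pow_mul, mul_comm, hrn, hm, pow_orderOf_eq_one, one_zpow]
    · rw [map_pow, hg₀a]
      refine Subgroup.eq_of_le_of_card_ge (Subgroup.zpowers_le.2 (pow_mem (Subgroup.mem_zpowers a) r)) ?_
      rw [Nat.card_zpowers, Nat.card_zpowers, Nat.Coprime.orderOf_pow]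
      rw [orderOf_eq_prime hap ha1]
      exact (Nat.Prime.coprime_iff_not_dvd hp.out).2
        (Nat.not_dvd_ordCompl hp.out (orderOf_pos g₀).ne')
  obtain ⟨hgp, hgz⟩ := hga
  obtain ⟨T', hT'⟩ := (hgp.comap_of_injective J.subtype J.subtype_injective).exists_le_sylow
  obtain ⟨k, hk⟩ := MulAction.exists_smul_eq J T' T
  have hkM : (k : K) * g * (k : K)⁻¹ ∈ M := by
    refine hTM (hTJ.le ⟨k * ⟨g, hg⟩ * k⁻¹, ?_, rfl⟩)
    rw [← hk]
    exact ⟨⟨g, hg⟩, hT' (Subgroup.mem_subgroupOf.2 (Subgroup.mem_zpowers g)), rfl⟩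
  set κ := ι (k : K)
  have hκH : κ ∈ J.map ι := Subgroup.mem_map_of_mem ι k.2
  have hκE : κ ∈ Subgroup.normalizer (E : Set (ActL V)) := le_normalizer_factE s.faith s.gen hA hκH
  set a' := κ * a * κ⁻¹ with ha'
  have ha'M : a' ∈ M.map ι := by
    obtain ⟨i, hi⟩ := Subgroup.mem_zpowers_iff.1 (hgz.ge (Subgroup.mem_zpowers a))
    refine ⟨((k : K) * g * (k : K)⁻¹) ^ i, zpow_mem hkM i, ?_⟩
    rw [map_zpow, map_mul, map_mul, map_inv, conj_zpow, hi]
  set y' := κ * y * κ⁻¹ with hy'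
  have hy'E : y' ∈ E := (Subgroup.mem_normalizer_iff.1 hκE y).1 hyE
  obtain ⟨h, hhH, hhX, -, hhE⟩ := s.act.exists_diag s.faith s.gen hA hy'E
  obtain ⟨k', hk'X, rfl⟩ := s.lift h hhH hhX
  have hb : y' * a' * y'⁻¹ ∈ M.map ι := by
    rw [← hhE a' ((Subgroup.mem_normalizer_iff.1 hκE a).1 haE)]
    exact mul_mem (mul_mem (Subgroup.mem_map_of_mem ι (hfix k' hk'X)) ha'M)
      (inv_mem (Subgroup.mem_map_of_mem ι (hfix k' hk'X)))
  have hEm : E = Subgroup.closure {a', y' * a' * y'⁻¹} := by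
    have h1 : E.map (MulAut.conj κ).toMonoidHom = E := Subgroup.mem_normalizer_iff_map_conj_eq.1 hκE
    rw [← h1, hgenE, MonoidHom.map_closure, Set.image_pair]
    congr 2
    simp [a', y', mul_assoc]
  show E ≤ M.map ι
  rw [hEm, Subgroup.closure_le]
  rintro z (rfl | rfl) <;> assumption

/-- A plane of fixed points with an induced `SL(2,p)`. -/
theorem fixed_plane [Finite K] [hp : Fact p.Prime] {q : ℕ} [hq : Fact q.Prime] {X : Type*} [Group X] [Finite X]
    (φ : X →* MulAut K) (hX : IsPGroup q X) (hqK : ¬ q ∣ Nat.card K)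
    (hsep : Cfsg.IsPSolvable p K) (hO : Cfsg.pPrimeCore p K = ⊥) (hnf : ¬ Cfsg.IsThompsonFactorizable p K) :
    (p = 2 ∨ p = 3) ∧ ∃ W D : Subgroup K, (∀ w ∈ W, ∀ x, φ x w = w) ∧ (∀ d ∈ D, ∀ x, φ x d = d) ∧
      Cfsg.IsElementaryAbelian p W ∧ Nat.card W = p ^ 2 ∧ D ≤ Subgroup.normalizer (W : Set K) ∧
      ∃ f : D →* Matrix.SpecialLinearGroup (Fin 2) (ZMod p), Function.Surjective f ∧
        ∀ d : D, f d = 1 ↔ (d : K) ∈ Subgroup.centralizer (W : Set K) := by
  classical
  haveI := Fintype.ofFinite X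
  obtain ⟨hn, hVel, -⟩ := omegaJoin_data hsep hO
  set V := omegaJoin p K with hV
  haveI := hn
  obtain ⟨ξ, s⟩ : ∃ ξ : X →* ActL V, ActSetting p q φ V ξ := exists_actSetting φ hX hqK hsep hO
  set J := Cfsg.thompsonSubgroup p K with hJ
  set ι := actι V with hι
  have hH : J.map ι ≠ ⊥ := by
    rw [Ne, Subgroup.map_eq_bot_iff, s.ker]
    exact fun h => hnf ((factorizable_iff hO).2 h)
  obtain ⟨A, hA⟩ := exists_minOff s.faith s.gen hH
  have d := hA.factData s.faith
  set E := factE p (J.map ι) A with hE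
  set W₁ := factW p (actV V).range (J.map ι) A with hW₁
  have hW₁V : W₁ ≤ (actV V).range := d.memW s.faith
  set W₀ : Subgroup V := W₁.comap (actV V) with hW₀
  have hW₀map : W₀.map (actV V) = W₁ := Subgroup.map_comap_eq_self hW₁V
  -- the trace map
  letI : CommGroup V := { (inferInstance : Group V) with mul_comm := hVel.1.is_comm.comm }
  choose α hα1 hα2 using s.moveV
  have hαmul : ∀ x v w, α x (v * w) = α x v * α x w := fun x v w => Subtype.ext (by
    rw [Subgroup.coe_mul, hα1, hα1, hα1, Subgroup.coe_mul, map_mul])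
  have hα0 : ∀ x, α x 1 = 1 := fun x => Subtype.ext (by rw [hα1, Subgroup.coe_one, map_one])
  let Δ : V →* V :=
    { toFun := fun v => ∏ x : X, α x v
      map_one' := Finset.prod_eq_one fun x _ => hα0 x
      map_mul' := fun v w => by rw [← Finset.prod_mul_distrib]; exact Finset.prod_congr rfl fun x _ => hαmul x v w }
  have hΔfix : ∀ (y : X) (v : V), φ y (Δ v : K) = Δ v := by
    intro y v
    have h1 : ∀ x, α y (α x v) = α (y * x) v := fun x => Subtype.ext (by
      rw [hα1, hα1, hα1, map_mul]; rfl)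
    let F : V →* V := { toFun := α y, map_one' := hα0 y, map_mul' := hαmul y }
    have h2 : α y (Δ v) = Δ v := by
      show F (∏ x : X, α x v) = ∏ x : X, α x v
      rw [map_prod]
      exact Fintype.prod_equiv (Equiv.mulLeft y) _ _ fun x => h1 x
    rw [← hα1, h2]
  have hΔinj : ∀ v ∈ W₀, Δ v = 1 → v = 1 := by
    intro v hv h1
    set C₁ := factC p (actV V).range (J.map ι) A
    set St := Finset.univ.filter fun x : X => cj (ξ x) W₁ = W₁ with hSt
    set R := ∏ x ∈ Stᶜ, α x v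
    have hsplit : Δ v = v ^ St.card * R := by
      show ∏ x : X, α x v = _
      rw [← Finset.prod_mul_prod_compl St]
      congr 1
      refine Finset.prod_eq_pow_card fun x hx => actV_injective V ?_
      rw [← hα2]
      exact mul_inv_eq_iff_eq_mul.2
        (s.act.stab_fix s.faith d ⟨x, rfl⟩ (Finset.mem_filter.1 hx).2 hv)
    have hrest : actV V R ∈ C₁ := by
      show R ∈ C₁.comap (actV V)
      refine Subgroup.prod_mem _ fun x hx => ?_
      have hne : cj (ξ x) W₁ ≠ W₁ := fun h => Finset.mem_compl.1 hx (Finset.mem_filter.2 ⟨Finset.mem_univ _, h⟩)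
      obtain ⟨hA', -, hW'⟩ := hA.conj (s.act.normV ⟨x, rfl⟩) (s.act.normH ⟨x, rfl⟩)
      show actV V (α x v) ∈ C₁
      rw [← hα2]
      have hm : ξ x * actV V v * (ξ x)⁻¹ ∈ factW p (actV V).range (J.map ι) (cj (ξ x) A) := hW'.symm ▸ mem_cj hv
      refine ⟨⟨α x v, (hα2 x v).symm⟩, Subgroup.mem_centralizer_iff.2 fun e he => ?_⟩
      exact centralizes_other_plane s.faith hA hA' (hW'.trans_ne hne) he hm
    rw [hsplit] at h1
    have h2 : actV V v ^ St.card ∈ C₁ := by
      rw [← map_pow, eq_inv_of_mul_eq_one_left h1, map_inv]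
      exact inv_mem hrest
    have h3 : v ^ St.card = 1 := actV_injective V (by
      rw [map_one, map_pow]; exact Subgroup.mem_bot.1 (d.data.inf.le ⟨pow_mem (show actV V v ∈ W₁ from hv) _, h2⟩))
    let Stab : Subgroup X :=
      { carrier := {x | cj (ξ x) W₁ = W₁}
        one_mem' := by show cj (ξ 1) W₁ = W₁; rw [map_one, cj_one]
        mul_mem' := fun {x y} hx hy => by
          show cj (ξ (x * y)) W₁ = W₁
          rw [map_mul, ← cj_cj, hy, hx]
        inv_mem' := fun {x} hx => by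
          show cj (ξ x⁻¹) W₁ = W₁
          conv_lhs => rw [← (hx : cj (ξ x) W₁ = W₁), cj_cj, ← map_mul, inv_mul_cancel, map_one, cj_one] }
    have hcard : St.card = Nat.card Stab := by
      rw [Nat.card_eq_fintype_card]
      exact (Fintype.card_of_subtype St fun x => by simp [hSt, Stab]).symm
    obtain ⟨n, hn⟩ := IsPGroup.iff_card.1 (hX.to_subgroup Stab)
    refine orderOf_eq_one_iff.1 (Nat.eq_one_of_dvd_coprimes ?_ (orderOf_dvd_of_pow_eq_one h3)
      (orderOf_dvd_of_pow_eq_one (show v ^ p = 1 from Subtype.ext (by simpa using hVel.2 v v.2))))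
    rw [hcard, hn]
    refine Nat.Coprime.pow_left _ ((Nat.coprime_primes hq.out hp.out).2 ?_)
    rintro rfl
    have h5 := s.act.five_le d
    rcases d.small with h | h <;> omega
  -- the plane and the group acting on it
  set Φ := V.subtype.comp Δ with hΦ
  set W := W₀.map Φ with hW
  have hcardW : Nat.card W = p ^ 2 := by
    have hinj : Function.Injective (Φ.comp W₀.subtype) := (injective_iff_map_eq_one _).2 fun v hv =>
      Subtype.ext (hΔinj v v.2 (Subtype.ext hv))
    have e : W = (Φ.comp W₀.subtype).range := by rw [MonoidHom.range_comp, Subgroup.range_subtype]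
    rw [← d.data.cardW, ← hW₁, ← hW₀map, Subgroup.card_map_of_injective (actV_injective V), e,
      Nat.card_congr (MonoidHom.ofInjective hinj).symm.toEquiv]
  let D : Subgroup K :=
    { carrier := {k | k ∈ J ∧ ∀ x, φ x k = k}
      one_mem' := ⟨one_mem _, fun x => map_one _⟩
      mul_mem' := fun {a b} ha hb => ⟨mul_mem ha.1 hb.1, fun x => by rw [map_mul, ha.2, hb.2]⟩
      inv_mem' := fun {a} ha => ⟨inv_mem ha.1, fun x => by rw [map_inv, ha.2]⟩ }
  have hequiv : ∀ k ∈ D, ∀ v : V, k * (Δ v : K) * k⁻¹ = Δ (MulAut.conjNormal k v) := by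
    intro k hk v
    have h1 : ∀ x, MulAut.conjNormal k (α x v) = α x (MulAut.conjNormal k v) := fun x => Subtype.ext (by
      rw [MulAut.conjNormal_apply, hα1, hα1, MulAut.conjNormal_apply, map_mul, map_mul, map_inv, hk.2 x])
    have h2 : MulAut.conjNormal k (Δ v) = Δ (MulAut.conjNormal k v) := by
      show (MulAut.conjNormal k) (∏ x : X, α x v) = ∏ x : X, α x (MulAut.conjNormal k v)
      rw [map_prod]
      exact Finset.prod_congr rfl fun x _ => h1 x
    rw [← h2, MulAut.conjNormal_apply]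
  have hDW₀ : ∀ k ∈ D, ∀ v ∈ W₀, MulAut.conjNormal k v ∈ W₀ := by
    intro k hk v hv
    show actV V _ ∈ W₁
    rw [← actι_conj]
    have hkH : ι k ∈ J.map ι := Subgroup.mem_map_of_mem ι hk.1
    have hN : ι k ∈ Subgroup.normalizer (W₁ : Set (ActL V)) := by
      rw [Subgroup.mem_normalizer_iff_map_conj_eq]
      refine (Subgroup.map_commutator _ _ _).trans ?_
      rw [Subgroup.mem_normalizer_iff_map_conj_eq.1 (s.faith.norm hkH),
        Subgroup.mem_normalizer_iff_map_conj_eq.1 (le_normalizer_factE s.faith s.gen hA hkH)]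
    exact (Subgroup.mem_normalizer_iff.1 hN _).1 hv
  have hDN : D ≤ Subgroup.normalizer (W : Set K) := by
    intro k hk
    refine Subgroup.mem_normalizer_fintype ?_
    rintro _ ⟨v, hv, rfl⟩
    exact ⟨_, hDW₀ k hk v hv, (hequiv k hk v).symm⟩
  -- the homomorphism to the factor
  have hex : ∀ k : D, ∃ e : E, ∀ w ∈ W₁, ι k * w * (ι k)⁻¹ = e * w * (e : ActL V)⁻¹ := by
    rintro ⟨k, hk⟩
    have hN : othersE p (actV V).range (J.map ι) A ≤ Subgroup.normalizer (E : Set (ActL V)) :=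
      ((othersE_le_orth s.faith hA).trans (orth_le_centralizer s.faith d)).trans (Subgroup.centralizer_le_normalizer _)
    have h1 : ι k ∈ E ⊔ othersE p (actV V).range (J.map ι) A :=
      (factE_sup_others s.faith s.gen hA).ge (Subgroup.mem_map_of_mem ι hk.1)
    rw [← SetLike.mem_coe, Subgroup.coe_mul_of_right_le_normalizer_left _ _ hN] at h1
    obtain ⟨e, he, m, hm, hem⟩ := h1
    refine ⟨⟨e, he⟩, fun w hw => ?_⟩
    have := Subgroup.mem_centralizer_iff.1 (othersE_le_orth s.faith hA hm).1.2 w hw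
    show ι k * w * (ι k)⁻¹ = e * w * e⁻¹
    rw [← (hem : e * m = ι k)]
    calc e * m * w * (e * m)⁻¹ = e * (m * w) * m⁻¹ * e⁻¹ := by group
      _ = e * (w * m) * m⁻¹ * e⁻¹ := by rw [this]
      _ = _ := by group
  choose g hg using hex
  have huniq : ∀ e e' : E, (∀ w ∈ W₁, (e : ActL V) * w * (e : ActL V)⁻¹ = e' * w * (e' : ActL V)⁻¹) → e = e' := by
    intro e e' h
    refine (inv_mul_eq_one.1 (Subtype.ext (Subgroup.mem_bot.1 (d.data.faithW.le
      ⟨(e'⁻¹ * e).2, Subgroup.mem_centralizer_iff.2 fun w hw => ?_⟩)))).symm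
    have := h w hw
    show w * ((e' : ActL V)⁻¹ * e) = (e' : ActL V)⁻¹ * e * w
    calc w * ((e' : ActL V)⁻¹ * e) = (e' : ActL V)⁻¹ * (e' * w * (e' : ActL V)⁻¹) * e := by group
      _ = (e' : ActL V)⁻¹ * (e * w * (e : ActL V)⁻¹) * e := by rw [this]
      _ = _ := by group
  have hWE : ∀ (e : E), ∀ w ∈ W₁, (e : ActL V) * w * (e : ActL V)⁻¹ ∈ W₁ := fun e w hw =>
    (Subgroup.mem_normalizer_iff.1 (d.data.normW e.2) w).1 hw
  let F : D →* E := MonoidHom.mk' g fun a b => huniq _ _ fun w hw => by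
    rw [← hg (a * b) w hw]
    show ι ((a : K) * b) * w * (ι ((a : K) * b))⁻¹ = (g a : ActL V) * g b * w * ((g a : ActL V) * g b)⁻¹
    calc ι ((a : K) * b) * w * (ι ((a : K) * b))⁻¹ = ι a * (ι b * w * (ι b)⁻¹) * (ι a)⁻¹ := by rw [map_mul]; group
      _ = (g a : ActL V) * ((g b : ActL V) * w * (g b : ActL V)⁻¹) * (g a : ActL V)⁻¹ := by
          rw [hg b w hw, hg a _ (hWE (g b) w hw)]
      _ = _ := by group
  have hFsurj : Function.Surjective F := by
    intro e
    obtain ⟨h, hhH, hhX, hhW, -⟩ := s.act.exists_diag s.faith s.gen hA e.2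
    obtain ⟨k₀, hk₀, hk₀h⟩ := hhH
    obtain ⟨k, hkX, hkh⟩ := s.lift h ⟨k₀, hk₀, hk₀h⟩ hhX
    -- move the fixed preimage into `J`
    obtain ⟨n, hn, hfix⟩ : ∃ n ∈ J ⊓ ι.ker, ∀ x, φ x (n * k₀) = n * k₀ := by
      haveI : Group.IsSolvable X := by haveI := hX.isNilpotent; infer_instance
      haveI : J.Characteristic := thompson_characteristic
      refine CfsgLib.CoprimeAction.exists_fixed_of_coset φ (fun x n hn => Subgroup.mem_inf.2 ⟨?_, ?_⟩) ?_ (Or.inl inferInstance)
        fun x => Subgroup.mem_inf.2 ⟨?_, ?_⟩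
      · exact (Subgroup.characteristic_iff_map_eq.1 inferInstance (φ x)).le ⟨n, hn.1, rfl⟩
      · rw [MonoidHom.mem_ker, ← s.moveι, MonoidHom.mem_ker.1 hn.2, mul_one, mul_inv_cancel]
      · obtain ⟨j, hj⟩ := IsPGroup.iff_card.1 hX
        rw [hj]
        exact Nat.Coprime.pow_left _ ((Nat.Prime.coprime_iff_not_dvd hq.out).2
          fun h => hqK (h.trans (Subgroup.card_subgroup_dvd_card _)))
      · exact mul_mem ((Subgroup.characteristic_iff_map_eq.1 inferInstance (φ x)).le ⟨k₀, hk₀, rfl⟩) (inv_mem hk₀)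
      · rw [MonoidHom.mem_ker, map_mul, map_inv, ← s.moveι, hk₀h, hhX _ ⟨x, rfl⟩,
          mul_inv_cancel_right, mul_inv_cancel]
    refine ⟨⟨n * k₀, mul_mem hn.1 hk₀, hfix⟩, huniq _ _ fun w hw => ?_⟩
    rw [← hhW w hw, show h = ι (n * k₀) by rw [map_mul, MonoidHom.mem_ker.1 hn.2, one_mul, hk₀h]]
    exact (hg ⟨n * k₀, mul_mem hn.1 hk₀, hfix⟩ w hw).symm
  obtain ⟨eE⟩ := d.data.iso
  refine ⟨d.small, W, D, ?_, fun k hk => hk.2, ⟨⟨⟨fun a b => ?_⟩⟩, ?_⟩, hcardW, hDN,
    eE.toMonoidHom.comp F, eE.surjective.comp hFsurj, fun k => ?_⟩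
  · rintro _ ⟨v, -, rfl⟩ x
    exact hΔfix x v
  · obtain ⟨⟨_, a, -, rfl⟩, ⟨_, b, -, rfl⟩⟩ := a, b
    exact Subtype.ext (show Φ a * Φ b = Φ b * Φ a by rw [← map_mul, ← map_mul, mul_comm])
  · rintro _ ⟨v, -, rfl⟩
    exact hVel.2 _ (Δ v).2
  · show eE (F k) = 1 ↔ _
    rw [eE.map_eq_one_iff, Subgroup.mem_centralizer_iff]
    constructor
    · rintro h _ ⟨v, hv, rfl⟩
      have h1 := hg k _ hv
      rw [show g k = 1 from h, Subgroup.coe_one, one_mul, inv_one, mul_one, actι_conj] at h1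
      have h2 := hequiv k k.2 v
      rw [actV_injective V h1] at h2
      exact (mul_inv_eq_iff_eq_mul.1 h2).symm
    · intro h
      refine huniq _ _ fun w hw => ?_
      obtain ⟨v, hv, rfl⟩ : ∃ v ∈ W₀, actV V v = w := hW₀map.ge hw
      have h2 : Δ (MulAut.conjNormal (k : K) v) = Δ v := Subtype.ext (by
        rw [← hequiv k k.2 v]; exact mul_inv_eq_iff_eq_mul.2 (h _ ⟨v, hv, rfl⟩).symm)
      have h3 : MulAut.conjNormal (k : K) v = v := mul_inv_eq_one.1 (hΔinj _
        (mul_mem (hDW₀ k k.2 v hv) (inv_mem hv)) (by rw [map_mul, map_inv, h2, mul_inv_cancel]))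
      rw [Subgroup.coe_one, one_mul, inv_one, mul_one]
      exact (hg k _ hw).symm.trans ((actι_conj V (k : K) v).trans (congrArg _ h3))

end CfsgLib.PLocalBasics
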