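import Cfsg.Agent.PLocalBasics.TransvectionPair
import Cfsg.Agent.PLocalBasics.SylowFactor
import Cfsg.Agent.PLocalBasics.DualCore
import Cfsg.Agent.PLocalBasics.ActionStable

/-!
The group generated by a transvection and its commutator with the `p'`-core is `SL(2,p)`.
-/

set_option autoImplicit false

namespace CfsgLib.PLocalBasics

open scoped commutatorElement
open CfsgLib.Offender (card_mul_relIndex_of_le)
open Matrix (SpecialLinearGroup)

/-- Standing hypotheses. -/
structure FaithCtx {G : Type*} [Group G] (p : ℕ) (V H : Subgroup G) : Prop where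
  el : Cfsg.IsElementaryAbelian p V
  norm : H ≤ Subgroup.normalizer (V : Set G)
  faith : H ⊓ Subgroup.centralizer (V : Set G) = ⊥
  core : Subgroup.centralizer (Cfsg.pPrimeCore p ↥H : Set ↥H) ≤ Cfsg.pPrimeCore p ↥H

/-- `K = O_{p'}(H)` inside `G`. -/
abbrev coreOf {G : Type*} [Group G] (p : ℕ) (H : Subgroup G) : Subgroup G :=
  (Cfsg.pPrimeCore p ↥H).map H.subtype

variable {G : Type*} [Group G] [Finite G] {p : ℕ} [hp : Fact p.Prime] {V H : Subgroup G}

theorem coreOf_le : coreOf p H ≤ H := Subgroup.map_subtype_le _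

theorem coreOf_cop : (Nat.card ↥(coreOf p H)).Coprime p := by
  rw [coreOf, Subgroup.card_map_of_injective H.subtype_injective]
  exact CfsgLib.PCore.pPrimeCore_coprime p _

omit [Finite G] hp in
theorem le_normalizer_coreOf : H ≤ Subgroup.normalizer ((coreOf p H : Subgroup G) : Set G) := by
  intro h hh
  rw [Subgroup.mem_normalizer_iff]
  refine fun k => ⟨?_, ?_⟩
  · rintro ⟨k₀, hk₀, rfl⟩
    exact ⟨⟨h, hh⟩ * k₀ * ⟨h, hh⟩⁻¹, (Cfsg.pPrimeCore_normal p ↥H).conj_mem _ hk₀ _, rfl⟩
  · rintro ⟨k₀, hk₀, hk⟩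
    refine ⟨⟨h, hh⟩⁻¹ * k₀ * ⟨h, hh⟩⁻¹⁻¹, (Cfsg.pPrimeCore_normal p ↥H).conj_mem _ hk₀ _, ?_⟩
    show h⁻¹ * (k₀ : G) * h⁻¹⁻¹ = k
    rw [show (k₀ : G) = h * k * h⁻¹ from hk]; group

theorem FaithCtx.setup (c : FaithCtx p V H) {a u : G} (haH : a ∈ H) (ha : Transv p V a u) :
    OffenderSetup p V (coreOf p H) (Subgroup.zpowers a) := by
  refine ⟨c.el, coreOf_le.trans c.norm, fun k hk hkC => Subgroup.mem_bot.1 (c.faith.le ⟨coreOf_le hk, hkC⟩),
    coreOf_cop, ⟨inferInstance, fun z hz => ?_⟩, Subgroup.zpowers_le.2 ha.norm,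
    Subgroup.zpowers_le.2 (le_normalizer_coreOf haH), fun z hz hzC => ?_⟩
  · obtain ⟨i, rfl⟩ := Subgroup.mem_zpowers_iff.1 hz
    rw [← zpow_natCast, zpow_comm, zpow_natCast, ha.powA, one_zpow]
  · have hzH : z ∈ H := Subgroup.zpowers_le.2 haH hz
    have h1 : (⟨z, hzH⟩ : H) ∈ Cfsg.pPrimeCore p ↥H := c.core (Subgroup.mem_centralizer_iff.2 fun k hk =>
      Subtype.ext (Subgroup.mem_centralizer_iff.1 hzC k ⟨k, hk, rfl⟩))
    have h2 : orderOf z ∣ Nat.card (Cfsg.pPrimeCore p ↥H) :=
      (Subgroup.orderOf_coe (⟨z, hzH⟩ : H)).symm ▸ Subgroup.orderOf_dvd_natCard _ h1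
    refine orderOf_eq_one_iff.1 (Nat.eq_one_of_dvd_coprimes (CfsgLib.PCore.pPrimeCore_coprime p ↥H) h2 ?_)
    have h3 := Subgroup.orderOf_dvd_natCard _ hz
    rwa [Nat.card_zpowers, orderOf_eq_prime ha.powA ha.neA] at h3

theorem Transv.isPGroup_zpowers {a u : G} (ha : Transv p V a u) : IsPGroup p (Subgroup.zpowers a) :=
  IsPGroup.of_card (n := 1) (by rw [pow_one, Nat.card_zpowers, orderOf_eq_prime ha.powA ha.neA])

theorem FaithCtx.exists_moved (c : FaithCtx p V H) {a u : G} (haH : a ∈ H) (ha : Transv p V a u) :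
    ∃ x ∈ coreOf p H, x * a ≠ a * x := by
  by_contra hcon
  push Not at hcon
  exact ha.neA ((c.setup haH ha).aFaith a (Subgroup.mem_zpowers a) (Subgroup.mem_centralizer_iff.2 hcon))

/-- The pair `a, xax⁻¹`. -/
theorem FaithCtx.pair (c : FaithCtx p V H) {a u x : G} (haH : a ∈ H) (ha : Transv p V a u)
    (hx : x ∈ coreOf p H) (hxa : x * a ≠ a * x) :
    PairData p V (Subgroup.closure ({a, x * a * x⁻¹} : Set G))
      (Subgroup.zpowers u ⊔ Subgroup.zpowers (x * u * x⁻¹)) := by
  have hxH := coreOf_le hx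
  have hbH : x * a * x⁻¹ ∈ H := mul_mem (mul_mem hxH haH) (inv_mem hxH)
  refine pair_data c.el ha (ha.conj (c.norm hxH)) (fun g hg hgC => Subgroup.mem_bot.1 (c.faith.le ⟨?_, hgC⟩)) ?_
  · exact (Subgroup.closure_le H).2 (by rintro z (rfl | rfl) <;> assumption) hg
  · intro hP
    have hd : x * a * x⁻¹ * a⁻¹ ∈ coreOf p H := by
      rw [mul_assoc x a, mul_assoc x]
      exact mul_mem hx ((Subgroup.mem_normalizer_iff.1 (le_normalizer_coreOf haH) x⁻¹).1 (inv_mem hx))
    have hdL : x * a * x⁻¹ * a⁻¹ ∈ Subgroup.closure ({a, x * a * x⁻¹} : Set G) :=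
      mul_mem (Subgroup.subset_closure (Set.mem_insert_of_mem _ rfl)) (inv_mem (Subgroup.subset_closure (Set.mem_insert _ _)))
    refine hxa (commutatorElement_eq_one_iff_mul_comm.1 ?_)
    exact Subgroup.mem_bot.1 ((CfsgLib.PCore.inf_eq_bot_of_isPGroup_of_coprime hP coreOf_cop).le ⟨hdL, hd⟩)

theorem FaithCtx.closure_pair_le (c : FaithCtx p V H) {a x : G} {B : Subgroup G} (haN : a ∈ Subgroup.normalizer (B : Set G))
    (hx : x ∈ B) : Subgroup.closure ({a, x * a * x⁻¹} : Set G) ≤ Subgroup.zpowers a ⊔ B := by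
  refine (Subgroup.closure_le _).2 ?_
  rintro z (rfl | rfl)
  · exact Subgroup.mem_sup_left (Subgroup.mem_zpowers _)
  · exact mul_mem (mul_mem (Subgroup.mem_sup_right hx) (Subgroup.mem_sup_left (Subgroup.mem_zpowers _)))
      (Subgroup.mem_sup_right (inv_mem hx))

theorem FaithCtx.prime_le_three (c : FaithCtx p V H) {a u : G} (haH : a ∈ H) (ha : Transv p V a u) :
    p = 2 ∨ p = 3 := by
  obtain ⟨x, hx, hxa⟩ := c.exists_moved haH ha
  obtain ⟨e⟩ := (c.pair haH ha hx hxa).iso
  by_contra hcon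
  push Not at hcon
  have h5 : 5 ≤ p := by
    by_contra h5
    exact hcon.2 (eq_three_of_lt hp.out hcon.1 h5)
  set A := Subgroup.zpowers a
  have hAK : A ≤ Subgroup.normalizer ((coreOf p H : Subgroup G) : Set G) :=
    Subgroup.zpowers_le.2 (le_normalizer_coreOf haH)
  have hM := isPSolvable_sup hAK coreOf_cop ha.isPGroup_zpowers
  have hle := c.closure_pair_le (a := a) (le_normalizer_coreOf haH) hx
  refine not_involves_of_isPSolvable h5 hM (CfsgLib.ZJ.involves_of_hom
    ((Subgroup.closure ({a, x * a * x⁻¹} : Set G)).subgroupOf _)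
    (e.toMonoidHom.comp (Subgroup.subgroupOfEquivOfLe hle).toMonoidHom) (e.surjective.comp (MulEquiv.surjective _)))

theorem card_sl2_small (h : p = 2 ∨ p = 3) :
    Nat.card (SpecialLinearGroup (Fin 2) (ZMod p)) = (if p = 2 then 6 else 24) := by
  rcases h with rfl | rfl
  · rw [if_pos rfl, Nat.card_eq_fintype_card]; decide +kernel
  · rw [if_neg (by norm_num), Nat.card_eq_fintype_card]; decide +kernel

omit [Finite G] hp in
theorem exists_sl2_three_commutators' :
    ∃ a b c d : SpecialLinearGroup (Fin 2) (ZMod 3), ⁅⁅a, b⁆, ⁅c, d⁆⁆ ≠ 1 :=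
  ⟨⟨!![1, 1; 0, 1], by decide +kernel⟩, ⟨!![1, 0; 1, 1], by decide +kernel⟩, ⟨!![1, 2; 0, 1], by decide +kernel⟩,
    ⟨!![1, 0; 1, 1], by decide +kernel⟩, by decide +kernel⟩

omit [Finite G] hp in
theorem exists_sl2_three_commutators (h : p = 3) :
    ∃ a b c d : SpecialLinearGroup (Fin 2) (ZMod p), ⁅⁅a, b⁆, ⁅c, d⁆⁆ ≠ 1 :=
  h ▸ exists_sl2_three_commutators'

/-- The prime `q` with `[K, a]` a `q`-group. -/
abbrev otherPrime (p : ℕ) : ℕ := if p = 2 then 3 else 2

omit hp in
theorem commutator_mem_of_cyclic_sup {a : G} {B : Subgroup G} (haN : a ∈ Subgroup.normalizer (B : Set G)) {g h : G}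
    (hg : g ∈ Subgroup.zpowers a ⊔ B) (hh : h ∈ Subgroup.zpowers a ⊔ B) : ⁅g, h⁆ ∈ B := by
  set A := Subgroup.zpowers a
  haveI : (B.subgroupOf (A ⊔ B)).Normal :=
    Subgroup.normal_subgroupOf_of_le_normalizer (sup_le (Subgroup.zpowers_le.2 haN) Subgroup.le_normalizer)
  set π := QuotientGroup.mk' (B.subgroupOf (A ⊔ B))
  have hgen : ∀ m : ↥(A ⊔ B), π m ∈ Subgroup.zpowers (π ⟨a, Subgroup.mem_sup_left (Subgroup.mem_zpowers a)⟩) := by
    rintro ⟨m, hm⟩
    have hm' := hm
    rw [← SetLike.mem_coe, Subgroup.coe_mul_of_left_le_normalizer_right A B (Subgroup.zpowers_le.2 haN)] at hm'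
    obtain ⟨y, hy, b, hb, hyb⟩ := hm'
    obtain ⟨i, rfl⟩ := Subgroup.mem_zpowers_iff.1 hy
    refine Subgroup.mem_zpowers_iff.2 ⟨i, ?_⟩
    rw [← map_zpow]
    refine QuotientGroup.eq.2 (Subgroup.mem_subgroupOf.2 ?_)
    show (a ^ i)⁻¹ * m ∈ B
    rw [← hyb, inv_mul_cancel_left]; exact hb
  obtain ⟨i, hi⟩ := Subgroup.mem_zpowers_iff.1 (hgen ⟨g, hg⟩)
  obtain ⟨j, hj⟩ := Subgroup.mem_zpowers_iff.1 (hgen ⟨h, hh⟩)
  have : π ⁅(⟨g, hg⟩ : ↥(A ⊔ B)), ⟨h, hh⟩⁆ = 1 := by
    rw [map_commutatorElement, commutatorElement_eq_one_iff_mul_comm, ← hi, ← hj]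
    exact ((Commute.refl _).zpow_zpow i j).eq
  exact Subgroup.mem_subgroupOf.1 ((QuotientGroup.eq_one_iff _).1 this)

/-- For `p = 3` the pair group has noncommuting commutators. -/
theorem FaithCtx.exists_commutators (c : FaithCtx p V H) (h3 : p = 3) {a u x : G} (haH : a ∈ H)
    (ha : Transv p V a u) (hx : x ∈ coreOf p H) (hxa : x * a ≠ a * x) :
    ∃ g₁ ∈ Subgroup.closure ({a, x * a * x⁻¹} : Set G), ∃ g₂ ∈ Subgroup.closure ({a, x * a * x⁻¹} : Set G),
    ∃ g₃ ∈ Subgroup.closure ({a, x * a * x⁻¹} : Set G), ∃ g₄ ∈ Subgroup.closure ({a, x * a * x⁻¹} : Set G),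
      ⁅⁅g₁, g₂⁆, ⁅g₃, g₄⁆⁆ ≠ 1 := by
  obtain ⟨e⟩ := (c.pair haH ha hx hxa).iso
  obtain ⟨m₁, m₂, m₃, m₄, hm⟩ := exists_sl2_three_commutators (p := p) h3
  refine ⟨_, (e.symm m₁).2, _, (e.symm m₂).2, _, (e.symm m₃).2, _, (e.symm m₄).2, fun h => hm ?_⟩
  have h' : e.symm ⁅⁅m₁, m₂⁆, ⁅m₃, m₄⁆⁆ = 1 := Subtype.ext (by
    simp only [map_commutatorElement]; exact h)
  exact e.symm.injective (h'.trans (map_one _).symm)

/-- The conclusion. -/
structure CoreData (p : ℕ) (V H : Subgroup G) (a : G) : Prop where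
  data : PairData p V (⁅coreOf p H, Subgroup.zpowers a⁆ ⊔ Subgroup.zpowers a)
    ⁅V, ⁅coreOf p H, Subgroup.zpowers a⁆ ⊔ Subgroup.zpowers a⁆
  commR : ⁅V, ⁅coreOf p H, Subgroup.zpowers a⁆⁆ = ⁅V, ⁅coreOf p H, Subgroup.zpowers a⁆ ⊔ Subgroup.zpowers a⁆
  centR : V ⊓ Subgroup.centralizer ((⁅coreOf p H, Subgroup.zpowers a⁆ : Subgroup G) : Set G) =
    V ⊓ Subgroup.centralizer ((⁅coreOf p H, Subgroup.zpowers a⁆ ⊔ Subgroup.zpowers a : Subgroup G) : Set G)
  qGroup : IsPGroup (otherPrime p) ↥(⁅coreOf p H, Subgroup.zpowers a⁆)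
  nonComm : p = 3 → ¬ IsMulCommutative ↥(⁅coreOf p H, Subgroup.zpowers a⁆)
  gen : ∃ y : G, y ∈ ⁅coreOf p H, Subgroup.zpowers a⁆ ∧
    ⁅coreOf p H, Subgroup.zpowers a⁆ ⊔ Subgroup.zpowers a = Subgroup.closure {a, y * a * y⁻¹}

theorem FaithCtx.core_data (c : FaithCtx p V H) {a u : G} (haH : a ∈ H) (ha : Transv p V a u) :
    CoreData p V H a := by
  haveI := c.el.1
  have hp23 := c.prime_le_three haH ha
  set K := coreOf p H with hKdef
  set A := Subgroup.zpowers a with hAdef
  have hAc : IsPGroup p A := ha.isPGroup_zpowers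
  have hAK : A ≤ Subgroup.normalizer (K : Set G) := Subgroup.zpowers_le.2 (le_normalizer_coreOf haH)
  have hAcard : Nat.card A = p := by rw [Nat.card_zpowers, orderOf_eq_prime ha.powA ha.neA]
  have hcop : (Nat.card A).Coprime (Nat.card K) := by rw [hAcard]; exact coreOf_cop.symm
  haveI hAcomm : IsMulCommutative A := inferInstance
  have hAsol : Group.IsSolvable A := by
    haveI := hAc.isNilpotent
    infer_instance
  haveI hq : Fact (otherPrime p).Prime := ⟨by rcases hp23 with rfl | rfl <;> norm_num [otherPrime]⟩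
  set R := ⁅K, A⁆ with hRdef
  have hRK : R ≤ K := CfsgLib.CoprimeAction.commutator_le_of_normalizer hAK
  have hKH : K ≤ H := coreOf_le
  have hRH : R ≤ H := hRK.trans hKH
  have haR : A ≤ Subgroup.normalizer (R : Set G) := CfsgLib.CoprimeAction.le_normalizer_commutator hAK
  have haR' : a ∈ Subgroup.normalizer (R : Set G) := haR (Subgroup.mem_zpowers a)
  -- (1) a `q`-group
  have hRq : IsPGroup (otherPrime p) R := by
    refine coprime_commutator_isPGroup _ hAK hcop hAsol fun r hr hrq S hSK hS hSA => ?_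
    refine Subgroup.zpowers_le.2 (Subgroup.mem_centralizer_iff.2 fun x hx => ?_)
    by_contra hxa
    obtain ⟨e⟩ := (c.pair haH ha (hSK hx) hxa).iso
    have hy : ⁅x, a⁆ ∈ Subgroup.closure ({a, x * a * x⁻¹} : Set G) := by
      rw [commutatorElement_def]
      exact mul_mem (Subgroup.subset_closure (Set.mem_insert_of_mem _ rfl))
        (inv_mem (Subgroup.subset_closure (Set.mem_insert _ _)))
    have hyS : ⁅x, a⁆ ∈ S := by
      rw [commutatorElement_def, mul_assoc x a, mul_assoc x]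
      exact mul_mem hx ((Subgroup.mem_normalizer_iff.1 (hSA (Subgroup.mem_zpowers a)) x⁻¹).1 (inv_mem hx))
    have hd : orderOf ⁅x, a⁆ ∣ (if p = 2 then 6 else 24) := by
      rw [← card_sl2_small hp23, ← Nat.card_congr e.toEquiv]
      exact Subgroup.orderOf_dvd_natCard _ hy
    obtain ⟨k, hk⟩ := hS ⟨_, hyS⟩
    have hk' : ⁅x, a⁆ ^ r ^ k = 1 := congrArg Subtype.val hk
    obtain ⟨i, -, hi⟩ := (Nat.dvd_prime_pow hr).1 (orderOf_dvd_of_pow_eq_one hk')
    rcases Nat.eq_zero_or_pos i with h0 | hpos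
    · rw [h0, pow_zero, orderOf_eq_one_iff] at hi
      exact hxa (commutatorElement_eq_one_iff_mul_comm.1 hi)
    have hr' : r ∣ (if p = 2 then 6 else 24) := (hi ▸ dvd_pow_self r hpos.ne').trans hd
    have hrK : r ∣ Nat.card K := (hi ▸ dvd_pow_self r hpos.ne').trans (Subgroup.orderOf_dvd_natCard K (hSK hyS))
    have hrp : r ≠ p := by
      rintro rfl
      exact hr.not_dvd_one (coreOf_cop (p := r) (H := H) ▸ Nat.dvd_gcd hrK dvd_rfl)
    rcases hp23 with rfl | rfl
    · have : r ≤ 6 := Nat.le_of_dvd (by norm_num) (by simpa using hr')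
      simp only [otherPrime, if_true] at hrq
      have h6 : r ∣ 6 := by simpa using hr'
      interval_cases r <;> first | omega | exact absurd hr (by norm_num)
    · have : r ≤ 24 := Nat.le_of_dvd (by norm_num) (by simpa using hr')
      simp only [otherPrime, show ¬ (3 : ℕ) = 2 by norm_num, if_false] at hrq hr'
      interval_cases r <;> first | omega | exact absurd hr (by norm_num)
  have hR1 : R ≠ ⊥ := by
    obtain ⟨x, hx, hxa⟩ := c.exists_moved haH ha
    exact fun h0 => hxa (commutatorElement_eq_one_iff_mul_comm.1 (Subgroup.mem_bot.1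
      (h0 ▸ Subgroup.commutator_mem_commutator hx (Subgroup.mem_zpowers a))))
  have hRA : ⁅R, A⁆ = R := CfsgLib.CoprimeAction.commutator_commutator_eq hAK hcop (Or.inl hAsol)
  -- decomposition of `V` under `R`
  have hVp : IsPGroup p V := fun v => ⟨1, Subtype.ext (by simpa using c.el.2 v v.2)⟩
  have hRV : R ≤ Subgroup.normalizer (V : Set G) := hRH.trans c.norm
  have hcopV : (Nat.card V).Coprime (Nat.card R) := by
    obtain ⟨j, hj⟩ := IsPGroup.iff_card.1 hVp
    rw [hj]
    exact (coreOf_cop.coprime_dvd_left (Subgroup.card_dvd_of_le hRK)).symm.pow_left j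
  set V₁ := ⁅V, R⁆ with hV₁
  set V₀ := V ⊓ Subgroup.centralizer (R : Set G) with hV₀
  have hV₁V : V₁ ≤ V := CfsgLib.CoprimeAction.commutator_le_of_normalizer hRV
  have hdisj : V₀ ⊓ V₁ = ⊥ := centralizer_inf_commutator_eq_bot c.el.1 hRV hcopV
  have hspan : V₁ ⊔ V₀ = V :=
    CfsgLib.CoprimeAction.commutator_sup_centralizer hRV hcopV.symm (Or.inl (by haveI := hRq.isNilpotent; infer_instance))
  have htrivR : ∀ r ∈ R, (∀ v ∈ V₁, r * v = v * r) → r = 1 := by
    intro r hr h1
    refine Subgroup.mem_bot.1 (c.faith.le ⟨hRH hr, ?_⟩)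
    have hle : V ≤ Subgroup.centralizer ({r} : Set G) := by
      rw [← hspan]
      exact sup_le (fun v hv => Subgroup.mem_centralizer_singleton_iff.2 (h1 v hv).symm)
        (fun v hv => Subgroup.mem_centralizer_singleton_iff.2 (Subgroup.mem_centralizer_iff.1 hv.2 r hr).symm)
    exact Subgroup.mem_centralizer_iff.2 fun v hv => (Subgroup.mem_centralizer_singleton_iff.1 (hle hv))
  -- the submodules of `V₁`
  have hgenR : ∀ (N : Subgroup G), (∀ r ∈ R, ∀ z ∈ A, ⁅r, z⁆ ∈ N) → R ≤ N := fun N hN =>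
    hRA.symm.le.trans (Subgroup.commutator_le.2 hN)
  have hsubmod : ∀ S : Subgroup G, S ≤ V₁ → R ≤ Subgroup.normalizer (S : Set G) →
      a ∈ Subgroup.normalizer (S : Set G) → S = ⊥ ∨ S = V₁ := by
    intro S hS hRS haS
    by_cases hcs : ∀ s ∈ S, a * s = s * a
    · left
      rw [eq_bot_iff, ← hdisj]
      refine le_inf (le_inf (hS.trans hV₁V) ?_) hS
      refine Subgroup.le_centralizer_iff.1 (hgenR _ fun r hr z hz => Subgroup.mem_centralizer_iff.2 fun s hs => ?_)
      obtain ⟨i, rfl⟩ := Subgroup.mem_zpowers_iff.1 hz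
      have h1 : ∀ s ∈ S, Commute (a ^ i) s := fun s hs => (show Commute a s from hcs s hs).zpow_left i
      have h2 : Commute (r * a ^ i * r⁻¹) s := by
        have hs' : r⁻¹ * s * r ∈ S := by
          simpa using (Subgroup.mem_normalizer_iff.1 (Subgroup.inv_mem _ (hRS hr)) s).1 hs
        have := (h1 _ hs').eq
        show r * a ^ i * r⁻¹ * s = s * (r * a ^ i * r⁻¹)
        calc r * a ^ i * r⁻¹ * s = r * (a ^ i * (r⁻¹ * s * r)) * r⁻¹ := by group
          _ = r * ((r⁻¹ * s * r) * a ^ i) * r⁻¹ := by rw [this]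
          _ = _ := by group
      rw [commutatorElement_def]
      exact (h2.mul_left (h1 s hs).inv_left).eq.symm
    · right
      push Not at hcs
      obtain ⟨s, hs, hsa⟩ := hcs
      have hsV := hV₁V (hS hs)
      have hmem : ⁅s, a⁆ ∈ S := by
        rw [commutatorElement_def, mul_assoc s a, mul_assoc s]
        exact mul_mem hs ((Subgroup.mem_normalizer_iff.1 haS s⁻¹).1 (inv_mem hs))
      have hne : ⁅s, a⁆ ≠ 1 := fun h => hsa (commutatorElement_eq_one_iff_mul_comm.1 h).symm
      have huS : Subgroup.zpowers u ≤ S := by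
        have h1 : Subgroup.zpowers ⁅s, a⁆ = Subgroup.zpowers u := by
          refine Subgroup.eq_of_le_of_card_ge (Subgroup.zpowers_le.2 (ha.line s hsV)) ?_
          rw [Nat.card_zpowers, Nat.card_zpowers, orderOf_eq_prime (c.el.2 u ha.memU) ha.neU,
            orderOf_eq_prime (c.el.2 _ (hV₁V (hS hmem))) hne]
        rw [← h1]; exact Subgroup.zpowers_le.2 hmem
      refine le_antisymm hS (Subgroup.commutator_le.2 fun v hv r hr => ?_)
      suffices hR' : R ≤ trivialMod V S from (hR' hr).2.2 v hv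
      have haT : a ∈ trivialMod V S := ⟨ha.norm, haS, fun v hv => huS (ha.line v hv)⟩
      refine hgenR _ fun r hr z hz => ?_
      obtain ⟨i, rfl⟩ := Subgroup.mem_zpowers_iff.1 hz
      have hconj : r * a * r⁻¹ ∈ trivialMod V S :=
        ⟨mul_mem (mul_mem (hRV hr) ha.norm) (inv_mem (hRV hr)), mul_mem (mul_mem (hRS hr) haS) (inv_mem (hRS hr)),
          fun v hv => by
            have hv' : r⁻¹ * v * r ∈ V := by
              simpa using (Subgroup.mem_normalizer_iff.1 (Subgroup.inv_mem _ (hRV hr)) v).1 hv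
            rw [show ⁅v, r * a * r⁻¹⁆ = r * ⁅r⁻¹ * v * r, a⁆ * r⁻¹ by simp only [commutatorElement_def]; group]
            exact (Subgroup.mem_normalizer_iff.1 (hRS hr) _).1 (huS (ha.line _ hv'))⟩
      rw [commutatorElement_def, ← conj_zpow]
      exact mul_mem (zpow_mem hconj i) (inv_mem (zpow_mem haT i))
  -- `a` centralizes `V₀`, and `u ∈ V₁`
  have hV₁N : ∀ g, g ∈ Subgroup.normalizer (V : Set G) → g ∈ Subgroup.normalizer (R : Set G) →
      g ∈ Subgroup.normalizer (V₁ : Set G) := fun g h1 h2 => by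
    rw [Subgroup.mem_normalizer_iff_map_conj_eq]
    refine (Subgroup.map_commutator _ _ _).trans ?_
    rw [Subgroup.mem_normalizer_iff_map_conj_eq.1 h1, Subgroup.mem_normalizer_iff_map_conj_eq.1 h2]
  have hu1 : u ∈ V₁ := by
    by_contra hu
    -- then `a` centralizes `V₁`
    rcases hsubmod V₁ le_rfl (fun r hr => hV₁N r (hRV hr) (Subgroup.le_normalizer hr))
        (hV₁N a ha.norm haR') with h0 | -
    · exact hR1 ((Subgroup.eq_bot_iff_forall _).2 fun r hr => htrivR r hr fun v hv => by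
        rw [h0, Subgroup.mem_bot] at hv; simp [hv])
    have hcs : ∀ v ∈ V₁, a * v = v * a := by
      intro v hv
      by_contra hne
      have h1 : ⁅v, a⁆ ≠ 1 := fun h => hne (commutatorElement_eq_one_iff_mul_comm.1 h).symm
      have hm : ⁅v, a⁆ ∈ V₁ := by
        rw [commutatorElement_def, mul_assoc v a, mul_assoc v]
        exact mul_mem hv ((Subgroup.mem_normalizer_iff.1 (hV₁N a ha.norm haR') v⁻¹).1 (inv_mem hv))
      have h2 : Subgroup.zpowers ⁅v, a⁆ = Subgroup.zpowers u := by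
        refine Subgroup.eq_of_le_of_card_ge (Subgroup.zpowers_le.2 (ha.line v (hV₁V hv))) ?_
        rw [Nat.card_zpowers, Nat.card_zpowers, orderOf_eq_prime (c.el.2 u ha.memU) ha.neU,
          orderOf_eq_prime (c.el.2 _ (hV₁V hm)) h1]
      exact hu (Subgroup.zpowers_le.2 hm (h2.ge (Subgroup.mem_zpowers u)))
    refine hR1 ((Subgroup.eq_bot_iff_forall _).2 fun r hr => htrivR r hr fun v hv => ?_)
    have hle : R ≤ Subgroup.centralizer (V₁ : Set G) := hgenR _ fun r hr z hz =>
      Subgroup.mem_centralizer_iff.2 fun v hv => by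
        obtain ⟨i, rfl⟩ := Subgroup.mem_zpowers_iff.1 hz
        have h1 : ∀ s ∈ V₁, Commute (a ^ i) s := fun s hs => (show Commute a s from hcs s hs).zpow_left i
        have hs' : r⁻¹ * v * r ∈ V₁ := by
          simpa using (Subgroup.mem_normalizer_iff.1
            (hV₁N _ (inv_mem (hRV hr)) (Subgroup.le_normalizer (inv_mem hr))) v).1 hv
        have h2 : Commute (r * a ^ i * r⁻¹) v := by
          show r * a ^ i * r⁻¹ * v = v * (r * a ^ i * r⁻¹)
          calc r * a ^ i * r⁻¹ * v = r * (a ^ i * (r⁻¹ * v * r)) * r⁻¹ := by group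
            _ = r * ((r⁻¹ * v * r) * a ^ i) * r⁻¹ := by rw [(h1 _ hs').eq]
            _ = _ := by group
        rw [commutatorElement_def]
        exact (h2.mul_left (h1 v hv).inv_left).eq.symm
    exact (Subgroup.mem_centralizer_iff.1 (hle hr) v hv).symm
  have haV₀ : ∀ v ∈ V₀, a * v = v * a := by
    intro v hv
    refine (commutatorElement_eq_one_iff_mul_comm.1 (Subgroup.mem_bot.1 (hdisj.le ⟨?_, ?_⟩))).symm
    · have h2 : a * v⁻¹ * a⁻¹ ∈ V₀ := by
        refine ⟨(Subgroup.mem_normalizer_iff.1 ha.norm v⁻¹).1 (inv_mem hv.1), Subgroup.mem_centralizer_iff.2 fun r hr => ?_⟩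
        have hr' : a⁻¹ * r * a ∈ R := by
          simpa using (Subgroup.mem_normalizer_iff.1 (Subgroup.inv_mem _ haR') r).1 hr
        have := Subgroup.mem_centralizer_iff.1 (inv_mem hv.2) _ hr'
        calc r * (a * v⁻¹ * a⁻¹) = a * ((a⁻¹ * r * a) * v⁻¹) * a⁻¹ := by group
          _ = a * (v⁻¹ * (a⁻¹ * r * a)) * a⁻¹ := by rw [this]
          _ = _ := by group
      rw [commutatorElement_def, mul_assoc v a, mul_assoc v]
      exact mul_mem hv h2
    · exact Subgroup.zpowers_le.2 hu1 (ha.line v hv.1)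
  -- (2) abelian invariant subgroups are centralized when `p = 3`
  have habel : p = 3 → ∀ B : Subgroup G, B ≤ R → (∀ x ∈ B, ∀ y ∈ B, x * y = y * x) →
      a ∈ Subgroup.normalizer (B : Set G) → ∀ x ∈ B, x * a = a * x := by
    intro h3 B hB hBc haB x hx
    by_contra hxa
    obtain ⟨g₁, hg₁, g₂, hg₂, g₃, hg₃, g₄, hg₄, hne⟩ := c.exists_commutators h3 haH ha (hRK (hB hx)) hxa
    have hle := c.closure_pair_le (a := a) haB hx
    refine hne (commutatorElement_eq_one_iff_mul_comm.2 (hBc _ ?_ _ ?_))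
    · exact commutator_mem_of_cyclic_sup haB (hle hg₁) (hle hg₂)
    · exact commutator_mem_of_cyclic_sup haB (hle hg₃) (hle hg₄)
  have hnonab : p = 3 → ¬ ∀ x ∈ R, ∀ y ∈ R, x * y = y * x := fun h3 habR => hR1 (by
    have h1 := habel h3 R le_rfl habR haR'
    rw [eq_bot_iff, ← hRA]
    refine Subgroup.commutator_le.2 fun r hr z hz => Subgroup.mem_bot.2 ?_
    obtain ⟨i, rfl⟩ := Subgroup.mem_zpowers_iff.1 hz
    exact commutatorElement_eq_one_iff_mul_comm.2 ((show Commute r a from h1 r hr).zpow_right i).eq)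
  set Z := R ⊓ Subgroup.centralizer (R : Set G) with hZdef
  have hconjR : ∀ {g : G}, g ∈ Subgroup.normalizer (R : Set G) → ∀ z ∈ Z, g * z * g⁻¹ ∈ Z := by
    intro g hg z hz
    refine ⟨(Subgroup.mem_normalizer_iff.1 hg z).1 hz.1, Subgroup.mem_centralizer_iff.2 fun r hr => ?_⟩
    have hr' : g⁻¹ * r * g ∈ R := by simpa using (Subgroup.mem_normalizer_iff.1 (Subgroup.inv_mem _ hg) r).1 hr
    calc r * (g * z * g⁻¹) = g * ((g⁻¹ * r * g) * z) * g⁻¹ := by group
      _ = g * (z * (g⁻¹ * r * g)) * g⁻¹ := by rw [Subgroup.mem_centralizer_iff.1 hz.2 _ hr']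
      _ = _ := by group
  have haZ : a ∈ Subgroup.normalizer (Z : Set G) := Subgroup.mem_normalizer_fintype fun z hz => hconjR haR' z hz
  -- (3) a central element of `R` inside some pair group
  obtain ⟨x, hxR, hxa, t, htZ, htL, ht1⟩ : ∃ x ∈ R, x * a ≠ a * x ∧
      ∃ t ∈ Z, t ∈ Subgroup.closure ({a, x * a * x⁻¹} : Set G) ∧ t ≠ 1 := by
    rcases hp23 with h2 | h3
    · obtain ⟨z, hz, hza⟩ : ∃ z ∈ Z, z * a ≠ a * z := by
        by_contra hcon
        push Not at hcon
        haveI : Nontrivial R := R.nontrivial_iff_ne_bot.2 hR1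
        haveI := hRq.center_nontrivial
        obtain ⟨⟨⟨z, hzR⟩, hzc⟩, hz1⟩ := exists_ne (1 : Subgroup.center R)
        have hzZ : z ∈ Z := ⟨hzR, Subgroup.mem_centralizer_iff.2 fun r hr =>
          congrArg Subtype.val (Subgroup.mem_center_iff.1 hzc ⟨r, hr⟩)⟩
        have hza := hcon z hzZ
        -- `z` fixes `u`
        have hzu : z * u = u * z := by
          obtain ⟨v, hv, hva⟩ : ∃ v ∈ V, v * a ≠ a * v := by
            by_contra hh
            push Not at hh
            exact ha.neA (Subgroup.mem_bot.1 (c.faith.le ⟨haH, Subgroup.mem_centralizer_iff.2 hh⟩))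
          have hv' : z * v * z⁻¹ ∈ V := (Subgroup.mem_normalizer_iff.1 (c.norm (hRH hzR)) v).1 hv
          have hgen : ∀ w ∈ V, ⁅w, a⁆ = 1 ∨ ⁅w, a⁆ = u := by
            intro w hw
            obtain ⟨i, hi⟩ := (isOfFinOrder_of_finite u).mem_powers_iff_mem_zpowers.2 (ha.line w hw)
            change u ^ i = _ at hi
            have hu2 : u ^ 2 = 1 := by rw [← h2]; exact c.el.2 u ha.memU
            rw [← hi, ← Nat.mod_add_div i 2, pow_add, pow_mul, hu2, one_pow, mul_one]
            rcases Nat.mod_two_eq_zero_or_one i with h' | h' <;> simp [h']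
          have hvu : ⁅v, a⁆ = u := (hgen v hv).resolve_left fun h => hva (commutatorElement_eq_one_iff_mul_comm.1 h)
          have e : z * ⁅v, a⁆ * z⁻¹ = ⁅z * v * z⁻¹, a⁆ := by
            have hz' : (MulAut.conj z) a = a := by rw [MulAut.conj_apply, hza, mul_inv_cancel_right]
            have := map_commutatorElement (MulAut.conj z) v a
            rw [hz'] at this
            exact this
          rcases hgen _ hv' with h' | h'
          · exfalso
            rw [← e, hvu] at h'
            exact ha.neU (conj_eq_one_iff.1 h')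
          · rw [← e, hvu] at h'
            exact mul_inv_eq_iff_eq_mul.1 h'
        have hS := hsubmod (V₁ ⊓ Subgroup.centralizer ({z} : Set G)) inf_le_left ?_ ?_
        · rcases hS with h0 | h0
          · exact ha.neU (Subgroup.mem_bot.1 (h0.le ⟨hu1, Subgroup.mem_centralizer_singleton_iff.2 hzu.symm⟩))
          · exact hz1 (Subtype.ext (Subtype.ext (htrivR z hzR fun v hv =>
              (Subgroup.mem_centralizer_singleton_iff.1 (h0.ge hv).2).symm)))
        · intro r hr
          refine Subgroup.mem_normalizer_fintype fun v hv => ⟨(Subgroup.mem_normalizer_iff.1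
            (hV₁N r (hRV hr) (Subgroup.le_normalizer hr)) v).1 hv.1, Subgroup.mem_centralizer_singleton_iff.2 ?_⟩
          have c1 : Commute z r := (Subgroup.mem_centralizer_iff.1 hzZ.2 r hr).symm
          have c2 : Commute z v := (Subgroup.mem_centralizer_singleton_iff.1 hv.2).symm
          exact ((c1.mul_right c2).mul_right c1.inv_right).eq.symm
        · refine Subgroup.mem_normalizer_fintype fun v hv => ⟨(Subgroup.mem_normalizer_iff.1
            (hV₁N a ha.norm haR') v).1 hv.1, Subgroup.mem_centralizer_singleton_iff.2 ?_⟩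
          have c1 : Commute z a := hza
          have c2 : Commute z v := (Subgroup.mem_centralizer_singleton_iff.1 hv.2).symm
          exact ((c1.mul_right c2).mul_right c1.inv_right).eq.symm
      refine ⟨z, hz.1, hza, ⁅z, a⁆, ?_, ?_, fun h => hza (commutatorElement_eq_one_iff_mul_comm.1 h)⟩
      · rw [commutatorElement_def, mul_assoc z a, mul_assoc z]
        exact mul_mem hz (hconjR haR' _ (inv_mem hz))
      · rw [commutatorElement_def]
        exact mul_mem (Subgroup.subset_closure (Set.mem_insert_of_mem _ rfl))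
          (inv_mem (Subgroup.subset_closure (Set.mem_insert _ _)))
    · set Z₂ := trivialMod R Z ⊓ R with hZ₂
      have haZ₂ : a ∈ Subgroup.normalizer (Z₂ : Set G) := Subgroup.mem_normalizer_fintype fun g hg => by
        refine ⟨⟨mul_mem (mul_mem haR' hg.1.1) (inv_mem haR'), mul_mem (mul_mem haZ hg.1.2.1) (inv_mem haZ),
          fun r hr => ?_⟩, (Subgroup.mem_normalizer_iff.1 haR' g).1 hg.2⟩
        have hr' : a⁻¹ * r * a ∈ R := by simpa using (Subgroup.mem_normalizer_iff.1 (Subgroup.inv_mem _ haR') r).1 hr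
        rw [show ⁅r, a * g * a⁻¹⁆ = a * ⁅a⁻¹ * r * a, g⁆ * a⁻¹ by simp only [commutatorElement_def]; group]
        exact hconjR haR' _ (hg.1.2.2 _ hr')
      have hZcent : ∀ z ∈ Z, z * a = a * z := habel h3 Z inf_le_left
        (fun x hx y hy => (Subgroup.mem_centralizer_iff.1 hy.2 x hx.1)) haZ
      obtain ⟨x, hx, hxa⟩ : ∃ x ∈ Z₂, x * a ≠ a * x := by
        by_contra hcon
        push Not at hcon
        -- then `Z₂ = Z`, so `R` is abelian
        have hZ₂Z : ∀ g ∈ Z₂, g ∈ Z := by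
          intro g hg
          refine ⟨hg.2, ?_⟩
          have hle : R ≤ Subgroup.centralizer ({g} : Set G) := hgenR _ fun r hr z hz => by
            rw [Subgroup.mem_centralizer_singleton_iff]
            obtain ⟨i, rfl⟩ := Subgroup.mem_zpowers_iff.1 hz
            have cg : Commute (a ^ i) g := (show Commute g a from hcon g hg).symm.zpow_left i
            have hr' : r⁻¹ ∈ R := inv_mem hr
            have hm := hg.1.2.2 r⁻¹ hr'
            have cz : Commute (a ^ i) ⁅r⁻¹, g⁆ := (show Commute ⁅r⁻¹, g⁆ a from hZcent _ hm).symm.zpow_left i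
            -- `r⁻¹ g r` is fixed by `a^i`
            have c3 : Commute (a ^ i) (r⁻¹ * g * r) := by
              have e : r⁻¹ * g * r = ⁅r⁻¹, g⁆ * g := by rw [commutatorElement_def]; group
              rw [e]; exact cz.mul_right cg
            have c4 : Commute (r * a ^ i * r⁻¹) g := by
              show r * a ^ i * r⁻¹ * g = g * (r * a ^ i * r⁻¹)
              calc r * a ^ i * r⁻¹ * g = r * (a ^ i * (r⁻¹ * g * r)) * r⁻¹ := by group
                _ = r * ((r⁻¹ * g * r) * a ^ i) * r⁻¹ := by rw [c3.eq]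
                _ = _ := by group
            rw [commutatorElement_def]
            exact (c4.mul_left cg.inv_left).eq
          exact Subgroup.mem_centralizer_iff.2 fun r hr => Subgroup.mem_centralizer_singleton_iff.1 (hle hr)
        refine hnonab h3 ?_
        haveI := hRq.isNilpotent
        set Rc := Subgroup.center R
        by_contra hab
        haveI : Nontrivial (R ⧸ Rc) := by
          by_contra h
          rw [not_nontrivial_iff_subsingleton] at h
          apply hab
          intro x hx y hy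
          have : (⟨x, hx⟩ : R) ∈ Rc := (QuotientGroup.eq_one_iff _).1 (Subsingleton.elim _ _)
          exact (congrArg Subtype.val (Subgroup.mem_center_iff.1 this ⟨y, hy⟩)).symm
        haveI := (hRq.to_quotient Rc).center_nontrivial
        obtain ⟨⟨q, hqc⟩, hq1⟩ := exists_ne (1 : Subgroup.center (R ⧸ Rc))
        obtain ⟨⟨g, hg⟩, rfl⟩ := QuotientGroup.mk'_surjective Rc q
        apply hq1
        refine Subtype.ext ((QuotientGroup.eq_one_iff _).2 (Subgroup.mem_center_iff.2 fun y => Subtype.ext ?_))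
        refine Subgroup.mem_centralizer_iff.1 (hZ₂Z g ⟨⟨Subgroup.le_normalizer hg, ?_, fun r hr => ?_⟩, hg⟩).2 y y.2
        · exact Subgroup.mem_normalizer_fintype fun z hz => hconjR (Subgroup.le_normalizer hg) z hz
        · have h1 := Subgroup.mem_center_iff.1 hqc (QuotientGroup.mk' Rc ⟨r, hr⟩)
          have h2 : QuotientGroup.mk' Rc ⁅(⟨r, hr⟩ : R), ⟨g, hg⟩⁆ = 1 := by
            rw [map_commutatorElement]; exact commutatorElement_eq_one_iff_mul_comm.2 h1
          have h3 := (QuotientGroup.eq_one_iff _).1 h2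
          refine ⟨R.mul_mem (R.mul_mem (R.mul_mem hr hg) (R.inv_mem hr)) (R.inv_mem hg), Subgroup.mem_centralizer_iff.2 fun y hy => ?_⟩
          exact congrArg Subtype.val (Subgroup.mem_center_iff.1 h3 ⟨y, hy⟩)
      obtain ⟨g₁, hg₁, g₂, hg₂, g₃, hg₃, g₄, hg₄, hne⟩ := c.exists_commutators h3 haH ha (hRK hx.2) hxa
      have hle := c.closure_pair_le (a := a) haZ₂ hx
      refine ⟨x, hx.2, hxa, ⁅⁅g₁, g₂⁆, ⁅g₃, g₄⁆⁆, ?_, ?_, hne⟩
      · exact (commutator_mem_of_cyclic_sup haZ₂ (hle hg₃) (hle hg₄)).1.2.2 _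
          (commutator_mem_of_cyclic_sup haZ₂ (hle hg₁) (hle hg₂)).2
      · have : ∀ {y z : G}, y ∈ Subgroup.closure ({a, x * a * x⁻¹} : Set G) →
            z ∈ Subgroup.closure ({a, x * a * x⁻¹} : Set G) → ⁅y, z⁆ ∈ Subgroup.closure ({a, x * a * x⁻¹} : Set G) := by
          intro y z hy hz
          rw [commutatorElement_def]
          exact mul_mem (mul_mem (mul_mem hy hz) (inv_mem hy)) (inv_mem hz)
        exact this (this hg₁ hg₂) (this hg₃ hg₄)
  -- (4) `|V₁| = p²`
  set L := Subgroup.closure ({a, x * a * x⁻¹} : Set G) with hLdef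
  set W := Subgroup.zpowers u ⊔ Subgroup.zpowers (x * u * x⁻¹) with hWdef
  have hP := c.pair haH ha (hRK hxR) hxa
  have hWV₁ : W ≤ V₁ := sup_le (Subgroup.zpowers_le.2 hu1) (Subgroup.zpowers_le.2
    ((Subgroup.mem_normalizer_iff.1 (hV₁N x (hRV hxR) (Subgroup.le_normalizer hxR)) u).1 hu1))
  set T := Z ⊓ L with hTdef
  set S := V₁ ⊓ Subgroup.centralizer (T : Set G) with hSdef
  have hS : S = ⊥ := by
    refine (hsubmod S inf_le_left ?_ ?_).resolve_right fun h => ht1 (htrivR t htZ.1 fun v hv => ?_)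
    · intro r hr
      refine Subgroup.mem_normalizer_fintype fun v hv => ⟨(Subgroup.mem_normalizer_iff.1
        (hV₁N r (hRV hr) (Subgroup.le_normalizer hr)) v).1 hv.1, Subgroup.mem_centralizer_iff.2 fun z hz => ?_⟩
      have c1 : Commute z r := (Subgroup.mem_centralizer_iff.1 hz.1.2 r hr).symm
      have c2 : Commute z v := Subgroup.mem_centralizer_iff.1 hv.2 z hz
      exact ((c1.mul_right c2).mul_right c1.inv_right).eq
    · refine Subgroup.mem_normalizer_fintype fun v hv => ⟨(Subgroup.mem_normalizer_iff.1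
        (hV₁N a ha.norm haR') v).1 hv.1, Subgroup.mem_centralizer_iff.2 fun z hz => ?_⟩
      have haL : a ∈ L := Subgroup.subset_closure (Set.mem_insert _ _)
      have hz' : a⁻¹ * z * a ∈ T := ⟨by simpa using hconjR (Subgroup.inv_mem _ haR') z hz.1,
        L.mul_mem (L.mul_mem (L.inv_mem haL) hz.2) haL⟩
      have := Subgroup.mem_centralizer_iff.1 hv.2 _ hz'
      calc z * (a * v * a⁻¹) = a * ((a⁻¹ * z * a) * v) * a⁻¹ := by group
        _ = a * (v * (a⁻¹ * z * a)) * a⁻¹ := by rw [this]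
        _ = _ := by group
    · exact (Subgroup.mem_centralizer_iff.1 (h.ge hv).2 t ⟨htZ, htL⟩)
  have hCL : V₁ ⊓ (V ⊓ Subgroup.centralizer (L : Set G)) = ⊥ := by
    rw [eq_bot_iff, ← hS]
    exact le_inf inf_le_left (inf_le_right.trans (inf_le_right.trans (Subgroup.centralizer_le inf_le_right)))
  have hWeq : W = V₁ := by
    refine Subgroup.eq_of_le_of_card_ge hWV₁ ?_
    set C := V ⊓ Subgroup.centralizer (L : Set G)
    have hn : ∀ {B : Subgroup G}, B ≤ V → B ≤ Subgroup.normalizer (C : Set G) := fun hB b hb =>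
      Subgroup.centralizer_le_normalizer _ (Subgroup.mem_centralizer_iff.2 fun z hz =>
        setLike_mul_comm hz.1 (hB hb))
    have h1 := CfsgLib.ZJ.card_sup_mul_card_inf_of_le_normalizer (hn hV₁V)
    have h2 := CfsgLib.ZJ.card_sup_mul_card_inf_of_le_normalizer (hn (hWV₁.trans hV₁V))
    rw [hCL, Subgroup.card_bot, mul_one] at h1
    rw [hP.inf, hP.sup, Subgroup.card_bot, mul_one] at h2
    refine Nat.le_of_mul_le_mul_right ?_ (Nat.card_pos (α := C))
    rw [← h1, ← h2]
    exact Subgroup.card_le_of_le (sup_le hV₁V inf_le_left)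
  -- (5) `E = L`
  set E := R ⊔ A with hEdef
  have hLE : L ≤ E := (c.closure_pair_le (a := a) haR' hxR).trans_eq (sup_comm _ _)
  have hEN : E ≤ Subgroup.normalizer (W : Set G) := hWeq ▸ sup_le
    (fun r hr => hV₁N r (hRV hr) (Subgroup.le_normalizer hr)) (Subgroup.zpowers_le.2 (hV₁N a ha.norm haR'))
  have hEC : V₀ ≤ Subgroup.centralizer (E : Set G) := Subgroup.le_centralizer_iff.1
    (sup_le (fun r hr => Subgroup.mem_centralizer_iff.2 fun v hv => (Subgroup.mem_centralizer_iff.1 hv.2 r hr).symm)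
      (Subgroup.zpowers_le.2 (Subgroup.mem_centralizer_iff.2 fun v hv => (haV₀ v hv).symm)))
  have hV₀E : V₀ = V ⊓ Subgroup.centralizer (E : Set G) :=
    le_antisymm (le_inf inf_le_left hEC) (inf_le_inf_left _ (Subgroup.centralizer_le (show (R : Set G) ⊆ (E : Set G) from (le_sup_left : R ≤ E))))
  have hEH : E ≤ H := sup_le hRH (Subgroup.zpowers_le.2 haH)
  have hEfaith : E ⊓ Subgroup.centralizer (W : Set G) = ⊥ := by
    rw [Subgroup.eq_bot_iff_forall]
    rintro g ⟨hg, hgW⟩
    refine Subgroup.mem_bot.1 (c.faith.le ⟨hEH hg, Subgroup.mem_centralizer_iff.2 fun v hv => ?_⟩)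
    have hle : V ≤ Subgroup.centralizer ({g} : Set G) := by
      rw [← hspan, ← hWeq]
      exact sup_le (fun v hv => Subgroup.mem_centralizer_singleton_iff.2 (Subgroup.mem_centralizer_iff.1 hgW v hv))
        (fun v hv => Subgroup.mem_centralizer_singleton_iff.2 (Subgroup.mem_centralizer_iff.1 (hEC hv) g hg).symm)
    exact Subgroup.mem_centralizer_singleton_iff.1 (hle hv)
  obtain ⟨eL⟩ := hP.iso
  have hEL : L = E := by
    refine Subgroup.eq_of_le_of_card_ge hLE ?_
    rw [Nat.card_congr eL.toEquiv]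
    have hup : u ^ p = 1 := c.el.2 u ha.memU
    have hvp : (x * u * x⁻¹) ^ p = 1 := by rw [conj_pow, hup, mul_one, mul_inv_cancel]
    have hvV : x * u * x⁻¹ ∈ V := hV₁V (hWV₁ (Subgroup.mem_sup_right (Subgroup.mem_zpowers _)))
    have hind : ∀ i j : ℕ, u ^ i * (x * u * x⁻¹) ^ j = 1 → p ∣ i ∧ p ∣ j := by
      intro i j h
      -- otherwise `|W| ≤ p`
      by_contra hij
      have hle : W ≤ Subgroup.zpowers u ∨ W ≤ Subgroup.zpowers (x * u * x⁻¹) := by
        rcases not_and_or.1 hij with hi | hj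
        · right
          obtain ⟨k, hk⟩ := exists_pow_eq_self_of_coprime (x := u) (n := i)
            ((hp.out.coprime_iff_not_dvd.2 hi).symm.coprime_dvd_right (orderOf_dvd_of_pow_eq_one hup))
          refine sup_le (Subgroup.zpowers_le.2 ?_) le_rfl
          have hui : u ^ i ∈ Subgroup.zpowers (x * u * x⁻¹) := by
            rw [eq_inv_of_mul_eq_one_left h]
            exact inv_mem (pow_mem (Subgroup.mem_zpowers _) j)
          have hu' := pow_mem hui k
          rwa [hk] at hu'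
        · left
          obtain ⟨k, hk⟩ := exists_pow_eq_self_of_coprime (x := x * u * x⁻¹) (n := j)
            ((hp.out.coprime_iff_not_dvd.2 hj).symm.coprime_dvd_right (orderOf_dvd_of_pow_eq_one hvp))
          refine sup_le le_rfl (Subgroup.zpowers_le.2 ?_)
          have hvj : (x * u * x⁻¹) ^ j ∈ Subgroup.zpowers u := by
            rw [eq_inv_of_mul_eq_one_right h]
            exact inv_mem (pow_mem (Subgroup.mem_zpowers _) i)
          have hv' := pow_mem hvj k
          rwa [hk] at hv'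
      have hcard : Nat.card W ≤ p := by
        rcases hle with h' | h' <;> refine (Subgroup.card_le_of_le h').trans ?_ <;> rw [Nat.card_zpowers]
        · exact orderOf_le_of_pow_eq_one hp.out.pos hup
        · exact orderOf_le_of_pow_eq_one hp.out.pos hvp
      rw [hP.cardW] at hcard
      have := hp.out.two_le
      nlinarith
    obtain ⟨f, -, -, hf3⟩ := plane_rep (setLike_mul_comm ha.memU hvV) hup hvp hind E hEN
    -- determinant one
    have hdet : ∀ g : E, (f g).det = 1 := by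
      let χ : E →* (ZMod p) := (Matrix.detMonoidHom).comp f
      have hA1 : ∀ z (hz : z ∈ A), χ ⟨z, le_sup_right (a := R) hz⟩ = 1 := by
        intro z hz
        have hzp : (⟨z, le_sup_right (a := R) hz⟩ : E) ^ p = 1 := Subtype.ext (by
          obtain ⟨i, rfl⟩ := Subgroup.mem_zpowers_iff.1 hz
          show (a ^ i) ^ p = 1
          rw [← zpow_natCast, zpow_comm, zpow_natCast, ha.powA, one_zpow])
        have := congrArg χ hzp
        rwa [map_pow, map_one, ZMod.pow_card] at this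
      rintro ⟨g, hg⟩
      suffices hle : E ≤ χ.ker.map E.subtype by
        obtain ⟨y, hy, hyg⟩ := hle hg
        obtain rfl : y = ⟨g, hg⟩ := Subtype.ext hyg
        exact hy
      refine sup_le ?_ fun z hz => ⟨⟨z, le_sup_right (a := R) hz⟩, hA1 z hz, rfl⟩
      refine hgenR _ fun r hr z hz => ?_
      have hrE : r ∈ E := le_sup_left (b := A) hr
      have hzE : z ∈ E := le_sup_right (a := R) hz
      refine ⟨⁅(⟨r, hrE⟩ : E), ⟨z, hzE⟩⁆, ?_, rfl⟩
      show χ _ = 1
      rw [commutatorElement_def, map_mul, map_mul, map_mul,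
        show χ (⟨z, hzE⟩ : E)⁻¹ = χ ⟨z⁻¹, inv_mem hzE⟩ from rfl, hA1 z hz, hA1 _ (inv_mem hz), mul_one, mul_one,
        ← map_mul, mul_inv_cancel, map_one]
    let F : E →* SpecialLinearGroup (Fin 2) (ZMod p) :=
      { toFun := fun g => ⟨f g, hdet g⟩
        map_one' := Subtype.ext (map_one f)
        map_mul' := fun g h => Subtype.ext (map_mul f g h) }
    refine Nat.card_le_card_of_injective F ((injective_iff_map_eq_one _).2 fun g hg => ?_)
    obtain ⟨h1, h2⟩ := hf3 g (congrArg Subtype.val hg)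
    refine Subtype.ext (Subgroup.mem_bot.1 (hEfaith.le ⟨g.2, ?_⟩))
    have hle : W ≤ Subgroup.centralizer ({(g : G)} : Set G) :=
      sup_le (Subgroup.zpowers_le.2 (Subgroup.mem_centralizer_singleton_iff.2 h1.symm))
        (Subgroup.zpowers_le.2 (Subgroup.mem_centralizer_singleton_iff.2 h2.symm))
    exact Subgroup.mem_centralizer_iff.2 fun w hw => Subgroup.mem_centralizer_singleton_iff.1 (hle hw)
  have hPE : PairData p V E W := hEL ▸ hP
  have hVE : ⁅V, E⁆ = W := hPE.commEq
  refine ⟨?_, ?_, ?_, hRq, fun h3 hc => hnonab h3 fun x hx y hy =>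
    congrArg Subtype.val (hc.is_comm.comm ⟨x, hx⟩ ⟨y, hy⟩), x, hxR, hEL.symm⟩
  · rw [hVE]; exact hPE
  · rw [hVE, hWeq]
  · exact hV₀E

end CfsgLib.PLocalBasics
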