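import Cfsg.Agent.PCore.AxB
import Cfsg.Prelude.Def_PLocal

/-!
Uniserial action of a `p`-group on a `p`-group.
-/

set_option autoImplicit false

namespace CfsgLib.PLocalBasics

open scoped commutatorElement
open CfsgLib.PCore

variable {L : Type*} [Group L] [Finite L] {p : ℕ} [hp : Fact p.Prime] {N G : Subgroup L}

omit [Finite L] hp in
theorem iter_props (hGN : G ≤ Subgroup.normalizer (N : Set L)) (i : ℕ) :
    Cfsg.iterCommutator N G i ≤ N ∧ G ≤ Subgroup.normalizer (Cfsg.iterCommutator N G i : Set L) := by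
  induction i with
  | zero => exact ⟨le_rfl, hGN⟩
  | succ i ih => exact ⟨(commutator_le_of_le_normalizer ih.2).trans ih.1, le_normalizer_commutator ih.2 Subgroup.le_normalizer⟩

theorem iter_dvd (hN : IsPGroup p N) (hG : IsPGroup p G) (hGN : G ≤ Subgroup.normalizer (N : Set L)) (i : ℕ) :
    Cfsg.iterCommutator N G i = ⊥ ∨
      Nat.card (Cfsg.iterCommutator N G (i + 1)) * p ≤ Nat.card (Cfsg.iterCommutator N G i) := by
  set I := Cfsg.iterCommutator N G i with hI
  by_cases h : I = ⊥
  · exact Or.inl h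
  refine Or.inr ?_
  obtain ⟨hIN, hGI⟩ := iter_props hGN i
  have hle : Cfsg.iterCommutator N G (i + 1) ≤ I := commutator_le_of_le_normalizer hGI
  have hne : Cfsg.iterCommutator N G (i + 1) ≠ I := commutator_ne_of_isPGroup (hN.to_le hIN) hG hGI h
  obtain ⟨a, ha⟩ := IsPGroup.iff_card.mp (hN.to_le hIN)
  obtain ⟨b, hb⟩ := IsPGroup.iff_card.mp (hN.to_le (hle.trans hIN))
  rw [← hI] at ha
  rw [ha, hb, ← pow_succ]
  refine Nat.pow_le_pow_right hp.out.pos ?_
  have hlt : p ^ b < p ^ a := by
    rw [← ha, ← hb]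
    exact lt_of_le_of_ne (Subgroup.card_le_of_le hle) fun e => hne (Subgroup.eq_of_le_of_card_ge hle e.ge)
  exact (Nat.pow_lt_pow_iff_right hp.out.one_lt).1 hlt

/-- A maximal invariant subgroup contains the commutator. -/
theorem commutator_le_maximal {I M : Subgroup L} (hI : IsPGroup p I) (hG : IsPGroup p G)
    (hGI : G ≤ Subgroup.normalizer (I : Set L)) (hMI : M < I) (hGM : G ≤ Subgroup.normalizer (M : Set L))
    (hmax : ∀ X : Subgroup L, M < X → X ≤ I → G ≤ Subgroup.normalizer (X : Set L) → X = I) :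
    ⁅I, G⁆ ≤ M := by
  set X := Subgroup.normalizer (M : Set L) ⊓ I with hX
  have hMX : M < X := by
    haveI : Group.IsNilpotent I := hI.isNilpotent
    have hlt : M.subgroupOf I < ⊤ := lt_top_iff_ne_top.2 fun h => hMI.not_ge (Subgroup.subgroupOf_eq_top.1 h)
    obtain ⟨x, hx, hxM⟩ := SetLike.exists_of_lt (Group.normalizerCondition_of_isNilpotent _ hlt)
    refine lt_of_le_of_ne (le_inf Subgroup.le_normalizer hMI.le) fun e => hxM ?_
    show (x : L) ∈ M
    rw [e]
    refine ⟨Subgroup.mem_normalizer_iff.2 fun y => ⟨fun hy => ?_, fun hy => ?_⟩, x.2⟩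
    · exact (Subgroup.mem_normalizer_iff.1 hx ⟨y, hMI.le hy⟩).1 hy
    · have hyI : y ∈ I := by
        have := mul_mem (mul_mem (inv_mem x.2) (hMI.le hy)) x.2
        simpa [mul_assoc] using this
      exact (Subgroup.mem_normalizer_iff.1 hx ⟨y, hyI⟩).2 hy
  have hGX : G ≤ Subgroup.normalizer (X : Set L) := fun g hg => by
    have h1 := Subgroup.mem_normalizer_iff_map_conj_eq.1 (hGI hg)
    refine Subgroup.mem_normalizer_iff_map_conj_eq.2 ?_
    show X.map (MulAut.conj g).toMonoidHom = X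
    rw [hX, Subgroup.map_inf _ _ _ (MulAut.conj g).injective,
      show I.map (MulAut.conj g).toMonoidHom = I from h1,
      Subgroup.map_normalizer_eq_of_bijective M (f := (MulAut.conj g).toMonoidHom) (MulAut.conj g).bijective]
    congr 3
    exact Subgroup.mem_normalizer_iff_map_conj_eq.1 (hGM hg)
  have hIM : I ≤ Subgroup.normalizer (M : Set L) :=
    (hmax X hMX inf_le_right hGX).symm.trans_le inf_le_left
  set Q := Subgroup.normalizer (M : Set L)
  let M' := M.subgroupOf Q
  haveI : M'.Normal := Subgroup.normal_in_normalizer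
  let π := QuotientGroup.mk' M'
  set Ib := (I.subgroupOf Q).map π
  set Gb := (G.subgroupOf Q).map π
  have hIb : IsPGroup p Ib := (hI.of_equiv (Subgroup.subgroupOfEquivOfLe hIM).symm).map π
  have hGb : IsPGroup p Gb := (hG.of_equiv (Subgroup.subgroupOfEquivOfLe hGM).symm).map π
  have hne : Ib ≠ ⊥ := by
    rw [Ne, Subgroup.map_eq_bot_iff, QuotientGroup.ker_mk']
    exact fun h => hMI.not_ge fun x hx => Subgroup.mem_subgroupOf.1 (h (x := ⟨x, hIM hx⟩) hx)
  have hn : Gb ≤ Subgroup.normalizer (Ib : Set _) := by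
    rintro _ ⟨g, hg, rfl⟩
    refine Subgroup.le_normalizer_map π ⟨g, ?_, rfl⟩
    refine Subgroup.mem_normalizer_iff.2 fun x => ?_
    exact Subgroup.mem_normalizer_iff.1 (hGI hg) (x : L)
  have hKne := commutator_ne_of_isPGroup hIb hGb hn hne
  set Y := ((⁅Ib, Gb⁆).comap π).map Q.subtype with hY
  have hmemI : ∀ v, v ∈ (Ib.comap π).map Q.subtype → v ∈ I := by
    rintro _ ⟨v, ⟨u, hu, huv⟩, rfl⟩
    have : u⁻¹ * v ∈ M' := QuotientGroup.eq.1 huv
    have h1 := mul_mem (show (u : L) ∈ I from hu) (hMI.le this)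
    rw [map_mul, map_inv] at h1
    simpa using h1
  have hsub : ⁅Ib, Gb⁆ ≤ Ib := commutator_le_of_le_normalizer hn
  have hYI : Y ≤ I := fun v hv => hmemI v ((Subgroup.map_mono (Subgroup.comap_mono hsub)) hv)
  have hMY : M ≤ Y := fun x hx => ⟨⟨x, Subgroup.le_normalizer hx⟩, by
    show π _ ∈ ⁅Ib, Gb⁆
    rw [show π ⟨x, Subgroup.le_normalizer hx⟩ = 1 from (QuotientGroup.eq_one_iff _).2 hx]
    exact one_mem _, rfl⟩
  have hIGY : ⁅I, G⁆ ≤ Y := Subgroup.commutator_le.2 fun u hu g hg =>
    ⟨⁅(⟨u, hIM hu⟩ : Q), ⟨g, hGM hg⟩⁆, by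
      show π _ ∈ ⁅Ib, Gb⁆
      rw [map_commutatorElement]
      exact Subgroup.commutator_mem_commutator ⟨_, hu, rfl⟩ ⟨_, hg, rfl⟩, rfl⟩
  have hGY : G ≤ Subgroup.normalizer (Y : Set L) := by
    have key : ∀ g : Q, (g : L) ∈ G → ∀ y ∈ Y, (g : L) * y * (g : L)⁻¹ ∈ Y := by
      rintro g hg _ ⟨v, hv, rfl⟩
      refine ⟨g * v * g⁻¹, ?_, by simp⟩
      show π (g * v * g⁻¹) ∈ ⁅Ib, Gb⁆
      rw [map_mul, map_mul, map_inv]
      exact (Subgroup.mem_normalizer_iff.1
        (le_normalizer_commutator hn Subgroup.le_normalizer ⟨g, hg, rfl⟩) _).1 hv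
    refine fun g hg => Subgroup.mem_normalizer_iff.2 fun y => ⟨key ⟨g, hGM hg⟩ hg y, fun hy => ?_⟩
    have := key ⟨g⁻¹, inv_mem (hGM hg)⟩ (inv_mem hg) _ hy
    simpa [mul_assoc] using this
  by_cases hYM : Y = M
  · exact hIGY.trans hYM.le
  · exfalso
    have hYI' := hmax Y (lt_of_le_of_ne hMY (Ne.symm hYM)) hYI hGY
    refine hKne (le_antisymm hsub ?_)
    rintro _ ⟨v, hv, rfl⟩
    have : (v : L) ∈ Y := hYI'.symm ▸ hv
    obtain ⟨v', hv', he⟩ := this
    rw [← Subtype.ext he]
    exact hv'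

theorem uniserial (hN : IsPGroup p N) (hG : IsPGroup p G) (hGN : G ≤ Subgroup.normalizer (N : Set L)) (n : ℕ)
    (hn : Nat.card N = p ^ n) :
    ((∀ H : Subgroup L, H ≤ N → G ≤ Subgroup.normalizer (H : Set L) → H ≠ ⊥ → (⁅H, G⁆).relIndex H = p) ↔
        Cfsg.iterCommutator N G (n - 1) ≠ ⊥ ∨ n = 0) ∧
      ((∀ H : Subgroup L, H ≤ N → G ≤ Subgroup.normalizer (H : Set L) → H ≠ ⊥ → (⁅H, G⁆).relIndex H = p) →
        ∀ H : Subgroup L, H ≤ N → G ≤ Subgroup.normalizer (H : Set L) →
          (∃ i ≤ n, H = Cfsg.iterCommutator N G i) ∧ N ≤ Subgroup.normalizer (H : Set L)) := by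
  set I := fun i => Cfsg.iterCommutator N G i with hIdef
  have hI0 : I 0 = N := rfl
  have hIs : ∀ i, I (i + 1) = ⁅I i, G⁆ := fun _ => rfl
  have hIle : ∀ i, I (i + 1) ≤ I i := fun i => commutator_le_of_le_normalizer (iter_props hGN i).2
  have hU : (∀ H : Subgroup L, H ≤ N → G ≤ Subgroup.normalizer (H : Set L) → H ≠ ⊥ → (⁅H, G⁆).relIndex H = p) →
      ∀ i, i ≤ n → Nat.card (I i) = p ^ (n - i) := by
    intro h i
    induction i with
    | zero => intro _; rw [hI0, hn, Nat.sub_zero]
    | succ i ih =>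
      intro hi
      have hc := ih (by omega)
      have hne : I i ≠ ⊥ := fun h0 => by
        rw [h0, Subgroup.card_bot] at hc
        exact absurd hc.symm (by simp [hp.out.ne_one]; omega)
      have hr := h (I i) (iter_props hGN i).1 (iter_props hGN i).2 hne
      have hmul := Subgroup.relIndex_mul_relIndex ⊥ _ _ bot_le (hIle i)
      rw [Subgroup.relIndex_bot_left, Subgroup.relIndex_bot_left, hIs, hr, hc] at hmul
      rw [hIs]
      refine Nat.eq_of_mul_eq_mul_right hp.out.pos (hmul.trans ?_)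
      rw [← pow_succ]; congr 1; omega
  have hV : Cfsg.iterCommutator N G (n - 1) ≠ ⊥ ∨ n = 0 → ∀ i, i ≤ n → Nat.card (I i) = p ^ (n - i) := by
    intro h
    rcases h with h | h
    swap
    · subst h
      intro i hi
      obtain rfl : i = 0 := by omega
      rw [hI0, hn]
    have hne : ∀ j ≤ n - 1, I j ≠ ⊥ := fun j hj e =>
      h (le_bot_iff.1 (e ▸ antitone_nat_of_succ_le hIle hj))
    choose a ha using fun j => IsPGroup.iff_card.mp (hN.to_le (iter_props hGN j).1)
    have hdec : ∀ j ≤ n - 1, a (j + 1) + 1 ≤ a j := fun j hj => by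
      have := (iter_dvd hN hG hGN j).resolve_left (hne j hj)
      rw [ha, ha, ← pow_succ] at this
      exact (Nat.pow_le_pow_iff_right hp.out.one_lt).1 this
    have ha0 : a 0 = n := Nat.pow_right_injective hp.out.two_le ((ha 0).symm.trans hn)
    have hup : ∀ j ≤ n, a j + j ≤ n := by
      intro j
      induction j with
      | zero => intro _; omega
      | succ j ih => intro hj; have := hdec j (by omega); have := ih (by omega); omega
    have hlow : ∀ d ≤ n, d ≤ a (n - d) := by
      intro d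
      induction d with
      | zero => intro _; omega
      | succ d ih =>
        intro hd
        have := hdec (n - (d + 1)) (by omega)
        rw [show n - (d + 1) + 1 = n - d by omega] at this
        have := ih (by omega)
        omega
    intro i hi
    show Nat.card (Cfsg.iterCommutator N G i) = p ^ (n - i)
    rw [ha i]
    congr 1
    have h1 := hup i hi
    have h2 := hlow (n - i) (by omega)
    rw [show n - (n - i) = i by omega] at h2
    omega
  -- classification from the cardinalities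
  have hcls : (∀ i, i ≤ n → Nat.card (I i) = p ^ (n - i)) → ∀ H : Subgroup L, H ≤ N →
      G ≤ Subgroup.normalizer (H : Set L) → ∃ i ≤ n, H = I i := by
    intro hc H hHN hGH
    classical
    have hbot : I n = ⊥ := Subgroup.card_eq_one.1 (by rw [hc n le_rfl, Nat.sub_self, pow_zero])
    set k := Nat.findGreatest (fun i => H ≤ I i) n with hk
    have hkn : k ≤ n := Nat.findGreatest_le n
    have hHk : H ≤ I k := Nat.findGreatest_spec (P := fun i => H ≤ I i) (Nat.zero_le n) hHN
    refine ⟨k, hkn, ?_⟩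
    by_contra hne
    have hkn' : k < n := lt_of_le_of_ne hkn fun e => hne (le_antisymm hHk (by rw [e, hbot]; exact bot_le))
    have : Nonempty {X : Subgroup L // H ≤ X ∧ X < I k ∧ G ≤ Subgroup.normalizer (X : Set L)} :=
      ⟨⟨H, le_rfl, lt_of_le_of_ne hHk hne, hGH⟩⟩
    obtain ⟨⟨M, hHM, hMI, hGM⟩, hmax⟩ := Finite.exists_max
      (fun X : {X : Subgroup L // H ≤ X ∧ X < I k ∧ G ≤ Subgroup.normalizer (X : Set L)} => Nat.card X.1)
    have hle := commutator_le_maximal (hN.to_le (iter_props hGN k).1) hG (iter_props hGN k).2 hMI hGM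
      fun X hMX hXI hGX => by
        by_contra hne'
        have := hmax ⟨X, hHM.trans hMX.le, lt_of_le_of_ne hXI hne', hGX⟩
        exact hMX.ne (Subgroup.eq_of_le_of_card_ge hMX.le this)
    rw [← hIs] at hle
    have heq : I (k + 1) = M := by
      refine Subgroup.eq_of_le_of_card_ge hle ?_
      obtain ⟨b, hb⟩ := IsPGroup.iff_card.mp (hN.to_le (hMI.le.trans (iter_props hGN k).1))
      have h1 : p ^ b < p ^ (n - k) := by
        rw [← hb, ← hc k hkn]
        exact lt_of_le_of_ne (Subgroup.card_le_of_le hMI.le) fun e =>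
          hMI.ne (Subgroup.eq_of_le_of_card_ge hMI.le e.ge)
      have h1' := (Nat.pow_lt_pow_iff_right hp.out.one_lt).1 h1
      rw [hc (k + 1) (by omega), hb]
      exact Nat.pow_le_pow_right hp.out.pos (by omega)
    have := Nat.le_findGreatest (P := fun i => H ≤ I i) (show k + 1 ≤ n by omega) (heq ▸ hHM)
    omega
  have hrel : (∀ i, i ≤ n → Nat.card (I i) = p ^ (n - i)) → ∀ H : Subgroup L, H ≤ N →
      G ≤ Subgroup.normalizer (H : Set L) → H ≠ ⊥ → (⁅H, G⁆).relIndex H = p := by
    intro hc H hHN hGH hne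
    obtain ⟨i, hi, rfl⟩ := hcls hc H hHN hGH
    have hin : i < n := lt_of_le_of_ne hi fun e => hne (Subgroup.card_eq_one.1 (by rw [hc i hi, e, Nat.sub_self, pow_zero]))
    have hmul := Subgroup.relIndex_mul_relIndex ⊥ _ _ bot_le (hIle i)
    rw [Subgroup.relIndex_bot_left, Subgroup.relIndex_bot_left, hc (i + 1) (by omega), hc i hi] at hmul
    rw [← hIs]
    refine Nat.eq_of_mul_eq_mul_left (pow_pos hp.out.pos (n - (i + 1))) (hmul.trans ?_)
    rw [← pow_succ]; congr 1; omega
  refine ⟨⟨fun h => ?_, fun h => hrel (hV h)⟩, fun h H hHN hGH => ?_⟩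
  · rcases Nat.eq_zero_or_pos n with hn0 | hn0
    · exact Or.inr hn0
    refine Or.inl fun h0 => ?_
    have := hU h (n - 1) (by omega)
    rw [show I (n - 1) = ⊥ from h0, Subgroup.card_bot, show n - (n - 1) = 1 by omega, pow_one] at this
    exact hp.out.ne_one this.symm
  · obtain ⟨i, hi, rfl⟩ := hcls (hU h) H hHN hGH
    refine ⟨⟨i, hi, rfl⟩, ?_⟩
    clear hHN hGH
    induction i with
    | zero => exact Subgroup.le_normalizer
    | succ i ih =>
      have hP : N ⊔ G ≤ Subgroup.normalizer (I i : Set L) := sup_le (ih (by omega)) (iter_props hGN i).2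
      have hNGp : IsPGroup p ↥(N ⊔ G) := hN.to_sup_of_normal_left' hG hGN
      have hle : I (i + 1) ≤ ⁅I i, N ⊔ G⁆ := Subgroup.commutator_mono le_rfl le_sup_right
      have hne : I i ≠ ⊥ := fun e => by
        have := hU h i (by omega)
        rw [e, Subgroup.card_bot] at this
        exact absurd this.symm (by simp [hp.out.ne_one]; omega)
      have hlt : ⁅I i, N ⊔ G⁆ ≠ I i := commutator_ne_of_isPGroup (hN.to_le (iter_props hGN i).1) hNGp hP hne
      have heq : I (i + 1) = ⁅I i, N ⊔ G⁆ := by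
        refine Subgroup.eq_of_le_of_card_ge hle ?_
        have hle' := commutator_le_of_le_normalizer hP
        obtain ⟨b, hb⟩ := IsPGroup.iff_card.mp (hN.to_le (hle'.trans (iter_props hGN i).1))
        have h1 : p ^ b < p ^ (n - i) := by
          rw [← hb, ← hU h i (by omega)]
          exact lt_of_le_of_ne (Subgroup.card_le_of_le hle') fun e => hlt (Subgroup.eq_of_le_of_card_ge hle' e.ge)
        have h1' := (Nat.pow_lt_pow_iff_right hp.out.one_lt).1 h1
        rw [hU h (i + 1) hi, hb]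
        exact Nat.pow_le_pow_right hp.out.pos (by omega)
      show N ≤ Subgroup.normalizer (I (i + 1) : Set L)
      rw [heq]
      exact le_sup_left.trans (le_normalizer_commutator hP Subgroup.le_normalizer)

end CfsgLib.PLocalBasics
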